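import Mathlib
import Cfsg.Agent.H26.Small2

set_option autoImplicit false

/-!
# The principal block for a Klein four Sylow subgroup
-/

namespace Cfsg.Agent.H26

open Cfsg Cfsg.Agent.H3 Cfsg.Agent.H11 Cfsg.Agent.H27 Finset
open scoped ComplexConjugate

universe u

section St

variable {G : Type u} [Group G] [Finite G]

theorem st4512 (M : Ideal AlgInt) (hM : IsPModular 2 M) (P : Sylow 2 G)
    (hP : Nat.card P = 4) (hexp : ∀ x : P, x * x = 1)
    (hone : ∀ s t : G, orderOf s = 2 → orderOf t = 2 → IsConj s t) :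
    blockRank 2 (principalBlock M G) = 3 := by
  classical
  have hp2 : Fact (Nat.Prime 2) := ⟨Nat.prime_two⟩
  have := Fintype.ofFinite G
  have := pmod_isPrime hM
  have := charP_KF hM
  have hPp : IsPGroup 2 (P : Subgroup G) := P.2
  have hB : IsPBlock M (principalBlock M G) := isPBlock_principal G
  have hD : IsDefectGroup 2 M (principalBlock M G) (P : Subgroup G) :=
    (st4652 2 M hM _).mpr ⟨P, rfl⟩
  have hV : IsKleinFour (P : Subgroup G) := by
    refine ⟨hP, ?_⟩
    have h1 : Monoid.exponent (P : Subgroup G) ∣ 2 := by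
      apply Monoid.exponent_dvd_of_forall_pow_eq_one
      intro g
      rw [sq]; exact hexp g
    rcases (Nat.dvd_prime Nat.prime_two).mp h1 with h | h
    · exfalso
      have h2 := Monoid.exp_eq_one_iff.mp h
      have h3 : Nat.card (P : Subgroup G) = 1 := Nat.card_unique
      omega
    · exact h
  have hinB : InB 2 (EG M (principalBlock M G)) (P : Subgroup G)
      (EH M (cz (P : Subgroup G)) (principalBlock M (cz (P : Subgroup G)))) := by
    rw [EG_principal, EH_principal]
    exact inB_pb hPp
  have hc : IsInducedBlock M (Subgroup.centralizer ((P : Subgroup G) : Set G))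
      (principalBlock M (cz (P : Subgroup G))) (principalBlock M G) :=
    (isInducedBlock_cz_iff hPp).mpr ⟨isPBlock_principal _, hB, hinB⟩
  have hT : ∀ g : G, g ∈ nz (P : Subgroup G) ↔
      (g ∈ Subgroup.normalizer ((P : Subgroup G) : Set G) ∧
      StabilizesBlock (Subgroup.centralizer ((P : Subgroup G) : Set G))
        (principalBlock M (cz (P : Subgroup G))) g) := by
    intro g
    constructor
    · intro hg
      refine ⟨hg, (stabilizesBlock_iff (isPBlock_principal _) g).mpr ⟨?_, ?_⟩⟩
      · exact normalizer_le_normalizer_centralizer _ hg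
      · change cj g (EH M (cz (P : Subgroup G)) (principalBlock M (cz (P : Subgroup G)))) =
          EH M (cz (P : Subgroup G)) (principalBlock M (cz (P : Subgroup G)))
        rw [EH_principal, cj_pb, cg_cz, cg_eq_of_mem_nz hg]
    · exact fun h => h.1
  obtain ⟨h1, -, h3⟩ := st4637 M hM _ hB (P : Subgroup G) hD hV _ hc _ hT _ rfl
  rcases h1 with h1 | h1
  swap
  · rw [h3, h1]
  exfalso
  -- N(P) = C(P)
  have hNC : nz (P : Subgroup G) ≤ cz (P : Subgroup G) :=
    Subgroup.relIndex_eq_one.mp h1
  have hcomm : IsMulCommutative (P : Subgroup G) := ⟨⟨fun a b => by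
    have h1 := hexp (a * b)
    have h2 := hexp a
    have h3 := hexp b
    have h4 : a * b = (a * b)⁻¹ := eq_inv_of_mul_eq_one_left h1
    rw [h4, mul_inv_rev, inv_eq_of_mul_eq_one_left h2, inv_eq_of_mul_eq_one_left h3]⟩⟩
  obtain ⟨u, hu⟩ : ∃ u : (P : Subgroup G), u ≠ 1 := by
    have : Nontrivial (P : Subgroup G) := by
      rw [← Finite.one_lt_card_iff_nontrivial, hP]; norm_num
    exact exists_ne 1
  obtain ⟨v, hv1, hvu⟩ : ∃ v : (P : Subgroup G), v ≠ 1 ∧ v ≠ u := by
    by_contra hcon
    push Not at hcon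
    have h2 : (univ : Finset (P : Subgroup G)) ⊆ {1, u} := by
      intro v _
      by_cases hv : v = 1
      · simp [hv]
      · simp [hcon v hv]
    have h3 := Finset.card_le_card h2
    have h4 := Finset.card_le_two (a := (1 : (P : Subgroup G))) (b := u)
    rw [Finset.card_univ, ← Nat.card_eq_fintype_card, hP] at h3
    omega
  have ho : ∀ w : (P : Subgroup G), w ≠ 1 → orderOf (w : G) = 2 := by
    intro w hw
    apply orderOf_eq_prime
    · rw [sq]
      exact congrArg Subtype.val (hexp w)
    · exact fun h => hw (Subtype.ext h)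
  have hcj := hone u v (ho u hu) (ho v hv1)
  obtain ⟨g, hg⟩ := isConj_iff.mp hcj
  have hg' : (g⁻¹)⁻¹ * (u : G) * g⁻¹ = v := by rw [inv_inv]; exact hg
  obtain ⟨n, hn, hne⟩ := Sylow.conj_eq_normalizer_conj_of_mem P (u : G) g⁻¹ u.2
    (by rw [hg']; exact v.2)
  have hn' : n ∈ cz (P : Subgroup G) := hNC hn
  have h5 : (u : G) * n = n * u := (Subgroup.mem_centralizer_iff.mp hn') u u.2
  apply hvu
  apply Subtype.ext
  rw [← hg', hne, mul_assoc, h5]
  group

end St

end Cfsg.Agent.H26
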