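import Mathlib
import Cfsg.Agent.H26.Small3
import Cfsg.Agent.H27.CentralChar

set_option autoImplicit false

/-!
# Products of involutions in groups with dihedral or four-group Sylow `2`-subgroup
-/

namespace Cfsg.Agent.H26

open Cfsg Cfsg.Agent.H3 Finset
open scoped ComplexConjugate

universe u

section Pairs

variable {G : Type u} [Group G] [Fintype G]

theorem sum_cl_conj' (z g : G) {A : Type*} [AddCommMonoid A] (F : G → A) :
    ∑ x ∈ H27.cl z, F (g⁻¹ * x * g) = ∑ x ∈ H27.cl z, F x := by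
  classical
  apply Finset.sum_nbij' (fun x => g⁻¹ * x * g) (fun x => g * x * g⁻¹)
  · intro x hx
    rw [H27.mem_cl] at hx ⊢
    exact hx.trans (isConj_iff.mpr ⟨g⁻¹, by rw [inv_inv]⟩)
  · intro x hx
    rw [H27.mem_cl] at hx ⊢
    exact hx.trans (isConj_iff.mpr ⟨g, rfl⟩)
  · intro x _; group
  · intro x _; group
  · intro x _; rfl

theorem sum_pairs_ind' (z : G) (H : Subgroup G) (φ : H → ℂ) :
    ∑ x ∈ H27.cl z, ∑ y ∈ H27.cl z, indFun H φ (x * y) =
      (Nat.card H : ℂ)⁻¹ * ((Nat.card G : ℂ) *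
        ∑ x ∈ H27.cl z, ∑ y ∈ H27.cl z, extendByZero H φ (x * y)) := by
  classical
  simp only [indFun, ← Finset.mul_sum]
  congr 1
  rw [Finset.sum_congr rfl fun x _ => Finset.sum_comm, Finset.sum_comm]
  have h1 : ∀ g : G, ∑ x ∈ H27.cl z, ∑ y ∈ H27.cl z, extendByZero H φ (g⁻¹ * (x * y) * g) =
      ∑ x ∈ H27.cl z, ∑ y ∈ H27.cl z, extendByZero H φ (x * y) := by
    intro g
    have h2 : ∀ x y : G, g⁻¹ * (x * y) * g = (g⁻¹ * x * g) * (g⁻¹ * y * g) := by
      intro x y; group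
    simp only [h2]
    rw [sum_cl_conj' z g (fun x' => ∑ y ∈ H27.cl z, extendByZero H φ (x' * (g⁻¹ * y * g)))]
    apply Finset.sum_congr rfl
    intro x _
    exact sum_cl_conj' z g (fun y' => extendByZero H φ (x * y'))
  rw [Finset.sum_congr rfl fun g _ => h1 g, Finset.sum_const, Finset.card_univ, nsmul_eq_mul,
    Nat.card_eq_fintype_card]

end Pairs

/-- The local structure: `H` of index two in `C(J)`, with a linear character `μ` with kernel of
odd order and `2`-power values, inverted by the elements of `C(J)` outside `H`. -/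
structure DS {G : Type u} [Group G] (J : G) (H : Subgroup G) (μ : H →* ℂˣ) : Prop where
  J2 : J * J = 1
  J1 : J ≠ 1
  HC : H ≤ Subgroup.centralizer {J}
  JH : J ∈ H
  idx : Nat.card (Subgroup.centralizer ({J} : Set G)) = 2 * Nat.card H
  odd : Odd (Nat.card μ.ker)
  two : ∀ x : H, ∃ k, (μ x) ^ (2 ^ k) = 1
  inv : ∀ g ∈ Subgroup.centralizer ({J} : Set G), g ∉ H → ∀ x y : H,
    (y : G) = g⁻¹ * x * g → μ y = (μ x)⁻¹

section Str

variable {G : Type u} [Group G] [Finite G] {J : G} {H : Subgroup G} {μ : H →* ℂˣ}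

theorem DS.comm (_ : DS J H μ) {x : G} (hx : x ∈ Subgroup.centralizer ({J} : Set G)) :
    x * J = J * x := by
  rw [Subgroup.mem_centralizer_singleton_iff] at hx
  exact hx

theorem DS.rel (h : DS J H μ) : (H.subgroupOf (Subgroup.centralizer ({J} : Set G))).index = 2 := by
  have h1 := Subgroup.card_mul_index (H.subgroupOf (Subgroup.centralizer ({J} : Set G)))
  rw [Nat.card_congr (Subgroup.subgroupOfEquivOfLe h.HC).toEquiv, h.idx, mul_comm] at h1
  exact Nat.eq_of_mul_eq_mul_right Nat.card_pos h1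

theorem DS.mul_mem_iff (h : DS J H μ) {x y : G} (hx : x ∈ Subgroup.centralizer ({J} : Set G))
    (hy : y ∈ Subgroup.centralizer ({J} : Set G)) : x * y ∈ H ↔ (x ∈ H ↔ y ∈ H) := by
  have h1 := Subgroup.mul_mem_iff_of_index_two h.rel (a := ⟨x, hx⟩) (b := ⟨y, hy⟩)
  simpa only [Subgroup.mem_subgroupOf, Subgroup.coe_mul] using h1

theorem DS.conj_mem (h : DS J H μ) {g x : G} (hg : g ∈ Subgroup.centralizer ({J} : Set G))
    (hx : x ∈ H) : g⁻¹ * x * g ∈ H := by
  have hn : (H.subgroupOf (Subgroup.centralizer ({J} : Set G))).Normal :=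
    Subgroup.normal_of_index_eq_two h.rel
  have h1 := hn.conj_mem ⟨x, h.HC hx⟩ (Subgroup.mem_subgroupOf.mpr hx) ⟨g, hg⟩⁻¹
  have h2 := Subgroup.mem_subgroupOf.mp h1
  simpa using h2

theorem odd_of_mem_ker (h : DS J H μ) {x : H} (hx : μ x = 1) : Odd (orderOf x) := by
  have h1 : orderOf (⟨x, hx⟩ : μ.ker) ∣ Nat.card μ.ker := orderOf_dvd_natCard _
  have h2 : orderOf (⟨x, hx⟩ : μ.ker) = orderOf x := by
    rw [← Subgroup.orderOf_coe]
  rw [← h2]
  exact Odd.of_dvd_nat h.odd h1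

theorem DS.eq_one_of_sq (h : DS J H μ) {x : H} (hx : μ x = 1) (h2 : x * x = 1) : x = 1 := by
  have h1 := odd_of_mem_ker h hx
  have h3 : orderOf x ∣ 2 := orderOf_dvd_of_pow_eq_one (by rw [sq]; exact h2)
  rcases (Nat.dvd_prime Nat.prime_two).mp h3 with h4 | h4
  · exact orderOf_eq_one_iff.mp h4
  · rw [h4] at h1
    exact absurd h1 (by decide)

theorem units_eq_neg_one {a : ℂˣ} (h1 : a ≠ 1) (h2 : a * a = 1) : a = -1 := by
  have h3 : (a : ℂ) * a = 1 := congrArg Units.val h2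
  have h4 : ((a : ℂ) - 1) * (a + 1) = 0 := by linear_combination h3
  rcases mul_eq_zero.mp h4 with h5 | h5
  · exact absurd (Units.ext (sub_eq_zero.mp h5)) h1
  · apply Units.ext
    rw [Units.val_neg, Units.val_one]
    exact eq_neg_of_add_eq_zero_left h5

theorem DS.mu_J (h : DS J H μ) : μ ⟨J, h.JH⟩ = -1 := by
  apply units_eq_neg_one
  · intro h1
    have h2 := h.eq_one_of_sq h1 (Subtype.ext h.J2)
    exact h.J1 (congrArg Subtype.val h2)
  · rw [← map_mul]
    have : (⟨J, h.JH⟩ : H) * ⟨J, h.JH⟩ = 1 := Subtype.ext h.J2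
    rw [this, map_one]

theorem DS.eq_J (h : DS J H μ) {x : H} (h2 : x * x = 1) (h1 : x ≠ 1) : (x : G) = J := by
  have e1 : μ x = -1 := by
    apply units_eq_neg_one
    · intro h3; exact h1 (h.eq_one_of_sq h3 h2)
    · rw [← map_mul, h2, map_one]
  have e2 : μ (x * ⟨J, h.JH⟩) = 1 := by
    rw [map_mul, e1, h.mu_J, neg_mul_neg, one_mul]
  have e3 : (x : G) * J = J * x := h.comm (h.HC x.2)
  have e4 : (x * ⟨J, h.JH⟩) * (x * ⟨J, h.JH⟩) = 1 := by
    apply Subtype.ext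
    change (x : G) * J * (x * J) = 1
    calc (x : G) * J * (x * J) = (x * J) * (J * x) := by rw [e3]
      _ = x * (J * J) * x := by group
      _ = x * x := by rw [h.J2, mul_one]
      _ = 1 := congrArg Subtype.val h2
  have e5 := congrArg Subtype.val (h.eq_one_of_sq e2 e4)
  have e6 : (x : G) * J = 1 := e5
  rw [eq_inv_of_mul_eq_one_left e6, inv_eq_of_mul_eq_one_left h.J2]

theorem DS.J_mem (h : DS J H μ) {x : H} (hx : μ x ≠ 1) : J ∈ Subgroup.zpowers (x : G) := by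
  classical
  have hex := h.two x
  have hk := Nat.find_spec hex
  set k := Nat.find hex with hkdef
  have hk0 : k ≠ 0 := by
    intro h0
    rw [h0, pow_zero, pow_one] at hk
    exact hx hk
  obtain ⟨j, hj⟩ := Nat.exists_eq_succ_of_ne_zero hk0
  have hj1 : (μ x) ^ (2 ^ j) ≠ 1 := fun h0 => by
    have := Nat.find_min' hex h0
    omega
  have hj2 : (μ x) ^ (2 ^ j) = -1 := by
    apply units_eq_neg_one hj1
    rw [← pow_add, ← two_mul, ← pow_succ', ← Nat.succ_eq_add_one, ← hj]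
    exact hk
  have e1 : (μ (x ^ (2 ^ j))) = -1 := by rw [map_pow, hj2]
  have e2 : μ (x ^ (2 ^ j * Nat.card μ.ker)) = -1 := by
    rw [pow_mul, map_pow, e1]
    exact Odd.neg_one_pow h.odd
  have e3 : (x ^ (2 ^ j * Nat.card μ.ker)) * (x ^ (2 ^ j * Nat.card μ.ker)) = 1 := by
    have h3 : μ (x ^ (2 ^ j) * x ^ (2 ^ j)) = 1 := by
      rw [map_mul, e1, neg_mul_neg, one_mul]
    have h4 : (⟨_, h3⟩ : μ.ker) ^ Nat.card μ.ker = 1 := pow_card_eq_one'
    have h5 : (x ^ (2 ^ j) * x ^ (2 ^ j)) ^ Nat.card μ.ker = 1 := congrArg Subtype.val h4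
    rw [← h5, (Commute.refl _).mul_pow, ← pow_mul]
  have e4 : x ^ (2 ^ j * Nat.card μ.ker) ≠ 1 := by
    intro h0
    rw [h0, map_one] at e2
    have := congrArg Units.val e2
    rw [Units.val_neg, Units.val_one] at this
    norm_num at this
  have e5 := h.eq_J e3 e4
  rw [← e5]
  exact ⟨((2 ^ j * Nat.card μ.ker : ℕ) : ℤ), by
    change (x : G) ^ (((2 ^ j * Nat.card μ.ker : ℕ) : ℤ)) = _
    rw [zpow_natCast]; rfl⟩

/-- If the product of two involutions is in `H` outside the kernel, both are in `C(J)` outside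
`H`. -/
theorem DS.factors (h : DS J H μ) {x y : G} (hx : x * x = 1) (hy : y * y = 1) (hx1 : x ≠ 1)
    (hy1 : y ≠ 1) (hxy : x * y ∈ H) (hne : μ ⟨x * y, hxy⟩ ≠ 1) :
    x ∈ Subgroup.centralizer ({J} : Set G) ∧ x ∉ H ∧ y ∈ Subgroup.centralizer ({J} : Set G) ∧
      y ∉ H := by
  obtain ⟨n, hn⟩ := h.J_mem hne
  have hn' : (x * y) ^ n = J := hn
  have hxi : x⁻¹ = x := inv_eq_of_mul_eq_one_left hx
  have hyi : y⁻¹ = y := inv_eq_of_mul_eq_one_left hy
  have e1 : x * (x * y) * x⁻¹ = (x * y)⁻¹ := by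
    rw [mul_inv_rev, hxi, hyi, ← mul_assoc, hx, one_mul]
  have e2 : x * J * x⁻¹ = J := by
    rw [← hn', ← conj_zpow, e1, inv_zpow, hn', inv_eq_of_mul_eq_one_left h.J2]
  have hxC : x ∈ Subgroup.centralizer ({J} : Set G) := by
    rw [Subgroup.mem_centralizer_singleton_iff]
    exact mul_inv_eq_iff_eq_mul.mp e2
  have hyC : y ∈ Subgroup.centralizer ({J} : Set G) := by
    have : y = x⁻¹ * (x * y) := by group
    rw [this]
    exact mul_mem (inv_mem hxC) (h.HC hxy)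
  have h1 := (h.mul_mem_iff hxC hyC).mp hxy
  have h2 : x ∉ H := by
    intro hxH
    have hyH := h1.mp hxH
    apply hne
    have e3 : ∀ w : G, w ∈ H → w * w = 1 → w ≠ 1 → w = J := fun w hw h2 h3 =>
      h.eq_J (x := ⟨w, hw⟩) (Subtype.ext h2) (fun h4 => h3 (congrArg Subtype.val h4))
    have : (⟨x * y, hxy⟩ : H) = 1 := Subtype.ext (by
      change x * y = 1
      rw [e3 x hxH hx hx1, e3 y hyH hy hy1]; exact h.J2)
    rw [this, map_one]
  exact ⟨hxC, h2, hyC, fun hyH => h2 (h1.mpr hyH)⟩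

theorem cl_sq {x : G} [Fintype G] (h : DS J H μ) (hx : x ∈ H27.cl J) : x * x = 1 ∧ x ≠ 1 := by
  obtain ⟨g, rfl⟩ := isConj_iff.mp (H27.mem_cl.mp hx)
  constructor
  · calc g * J * g⁻¹ * (g * J * g⁻¹) = g * (J * J) * g⁻¹ := by group
      _ = 1 := by rw [h.J2]; group
  · intro h1
    apply h.J1
    have : J = g⁻¹ * (g * J * g⁻¹) * g := by group
    rw [this, h1]; group

end Str

section Sum

variable {G : Type u} [Group G] [Fintype G] {J : G} {H : Subgroup G} {μ : H →* ℂˣ}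

open Classical in
/-- conjugates of `J` in `C(J)` outside `H` -/
noncomputable def Iset (J : G) (H : Subgroup G) : Finset G :=
  (H27.cl J).filter (fun x => x ∈ Subgroup.centralizer ({J} : Set G) ∧ x ∉ H)

theorem mem_Iset {x : G} : x ∈ Iset J H ↔
    IsConj J x ∧ x ∈ Subgroup.centralizer ({J} : Set G) ∧ x ∉ H := by
  classical
  rw [Iset, Finset.mem_filter, H27.mem_cl]

theorem DS.prod_mem (h : DS J H μ) {x y : G} (hx : x ∈ Iset J H) (hy : y ∈ Iset J H) :
    x * y ∈ H := by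
  rw [mem_Iset] at hx hy
  rw [h.mul_mem_iff hx.2.1 hy.2.1]
  exact ⟨fun h1 => absurd h1 hx.2.2, fun h1 => absurd h1 hy.2.2⟩

theorem DS.sum_cl (h : DS J H μ) {φ : H → ℂ} (hφ : ∀ x, μ x = 1 → φ x = 0) :
    ∑ x ∈ H27.cl J, ∑ y ∈ H27.cl J, extendByZero H φ (x * y) =
      ∑ x ∈ Iset J H, ∑ y ∈ Iset J H, extendByZero H φ (x * y) := by
  classical
  have key : ∀ x ∈ H27.cl J, ∀ y ∈ H27.cl J, extendByZero H φ (x * y) ≠ 0 →
      x ∈ Iset J H ∧ y ∈ Iset J H := by
    intro x hx y hy hne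
    by_cases hxy : x * y ∈ H
    · rw [extendByZero_mem H φ hxy] at hne
      have h1 : μ ⟨x * y, hxy⟩ ≠ 1 := fun h1 => hne (hφ _ h1)
      obtain ⟨hx1, hx2⟩ := cl_sq h hx
      obtain ⟨hy1, hy2⟩ := cl_sq h hy
      obtain ⟨e1, e2, e3, e4⟩ := h.factors hx1 hy1 hx2 hy2 hxy h1
      rw [H27.mem_cl] at hx hy
      exact ⟨mem_Iset.mpr ⟨hx, e1, e2⟩, mem_Iset.mpr ⟨hy, e3, e4⟩⟩
    · exact absurd (extendByZero_not_mem H φ hxy) hne
  have hsub : Iset J H ⊆ H27.cl J := Finset.filter_subset _ _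
  have h1 : ∀ x ∈ H27.cl J, ∑ y ∈ H27.cl J, extendByZero H φ (x * y) =
      ∑ y ∈ Iset J H, extendByZero H φ (x * y) := by
    intro x hx
    symm
    apply Finset.sum_subset hsub
    intro y hy hyI
    by_contra hne
    exact hyI (key x hx y hy hne).2
  rw [Finset.sum_congr rfl h1]
  symm
  apply Finset.sum_subset hsub
  intro x hx hxI
  apply Finset.sum_eq_zero
  intro y hy
  by_contra hne
  exact hxI (key x hx y (hsub hy) hne).1

theorem DS.sum_cl_one_sub (h : DS J H μ)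
    (hS : ∑ x ∈ Iset J H, ∑ y ∈ Iset J H, extendByZero H (fun z => (μ z : ℂ)) (x * y) = 0) :
    ∑ x ∈ H27.cl J, ∑ y ∈ H27.cl J, extendByZero H (fun z => 1 - (μ z : ℂ)) (x * y) =
      ((Iset J H).card : ℂ) ^ 2 := by
  rw [h.sum_cl (fun x hx => by rw [hx, Units.val_one, sub_self])]
  have h1 : ∀ x ∈ Iset J H, ∀ y ∈ Iset J H, extendByZero H (fun z => 1 - (μ z : ℂ)) (x * y) =
      1 - extendByZero H (fun z => (μ z : ℂ)) (x * y) := by
    intro x hx y hy
    have hxy := h.prod_mem hx hy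
    rw [extendByZero_mem _ _ hxy, extendByZero_mem _ _ hxy]
  rw [Finset.sum_congr rfl fun x hx => Finset.sum_congr rfl fun y hy => h1 x hx y hy]
  simp only [Finset.sum_sub_distrib]
  rw [hS, sub_zero]
  simp only [Finset.sum_const, nsmul_eq_mul, mul_one]
  ring

/-- the second sum vanishes if `μ ^ 2 ≠ 1` -/
theorem DS.sum_zero (h : DS J H μ) {s : H} (hs : μ s * μ s ≠ 1) :
    ∑ x ∈ Iset J H, ∑ y ∈ Iset J H, extendByZero H (fun z => (μ z : ℂ)) (x * y) = 0 := by
  classical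
  have hsC : (s : G) ∈ Subgroup.centralizer ({J} : Set G) := h.HC s.2
  have h1 : ∀ x ∈ Iset J H, ∑ y ∈ Iset J H, extendByZero H (fun z => (μ z : ℂ)) (x * y) =
      (μ s * μ s : ℂˣ) * ∑ y ∈ Iset J H, extendByZero H (fun z => (μ z : ℂ)) (x * y) := by
    intro x hx
    have hmem : ∀ y ∈ Iset J H, ∀ t ∈ H, t⁻¹ * y * t ∈ Iset J H := by
      intro y hy t ht
      rw [mem_Iset] at hy ⊢
      have htC := h.HC ht
      refine ⟨hy.1.trans (isConj_iff.mpr ⟨t⁻¹, by rw [inv_inv]⟩),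
        mul_mem (mul_mem (inv_mem htC) hy.2.1) htC, fun hm => hy.2.2 ?_⟩
      have : y = t * (t⁻¹ * y * t) * t⁻¹ := by group
      rw [this]
      exact mul_mem (mul_mem ht hm) (inv_mem ht)
    have h2 : ∑ y ∈ Iset J H, extendByZero H (fun z => (μ z : ℂ)) (x * y) =
        ∑ y ∈ Iset J H, extendByZero H (fun z => (μ z : ℂ)) (x * ((s : G)⁻¹ * y * s)) := by
      symm
      apply Finset.sum_nbij' (fun y => (s : G)⁻¹ * y * s) (fun y => (s : G) * y * (s : G)⁻¹)
      · intro y hy; exact hmem y hy s s.2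
      · intro y hy
        have := hmem y hy (s : G)⁻¹ (inv_mem s.2)
        rwa [inv_inv] at this
      · intro y _; group
      · intro y _; group
      · intro y _; rfl
    refine h2.trans ?_
    rw [Finset.mul_sum]
    apply Finset.sum_congr rfl
    intro y hy
    have hxy := h.prod_mem hx hy
    have hxy' := h.prod_mem hx (hmem y hy s s.2)
    rw [extendByZero_mem _ _ hxy, extendByZero_mem _ _ hxy']
    have hyC := (mem_Iset.mp hy).2.1
    have hyH := (mem_Iset.mp hy).2.2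
    have e1 : y⁻¹ * (s : G)⁻¹ * y ∈ H := h.conj_mem hyC (inv_mem s.2)
    have e2 : μ ⟨y⁻¹ * (s : G)⁻¹ * y, e1⟩ = (μ s⁻¹)⁻¹ := h.inv y hyC hyH s⁻¹ _ rfl
    have e3 : (⟨x * ((s : G)⁻¹ * y * s), hxy'⟩ : H) =
        ⟨x * y, hxy⟩ * ⟨y⁻¹ * (s : G)⁻¹ * y, e1⟩ * s := by
      apply Subtype.ext
      change x * ((s : G)⁻¹ * y * s) = (x * y) * (y⁻¹ * (s : G)⁻¹ * y) * s
      group
    rw [e3, map_mul, map_mul, e2, map_inv, inv_inv]
    push_cast
    ring
  have h2 : ∑ x ∈ Iset J H, ∑ y ∈ Iset J H, extendByZero H (fun z => (μ z : ℂ)) (x * y) =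
      (μ s * μ s : ℂˣ) *
        ∑ x ∈ Iset J H, ∑ y ∈ Iset J H, extendByZero H (fun z => (μ z : ℂ)) (x * y) := by
    rw [Finset.mul_sum]
    exact Finset.sum_congr rfl h1
  have h3 : (1 - ((μ s * μ s : ℂˣ) : ℂ)) *
      ∑ x ∈ Iset J H, ∑ y ∈ Iset J H, extendByZero H (fun z => (μ z : ℂ)) (x * y) = 0 := by
    rw [sub_mul, one_mul, ← h2, sub_self]
  rcases mul_eq_zero.mp h3 with h4 | h4
  · exfalso
    apply hs
    apply Units.ext
    rw [Units.val_one]
    exact (sub_eq_zero.mp h4).symm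
  · exact h4

end Sum

end Cfsg.Agent.H26
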