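import Mathlib
import Cfsg.Agent.H26.Dih1

set_option autoImplicit false

/-!
# The induced generalized character of norm three
-/

namespace Cfsg.Agent.H26

open Cfsg Cfsg.Agent.H3 Finset
open scoped ComplexConjugate

universe u

section Char

variable {G : Type u} [Group G] [Fintype G] {J : G} {H : Subgroup G} {μ : H →* ℂˣ}

theorem DS.ind_apply (h : DS J H μ) (F : ℂˣ → ℂ) (hF : F 1 = 0) (x : H) :
    indFun H (fun z => F (μ z)) x = F (μ x) + F (μ x)⁻¹ := by
  classical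
  have hHne : (Nat.card H : ℂ) ≠ 0 := by exact_mod_cast Nat.card_pos.ne'
  have key : ∀ g : G, extendByZero H (fun z => F (μ z)) (g⁻¹ * (x : G) * g) =
      (if g ∈ H then F (μ x) - F (μ x)⁻¹ else 0) +
      (if g ∈ Subgroup.centralizer ({J} : Set G) then F (μ x)⁻¹ else 0) := by
    intro g
    by_cases hgC : g ∈ Subgroup.centralizer ({J} : Set G)
    · have hm := h.conj_mem hgC x.2
      rw [extendByZero_mem _ _ hm, if_pos hgC]
      by_cases hgH : g ∈ H
      · rw [if_pos hgH]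
        have : (⟨g⁻¹ * x * g, hm⟩ : H) = (⟨g, hgH⟩ : H)⁻¹ * x * ⟨g, hgH⟩ := rfl
        rw [this, map_mul, map_mul, map_inv, mul_comm _ (μ x), mul_assoc, inv_mul_cancel, mul_one]
        ring
      · rw [if_neg hgH, h.inv g hgC hgH x _ rfl]
        ring
    · have hgH : g ∉ H := fun hg => hgC (h.HC hg)
      rw [if_neg hgH, if_neg hgC, add_zero]
      by_cases hm : g⁻¹ * (x : G) * g ∈ H
      · rw [extendByZero_mem _ _ hm]
        by_cases h1 : μ ⟨g⁻¹ * (x : G) * g, hm⟩ = 1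
        · rw [h1, hF]
        · exfalso
          obtain ⟨n, hn⟩ := h.J_mem h1
          have hn' : (g⁻¹ * (x : G) * g) ^ n = J := hn
          have e1 : g * J * g⁻¹ = (x : G) ^ n := by
            rw [← hn']
            have : g⁻¹ * (x : G) * g = g⁻¹ * x * (g⁻¹)⁻¹ := by rw [inv_inv]
            rw [this, conj_zpow]
            group
          have e2 : g * J * g⁻¹ ∈ H := by rw [e1]; exact zpow_mem x.2 n
          have e3 : (⟨g * J * g⁻¹, e2⟩ : H) * ⟨g * J * g⁻¹, e2⟩ = 1 := by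
            apply Subtype.ext
            change g * J * g⁻¹ * (g * J * g⁻¹) = 1
            calc g * J * g⁻¹ * (g * J * g⁻¹) = g * (J * J) * g⁻¹ := by group
              _ = 1 := by rw [h.J2]; group
          have e4 : (⟨g * J * g⁻¹, e2⟩ : H) ≠ 1 := by
            intro h0
            apply h.J1
            have h0' : g * J * g⁻¹ = 1 := congrArg Subtype.val h0
            have : J = g⁻¹ * (g * J * g⁻¹) * g := by group
            rw [this, h0']; group
          have e5 := h.eq_J e3 e4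
          have e6 : g * J * g⁻¹ = J := e5
          apply hgC
          rw [Subgroup.mem_centralizer_singleton_iff]
          exact mul_inv_eq_iff_eq_mul.mp e6
      · rw [extendByZero_not_mem _ _ hm]
  have hcard : ∀ K : Subgroup G, (∑ g : G, (if g ∈ K then (1 : ℂ) else 0)) = Nat.card K := by
    intro K
    rw [Finset.sum_boole, Nat.card_eq_fintype_card, Fintype.card_subtype]
  have h1 : ∀ (K : Subgroup G) (c : ℂ), (∑ g : G, (if g ∈ K then c else 0)) = Nat.card K * c := by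
    intro K c
    rw [← hcard K, Finset.sum_mul]
    apply Finset.sum_congr rfl
    intro g _
    split_ifs <;> ring
  unfold indFun
  rw [Finset.sum_congr rfl fun g _ => key g, Finset.sum_add_distrib, h1, h1, h.idx]
  push_cast
  field_simp
  ring

theorem conj_unit_eq_inv {K : Type*} [Group K] [Finite K] (μ : K →* ℂˣ) (x : K) :
    conj ((μ x : ℂ)) = ((μ x)⁻¹ : ℂˣ) := by
  have h1 : ‖(μ x : ℂ)‖ = 1 := by
    have h2 : (μ x : ℂ) ^ (orderOf x) = 1 := by
      have : (μ x) ^ (orderOf x) = 1 := by rw [← map_pow, pow_orderOf_eq_one, map_one]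
      have h3 := congrArg Units.val this
      rwa [Units.val_pow_eq_pow_val, Units.val_one] at h3
    exact Complex.norm_eq_one_of_pow_eq_one h2 (orderOf_pos x).ne'
  rw [Units.val_inv_eq_inv_val]
  exact (Complex.inv_eq_conj h1).symm

theorem sum_unit_zero {K : Type*} [Group K] [Fintype K] {μ : K →* ℂˣ} (h : ∃ x, μ x ≠ 1) :
    ∑ x : K, (μ x : ℂ) = 0 := by
  apply sum_hom_units_eq_zero ((Units.coeHom ℂ).comp μ)
  intro h1
  obtain ⟨x, hx⟩ := h
  apply hx
  apply Units.ext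
  exact DFunLike.congr_fun h1 x

theorem DS.norm_three (h : DS J H μ) {s : H} (hs : μ s * μ s ≠ 1) :
    classInner (indFun H (fun z => 1 - (μ z : ℂ))) (indFun H (fun z => 1 - (μ z : ℂ))) = 3 := by
  classical
  rw [frobenius_reciprocity H _ (indFun_classFun H _)]
  unfold classInner
  have hHne : (Nat.card H : ℂ) ≠ 0 := by exact_mod_cast Nat.card_pos.ne'
  have h1 : ∀ x : H, (1 - (μ x : ℂ)) * conj (indFun H (fun z => 1 - (μ z : ℂ)) (x : G)) =
      3 - ((μ⁻¹ x : ℂˣ) : ℂ) - 3 * (μ x : ℂ) + ((μ * μ) x : ℂˣ) := by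
    intro x
    have hinv : (((μ x)⁻¹ : ℂˣ) : ℂ) * (μ x : ℂ) = 1 := Units.inv_mul _
    have e0 : ((μ⁻¹ x : ℂˣ) : ℂ) = ((μ x)⁻¹ : ℂˣ) := rfl
    have e1 : (((μ * μ) x : ℂˣ) : ℂ) = (μ x : ℂ) * μ x := rfl
    rw [e0, e1]
    by_cases hx : μ x = 1
    · rw [hx, inv_one, Units.val_one]; ring
    · have h2 := h.ind_apply (fun c => 1 - (c : ℂ)) (by rw [Units.val_one, sub_self]) x
      rw [h2, map_add, map_sub, map_sub, map_one, conj_unit_eq_inv μ x]
      have h3 : conj ((((μ x)⁻¹ : ℂˣ)) : ℂ) = (μ x : ℂ) := by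
        rw [← conj_unit_eq_inv μ x, Complex.conj_conj]
      rw [h3]
      linear_combination hinv
  rw [Finset.sum_congr rfl fun x _ => h1 x, Finset.sum_add_distrib, Finset.sum_sub_distrib,
    Finset.sum_sub_distrib, ← Finset.mul_sum, sum_unit_zero (μ := μ⁻¹), sum_unit_zero (μ := μ),
    sum_unit_zero (μ := μ * μ)]
  · rw [Finset.sum_const, Finset.card_univ, nsmul_eq_mul, Nat.card_eq_fintype_card]
    rw [Nat.card_eq_fintype_card] at hHne
    field_simp
    ring
  · exact ⟨s, hs⟩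
  · refine ⟨s, fun h0 => hs ?_⟩
    rw [h0, one_mul]
  · refine ⟨s, fun h0 => hs ?_⟩
    have h0' : (μ s)⁻¹ = 1 := h0
    rw [inv_eq_one.mp h0', one_mul]

theorem DS.isGen (_ : DS J H μ) :
    IsGeneralizedCharacter G (indFun H (fun z => 1 - (μ z : ℂ))) := by
  apply isGen_ind
  exact isGen_sub isGen_one (isGen_of_irr (isIrr_of_hom μ))

theorem exists_third {ι : Type*} [Fintype ι] [DecidableEq ι] (m : ι → ℤ) {a b : ι}
    (hab : a ≠ b) (ha : m a ^ 2 = 1) (hb : m b ^ 2 = 1) (hs : ∑ i, m i ^ 2 = 3) :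
    ∃ c, c ≠ a ∧ c ≠ b ∧ m c ^ 2 = 1 ∧ ∀ i, i ≠ a → i ≠ b → i ≠ c → m i = 0 := by
  have h1 := Finset.add_sum_erase univ (fun i => m i ^ 2) (Finset.mem_univ a)
  have hb' : b ∈ univ.erase a := Finset.mem_erase.mpr ⟨hab.symm, Finset.mem_univ _⟩
  have h2 := Finset.add_sum_erase (univ.erase a) (fun i => m i ^ 2) hb'
  have h3 : ∑ i ∈ (univ.erase a).erase b, m i ^ 2 = 1 := by
    rw [ha] at h1
    rw [hb] at h2
    omega
  have h4 : ∃ c ∈ (univ.erase a).erase b, m c ^ 2 ≠ 0 := by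
    by_contra hcon
    push Not at hcon
    rw [Finset.sum_eq_zero hcon] at h3
    omega
  obtain ⟨c, hc, hc0⟩ := h4
  have h5 := Finset.add_sum_erase ((univ.erase a).erase b) (fun i => m i ^ 2) hc
  have h6 : 0 ≤ ∑ i ∈ ((univ.erase a).erase b).erase c, m i ^ 2 :=
    Finset.sum_nonneg fun i _ => sq_nonneg _
  have h7 : 0 < m c ^ 2 := lt_of_le_of_ne (sq_nonneg _) (Ne.symm hc0)
  obtain ⟨hcb, hc2⟩ := Finset.mem_erase.mp hc
  obtain ⟨hca, -⟩ := Finset.mem_erase.mp hc2
  refine ⟨c, hca, hcb, by omega, ?_⟩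
  intro i hia hib hic
  have h8 : ∑ i ∈ ((univ.erase a).erase b).erase c, m i ^ 2 = 0 := by omega
  have h9 := (Finset.sum_eq_zero_iff_of_nonneg fun i _ => sq_nonneg _).mp h8 i (by
    simp [hia, hib, hic])
  exact pow_eq_zero_iff (two_ne_zero) |>.mp h9

/-- The class sum relation. -/
theorem sum_cl_cl_irr {χ : G → ℂ} (hχ : IsIrrCharacter G χ) (z : G) :
    ∑ x ∈ H27.cl z, ∑ y ∈ H27.cl z, χ (x * y) =
      ((Subgroup.centralizer ({z} : Set G)).index : ℂ) ^ 2 * (χ z ^ 2 / χ 1) := by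
  have h1 := H27.centralChar_mul_centralChar hχ z z
  have h0 := H27.isIrr_one_ne_zero hχ
  have h2 : ∑ x ∈ H27.cl z, ∑ y ∈ H27.cl z, χ (x * y) =
      centralChar χ z * centralChar χ z * χ 1 := by
    rw [h1, div_mul_cancel₀ _ h0]
  rw [h2]
  unfold centralChar
  field_simp

theorem DS.order_formula (h : DS J H μ)
    (hS : ∑ x ∈ Iset J H, ∑ y ∈ Iset J H, extendByZero H (fun z => (μ z : ℂ)) (x * y) = 0)
    {n : ℕ} (χ : Fin n → IrrCharacter G) (m : Fin n → ℂ)
    (hf : ∀ g, indFun H (fun z => 1 - (μ z : ℂ)) g = ∑ i, m i * (χ i : G → ℂ) g) :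
    (Nat.card G : ℂ) * ∑ i, m i * ((χ i : G → ℂ) J ^ 2 / (χ i : G → ℂ) 1) =
      2 * (Nat.card (Subgroup.centralizer ({J} : Set G)) : ℂ) * ((Iset J H).card : ℂ) ^ 2 := by
  classical
  have hHne : (Nat.card H : ℂ) ≠ 0 := by exact_mod_cast Nat.card_pos.ne'
  have hG : (Nat.card G : ℂ) = Nat.card (Subgroup.centralizer ({J} : Set G)) *
      (Subgroup.centralizer ({J} : Set G)).index := by
    exact_mod_cast (Subgroup.card_mul_index _).symm
  have h1 := sum_pairs_ind' J H (fun z => 1 - (μ z : ℂ))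
  rw [h.sum_cl_one_sub hS] at h1
  have h2 : ∑ x ∈ H27.cl J, ∑ y ∈ H27.cl J, indFun H (fun z => 1 - (μ z : ℂ)) (x * y) =
      ((Subgroup.centralizer ({J} : Set G)).index : ℂ) ^ 2 *
        ∑ i, m i * ((χ i : G → ℂ) J ^ 2 / (χ i : G → ℂ) 1) := by
    rw [Finset.sum_congr rfl fun x _ => Finset.sum_congr rfl fun y _ => hf (x * y)]
    rw [Finset.sum_congr rfl fun x _ => Finset.sum_comm, Finset.sum_comm, Finset.mul_sum]
    apply Finset.sum_congr rfl
    intro i _
    simp only [← Finset.mul_sum]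
    rw [sum_cl_cl_irr (χ i).2]
    ring
  rw [h2] at h1
  have hC : (Nat.card (Subgroup.centralizer ({J} : Set G)) : ℂ) = 2 * Nat.card H := by
    exact_mod_cast h.idx
  have hidx : ((Subgroup.centralizer ({J} : Set G)).index : ℂ) ≠ 0 := by
    have : (Subgroup.centralizer ({J} : Set G)).index ≠ 0 := Subgroup.index_ne_zero_of_finite
    exact_mod_cast this
  rw [hG, hC] at h1 ⊢
  have h3 : ((Subgroup.centralizer ({J} : Set G)).index : ℂ) *
        ∑ i, m i * ((χ i : G → ℂ) J ^ 2 / (χ i : G → ℂ) 1) = 2 * ((Iset J H).card : ℂ) ^ 2 := by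
    apply mul_left_cancel₀ hidx
    calc _ = ((Subgroup.centralizer ({J} : Set G)).index : ℂ) ^ 2 *
        ∑ i, m i * ((χ i : G → ℂ) J ^ 2 / (χ i : G → ℂ) 1) := by ring
      _ = _ := by rw [h1]; field_simp
  linear_combination (2 * (Nat.card H : ℂ)) * h3

end Char

end Cfsg.Agent.H26
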