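import Mathlib
import Cfsg.Agent.H26.Dih2
import Cfsg.Agent.H4.KleinSylow
import Cfsg.Agent.S0514

set_option autoImplicit false

/-!
# Construction of the local structure from a dihedral Sylow `2`-subgroup
-/

namespace Cfsg.Agent.H26

open Cfsg Cfsg.Agent.H3 Finset
open scoped ComplexConjugate

universe u

section Dihedral

variable {G : Type u} [Group G]

/-- dihedral generators for a Sylow `2`-subgroup; `σ` has order `2 ^ (m + 1)` -/
structure DData (P : Subgroup G) (σ τ : G) (m : ℕ) : Prop where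
  hσ : σ ∈ P
  hτ : τ ∈ P
  ho : orderOf σ = 2 ^ (m + 1)
  ht : τ * τ = 1
  hne : τ ∉ Subgroup.zpowers σ
  hrel : τ * σ * τ⁻¹ = σ⁻¹
  hgen : Subgroup.closure ({σ, τ} : Set G) = P

variable {P : Subgroup G} {σ τ : G} {m : ℕ}

theorem DData.tinv (h : DData P σ τ m) : τ⁻¹ = τ := inv_eq_of_mul_eq_one_left h.ht

theorem DData.cj_zpow (h : DData P σ τ m) (i : ℤ) : τ * σ ^ i * τ⁻¹ = σ ^ (-i) := by
  rw [← conj_zpow, h.hrel, inv_zpow, zpow_neg]

theorem DData.zp_mul (h : DData P σ τ m) (i : ℤ) : σ ^ i * τ = τ * σ ^ (-i) := by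
  have h1 := h.cj_zpow (-i)
  rw [neg_neg] at h1
  rw [← h1]; group

theorem DData.elements (h : DData P σ τ m) {u : G} (hu : u ∈ P) :
    ∃ i : ℤ, u = σ ^ i ∨ u = τ * σ ^ i := by
  rw [← h.hgen] at hu
  induction hu using Subgroup.closure_induction with
  | mem x hx =>
    rcases hx with rfl | hx
    · exact ⟨1, Or.inl (by rw [zpow_one])⟩
    · rw [Set.mem_singleton_iff.mp hx]
      exact ⟨0, Or.inr (by rw [zpow_zero, mul_one])⟩
  | one => exact ⟨0, Or.inl (by rw [zpow_zero])⟩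
  | mul x y _ _ hx hy =>
    obtain ⟨i, hi | hi⟩ := hx <;> obtain ⟨j, hj | hj⟩ := hy <;> rw [hi, hj]
    · exact ⟨i + j, Or.inl (by rw [zpow_add])⟩
    · exact ⟨-i + j, Or.inr (by rw [← mul_assoc, h.zp_mul, mul_assoc, zpow_add])⟩
    · exact ⟨i + j, Or.inr (by rw [mul_assoc, zpow_add])⟩
    · refine ⟨-i + j, Or.inl ?_⟩
      calc τ * σ ^ i * (τ * σ ^ j) = τ * (σ ^ i * τ) * σ ^ j := by group
        _ = (τ * τ) * (σ ^ (-i) * σ ^ j) := by rw [h.zp_mul]; group
        _ = σ ^ (-i + j) := by rw [h.ht, one_mul, zpow_add]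
  | inv x _ hx =>
    obtain ⟨i, hi | hi⟩ := hx <;> rw [hi]
    · exact ⟨-i, Or.inl (by rw [zpow_neg])⟩
    · refine ⟨i, Or.inr ?_⟩
      rw [mul_inv_rev, h.tinv, ← zpow_neg, h.zp_mul, neg_neg]

/-- the powers of `σ` indexed by `ZMod` -/
noncomputable def zp (σ : G) (N : ℕ) (hN : σ ^ N = 1) : ZMod N →+ Additive G :=
  ZMod.lift N ⟨zmultiplesHom (Additive G) (Additive.ofMul σ), by
    rw [zmultiplesHom_apply]
    change Additive.ofMul (σ ^ (N : ℤ)) = 0
    rw [zpow_natCast, hN]; rfl⟩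

theorem zp_intCast (σ : G) (N : ℕ) (hN : σ ^ N = 1) (i : ℤ) :
    Additive.toMul (zp σ N hN (i : ZMod N)) = σ ^ i := by
  rw [zp, ZMod.lift_coe]
  rfl

/-- the homomorphism from the dihedral group -/
noncomputable def dihHom (h : DData P σ τ m) : DihedralGroup (2 ^ (m + 1)) →* G :=
  MonoidHom.mk' (fun x => match x with
    | .r i => Additive.toMul (zp σ (2 ^ (m + 1)) (h.ho ▸ pow_orderOf_eq_one σ) i)
    | .sr i => τ * Additive.toMul (zp σ (2 ^ (m + 1)) (h.ho ▸ pow_orderOf_eq_one σ) i)) (by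
    have hint : ∀ i : ZMod (2 ^ (m + 1)), ∃ k : ℤ, (k : ZMod (2 ^ (m + 1))) = i :=
      fun i => ZMod.intCast_surjective i
    rintro (i | i) (j | j)
    · obtain ⟨a, rfl⟩ := hint i
      obtain ⟨b, rfl⟩ := hint j
      rw [DihedralGroup.r_mul_r, ← Int.cast_add]
      simp only [zp_intCast]
      rw [zpow_add]
    · obtain ⟨a, rfl⟩ := hint i
      obtain ⟨b, rfl⟩ := hint j
      rw [DihedralGroup.r_mul_sr, ← Int.cast_sub]
      simp only [zp_intCast]
      rw [← mul_assoc, h.zp_mul, mul_assoc, ← zpow_add]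
      congr 2; ring
    · obtain ⟨a, rfl⟩ := hint i
      obtain ⟨b, rfl⟩ := hint j
      rw [DihedralGroup.sr_mul_r, ← Int.cast_add]
      simp only [zp_intCast]
      rw [zpow_add, mul_assoc]
    · obtain ⟨a, rfl⟩ := hint i
      obtain ⟨b, rfl⟩ := hint j
      rw [DihedralGroup.sr_mul_sr, ← Int.cast_sub]
      simp only [zp_intCast]
      have e1 : τ * σ ^ a * (τ * σ ^ b) = τ * (σ ^ a * τ) * σ ^ b := by group
      rw [e1, h.zp_mul, ← mul_assoc, h.ht, one_mul, ← zpow_add]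
      congr 1; ring)

theorem dihHom_injective (h : DData P σ τ m) : Function.Injective (dihHom h) := by
  rw [injective_iff_map_eq_one]
  rintro (i | i) hi
  · obtain ⟨a, rfl⟩ := ZMod.intCast_surjective i
    have h1 : σ ^ a = 1 := by
      rw [← hi]; exact (zp_intCast σ _ _ a).symm
    have h2 : ((orderOf σ : ℕ) : ℤ) ∣ a := orderOf_dvd_iff_zpow_eq_one.mpr h1
    rw [h.ho] at h2
    rw [(ZMod.intCast_zmod_eq_zero_iff_dvd a (2 ^ (m + 1))).mpr h2]
    rfl
  · obtain ⟨a, rfl⟩ := ZMod.intCast_surjective i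
    exfalso
    apply h.hne
    have h1 : τ * σ ^ a = 1 := by
      rw [← hi]; exact congrArg (τ * ·) (zp_intCast σ _ _ a).symm
    rw [eq_inv_of_mul_eq_one_left h1]
    exact inv_mem (zpow_mem (Subgroup.mem_zpowers σ) a)

theorem dihHom_range (h : DData P σ τ m) : (dihHom h).range = P := by
  apply le_antisymm
  · rintro _ ⟨x, rfl⟩
    rcases x with i | i
    · obtain ⟨a, rfl⟩ := ZMod.intCast_surjective i
      have h1 : dihHom h (.r (a : ZMod (2 ^ (m + 1)))) = σ ^ a := zp_intCast σ _ _ a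
      rw [h1]
      exact zpow_mem h.hσ a
    · obtain ⟨a, rfl⟩ := ZMod.intCast_surjective i
      have h1 : dihHom h (.sr (a : ZMod (2 ^ (m + 1)))) = τ * σ ^ a :=
        congrArg (τ * ·) (zp_intCast σ _ _ a)
      rw [h1]
      exact mul_mem h.hτ (zpow_mem h.hσ a)
  · intro u hu
    obtain ⟨i, hi | hi⟩ := h.elements hu
    · exact ⟨.r (i : ZMod (2 ^ (m + 1))), (zp_intCast σ _ _ i).trans hi.symm⟩
    · exact ⟨.sr (i : ZMod (2 ^ (m + 1))), (congrArg (τ * ·) (zp_intCast σ _ _ i)).trans hi.symm⟩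

theorem DData.equiv (h : DData P σ τ m) : Nonempty (P ≃* DihedralGroup (2 ^ (m + 1))) := by
  have e1 : DihedralGroup (2 ^ (m + 1)) ≃* (dihHom h).range :=
    MonoidHom.ofInjective (dihHom_injective h)
  exact ⟨((MulEquiv.subgroupCongr (dihHom_range h).symm).trans e1.symm)⟩

end Dihedral

end Cfsg.Agent.H26
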