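import Mathlib
import Cfsg.Agent.H26.Dih3

set_option autoImplicit false

/-!
# Construction of the local structure from a dihedral Sylow `2`-subgroup, II
-/

namespace Cfsg.Agent.H26

open Cfsg Cfsg.Agent.H3 Finset
open scoped ComplexConjugate

universe u

section Build

variable {G : Type u} [Group G] [Finite G]

/-- a faithful linear character of a cyclic group -/
theorem exists_faithful {Q : Type*} [Group Q] [Finite Q] (s : Q) :
    ∃ ν : Subgroup.zpowers s →* ℂˣ, Function.Injective ν := by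
  classical
  obtain ⟨ζ, hζ⟩ : ∃ ζ : ℂˣ, orderOf ζ = orderOf s := by
    have h0 : orderOf s ≠ 0 := (orderOf_pos s).ne'
    have h1 := Complex.isPrimitiveRoot_exp (orderOf s) h0
    obtain ⟨u, hu⟩ := h1.isUnit h0
    refine ⟨u, ?_⟩
    rw [← orderOf_units, hu]
    exact h1.eq_orderOf.symm
  have h1 : ∀ x : Subgroup.zpowers s, x ∈ Subgroup.zpowers (⟨s, Subgroup.mem_zpowers s⟩ :
      Subgroup.zpowers s) := by
    rintro ⟨x, i, rfl⟩
    exact ⟨i, Subtype.ext rfl⟩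
  have h2 : ∀ x : Subgroup.zpowers ζ, x ∈ Subgroup.zpowers (⟨ζ, Subgroup.mem_zpowers ζ⟩ :
      Subgroup.zpowers ζ) := by
    rintro ⟨x, i, rfl⟩
    exact ⟨i, Subtype.ext rfl⟩
  have h3 : orderOf (⟨s, Subgroup.mem_zpowers s⟩ : Subgroup.zpowers s) =
      orderOf (⟨ζ, Subgroup.mem_zpowers ζ⟩ : Subgroup.zpowers ζ) := by
    rw [Subgroup.orderOf_mk, Subgroup.orderOf_mk, hζ]
  let e := mulEquivOfOrderOfEq h1 h2 h3
  exact ⟨(Subgroup.zpowers ζ).subtype.comp e.toMonoidHom,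
    Subtype.val_injective.comp e.injective⟩

variable {P : Sylow 2 G} {σ τ : G} {m : ℕ}

theorem exists_DS (h : DData (P : Subgroup G) σ τ m) :
    ∃ (H : Subgroup G) (μ : H →* ℂˣ) (hσ : σ ∈ H), DS (σ ^ (2 ^ m)) H μ ∧
      orderOf (μ ⟨σ, hσ⟩) = 2 ^ (m + 1) ∧ (∀ x : H, μ x ∈ Subgroup.zpowers (μ ⟨σ, hσ⟩)) ∧
      τ ∈ Subgroup.centralizer ({σ ^ (2 ^ m)} : Set G) ∧ τ ∉ H := by
  classical
  have hp2 : Fact (Nat.Prime 2) := ⟨Nat.prime_two⟩
  have hJo : orderOf (σ ^ (2 ^ m)) = 2 := by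
    rw [orderOf_pow' σ (by positivity), h.ho,
      Nat.gcd_eq_right (pow_dvd_pow 2 (Nat.le_succ m)), pow_succ, Nat.mul_div_cancel_left _ (by positivity)]
  obtain ⟨N, hN, hNodd, k, hk⟩ := Cfsg.Agent.S0514.result P (2 ^ (m + 1))
    (by calc 2 = 2 ^ 1 := rfl
      _ ≤ 2 ^ (m + 1) := Nat.pow_le_pow_right (by norm_num) (by omega)) h.equiv _ hJo
  have hJ2 : σ ^ (2 ^ m) * σ ^ (2 ^ m) = 1 := by
    have h0 := pow_orderOf_eq_one (σ ^ (2 ^ m))
    rwa [hJo, sq] at h0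
  have hJ1 : σ ^ (2 ^ m) ≠ 1 := by
    intro h0
    rw [h0, orderOf_one] at hJo
    norm_num at hJo
  have hPC : (P : Subgroup G) ≤ Subgroup.centralizer ({σ ^ (2 ^ m)} : Set G) := by
    intro u hu
    rw [Subgroup.mem_centralizer_singleton_iff]
    obtain ⟨i, hi | hi⟩ := h.elements hu
    · rw [hi]
      exact ((Commute.refl σ).zpow_left i).pow_right _
    · rw [hi]
      have h1 : σ ^ (2 ^ m) * τ = τ * σ ^ (2 ^ m) := by
        have h2 := h.zp_mul ((2 ^ m : ℕ) : ℤ)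
        rw [zpow_natCast, zpow_neg, zpow_natCast, inv_eq_of_mul_eq_one_left hJ2] at h2
        exact h2
      have h3 : σ ^ i * σ ^ (2 ^ m) = σ ^ (2 ^ m) * σ ^ i :=
        ((Commute.refl σ).zpow_left i).pow_right _
      rw [mul_assoc, h3, ← mul_assoc, ← h1, mul_assoc]
  have hJC : σ ^ (2 ^ m) ∈ Subgroup.centralizer ({σ ^ (2 ^ m)} : Set G) :=
    hPC (pow_mem h.hσ _)
  generalize hJ : σ ^ (2 ^ m) = J at *
  let C := Subgroup.centralizer ({J} : Set G)
  let π : C →* C ⧸ N := QuotientGroup.mk' N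
  let sC : C := ⟨σ, hPC h.hσ⟩
  let tC : C := ⟨τ, hPC h.hτ⟩
  let s : C ⧸ N := π sC
  let t : C ⧸ N := π tC
  have hπs : Function.Surjective π := QuotientGroup.mk'_surjective N
  have hker : ∀ x : C, π x = 1 ↔ x ∈ N := fun x => QuotientGroup.eq_one_iff x
  -- P ∩ N = 1
  have hPN : ∀ x : C, (x : G) ∈ P → x ∈ N → (x : G) = 1 := by
    intro x hxP hxN
    have h1 : Odd (orderOf (x : G)) := by
      have h2 : orderOf (⟨x, hxN⟩ : N) ∣ Nat.card N := orderOf_dvd_natCard _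
      rw [Subgroup.orderOf_mk] at h2
      rw [Subgroup.orderOf_coe]
      exact Odd.of_dvd_nat hNodd h2
    obtain ⟨j, hj⟩ := (IsPGroup.iff_orderOf.mp P.2) ⟨(x : G), hxP⟩
    rw [Subgroup.orderOf_mk] at hj
    rw [hj] at h1
    rcases Nat.eq_zero_or_pos j with h0 | h0
    · rw [h0, pow_zero] at hj
      exact orderOf_eq_one_iff.mp hj
    · exact absurd h1 (by rw [Nat.not_odd_iff_even]; exact (Nat.even_pow.mpr ⟨even_two, h0.ne'⟩))
  -- surjectivity
  have hsurj : ∀ q : C ⧸ N, ∃ x : C, (x : G) ∈ P ∧ π x = q := by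
    have h1 : (((P : Subgroup G).subgroupOf C).map π) = ⊤ := by
      rw [← Subgroup.index_eq_one]
      have h2 : (((P : Subgroup G).subgroupOf C).map π).index ∣
          ((P : Subgroup G).subgroupOf C).index := Subgroup.index_map_dvd _ hπs
      have h3 : (((P : Subgroup G).subgroupOf C).map π).index ∣ 2 ^ k := by
        rw [← hk]
        have : N.index = Nat.card (C ⧸ N) := rfl
        rw [this]
        exact Subgroup.index_dvd_card _
      have h4 : ((P : Subgroup G).subgroupOf C).index ∣ (P : Subgroup G).index :=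
        ⟨_, (Subgroup.relIndex_mul_index hPC).symm⟩
      have h5 : ¬ 2 ∣ (P : Subgroup G).index := P.not_dvd_index
      obtain ⟨j, -, hj⟩ := (Nat.dvd_prime_pow Nat.prime_two).mp h3
      rcases Nat.eq_zero_or_pos j with h0 | h0
      · rw [hj, h0, pow_zero]
      · exfalso
        apply h5
        refine dvd_trans ?_ (h2.trans h4)
        rw [hj]
        exact dvd_pow_self 2 h0.ne'
    intro q
    have h2 : q ∈ ((P : Subgroup G).subgroupOf C).map π := by rw [h1]; trivial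
    obtain ⟨x, hx, hxq⟩ := h2
    exact ⟨x, Subgroup.mem_subgroupOf.mp hx, hxq⟩
  have hq : ∀ q : C ⧸ N, ∃ i : ℤ, q = s ^ i ∨ q = t * s ^ i := by
    intro q
    obtain ⟨x, hxP, rfl⟩ := hsurj q
    obtain ⟨i, hi | hi⟩ := h.elements hxP
    · refine ⟨i, Or.inl ?_⟩
      have : x = sC ^ i := Subtype.ext hi
      rw [this, map_zpow]
    · refine ⟨i, Or.inr ?_⟩
      have : x = tC * sC ^ i := Subtype.ext hi
      rw [this, map_mul, map_zpow]
  have htS : t ∉ Subgroup.zpowers s := by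
    rintro ⟨i, hi⟩
    have hi' : s ^ i = t := hi
    have h1 : π (tC * (sC ^ i)⁻¹) = 1 := by
      rw [map_mul, map_inv, map_zpow]
      change t * (s ^ i)⁻¹ = 1
      rw [hi', mul_inv_cancel]
    have h2 := hPN (tC * (sC ^ i)⁻¹) (mul_mem h.hτ (inv_mem (zpow_mem h.hσ i))) ((hker _).mp h1)
    apply h.hne
    refine ⟨i, ?_⟩
    have h3 : τ * (σ ^ i)⁻¹ = 1 := h2
    exact (mul_inv_eq_one.mp h3).symm
  have htt : t * t = 1 := by
    have : tC * tC = 1 := Subtype.ext h.ht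
    change π tC * π tC = 1
    rw [← map_mul, this, map_one]
  have hts : t * s * t⁻¹ = s⁻¹ := by
    have : tC * sC * tC⁻¹ = sC⁻¹ := Subtype.ext h.hrel
    change π tC * π sC * (π tC)⁻¹ = (π sC)⁻¹
    rw [← map_mul, ← map_inv, ← map_mul, this, map_inv]
  have htzp : ∀ i : ℤ, s ^ i * t = t * s ^ (-i) := by
    intro i
    have h1 : t * s ^ (-i) * t⁻¹ = s ^ i := by
      rw [← conj_zpow, hts, inv_zpow, zpow_neg, inv_inv]
    rw [← h1]; group
  have hidx : (Subgroup.zpowers s).index = 2 := by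
    rw [Subgroup.index_eq_two_iff]
    refine ⟨t, fun b => ?_⟩
    obtain ⟨i, hi | hi⟩ := hq b
    · right
      rw [hi]
      refine ⟨zpow_mem (Subgroup.mem_zpowers s) i, fun h1 => htS ?_⟩
      have h2 := mul_mem (inv_mem (zpow_mem (Subgroup.mem_zpowers s) i)) h1
      rwa [inv_mul_cancel_left] at h2
    · left
      rw [hi]
      constructor
      · rw [mul_assoc, htzp, ← mul_assoc, htt, one_mul]
        exact zpow_mem (Subgroup.mem_zpowers s) _
      · intro h1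
        apply htS
        have h2 := mul_mem h1 (inv_mem (zpow_mem (Subgroup.mem_zpowers s) i))
        rwa [mul_inv_cancel_right] at h2
  have hso : orderOf s = 2 ^ (m + 1) := by
    have h1 : orderOf sC = 2 ^ (m + 1) := by rw [← h.ho]; exact Subgroup.orderOf_mk _ _
    rw [← h1]
    apply Nat.dvd_antisymm (orderOf_map_dvd π sC)
    rw [orderOf_dvd_iff_pow_eq_one]
    have h2 : π (sC ^ orderOf s) = 1 := by
      rw [map_pow]; exact pow_orderOf_eq_one s
    exact Subtype.ext (hPN (sC ^ orderOf s) (pow_mem h.hσ _) ((hker _).mp h2))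
  obtain ⟨ν, hν⟩ := exists_faithful s
  let H : Subgroup G := ((Subgroup.zpowers s).comap π).map C.subtype
  have hmem : ∀ x : G, x ∈ H ↔ ∃ hx : x ∈ C, π ⟨x, hx⟩ ∈ Subgroup.zpowers s := by
    intro x
    constructor
    · rintro ⟨y, hy, rfl⟩
      exact ⟨y.2, hy⟩
    · rintro ⟨hx, hxs⟩
      exact ⟨⟨x, hx⟩, hxs, rfl⟩
  have hHC : H ≤ C := fun x hx => ((hmem x).mp hx).1
  let μ0 : H →* Subgroup.zpowers s := MonoidHom.codRestrict (π.comp (Subgroup.inclusion hHC))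
    (Subgroup.zpowers s) (fun x => ((hmem x).mp x.2).2)
  have hμ0 : ∀ x : H, (μ0 x : C ⧸ N) = π ⟨x, hHC x.2⟩ := fun x => rfl
  have hσH : σ ∈ H := (hmem σ).mpr ⟨hPC h.hσ, Subgroup.mem_zpowers s⟩
  have hμeq : ∀ x y : H, π ⟨x, hHC x.2⟩ = π ⟨y, hHC y.2⟩ → (ν.comp μ0) x = (ν.comp μ0) y := by
    intro x y hxy
    have : μ0 x = μ0 y := Subtype.ext hxy
    rw [MonoidHom.comp_apply, MonoidHom.comp_apply, this]
  refine ⟨H, ν.comp μ0, hσH, ⟨hJ2, hJ1, hHC, ?_, ?_, ?_, ?_, ?_⟩, ?_, ?_, hPC h.hτ, ?_⟩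
  · rw [← hJ]; exact pow_mem hσH _
  · have h1 : ((Subgroup.zpowers s).comap π).index = 2 := by
      rw [Subgroup.index_comap_of_surjective _ hπs, hidx]
    have h2 := Subgroup.card_mul_index ((Subgroup.zpowers s).comap π)
    rw [h1] at h2
    have h3 : Nat.card H = Nat.card ((Subgroup.zpowers s).comap π) :=
      Subgroup.card_map_of_injective C.subtype_injective
    rw [h3, ← h2, mul_comm]
  · by_contra hodd
    rw [Nat.not_odd_iff_even, even_iff_two_dvd] at hodd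
    obtain ⟨x, hx⟩ := exists_prime_orderOf_dvd_card' 2 hodd
    have h1 : μ0 x.1 = 1 := by
      apply hν
      rw [map_one]
      exact x.2
    have h2 : (⟨(x.1 : G), hHC x.1.2⟩ : C) ∈ N := by
      rw [← hker, ← hμ0, h1]; rfl
    have h3 : orderOf (⟨_, h2⟩ : N) ∣ Nat.card N := orderOf_dvd_natCard _
    rw [Subgroup.orderOf_mk, Subgroup.orderOf_mk, Subgroup.orderOf_coe, Subgroup.orderOf_coe,
      hx] at h3
    have h4 := Nat.odd_iff.mp hNodd
    omega
  · intro x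
    refine ⟨m + 1, ?_⟩
    have h1 : (μ0 x) ^ (2 ^ (m + 1)) = 1 := by
      have h2 := pow_card_eq_one' (x := μ0 x)
      rwa [Nat.card_zpowers, hso] at h2
    rw [MonoidHom.comp_apply, ← map_pow, h1, map_one]
  · intro g hg hgH x y hy
    have h1 : π ⟨g, hg⟩ ∉ Subgroup.zpowers s := fun h0 => hgH ((hmem g).mpr ⟨hg, h0⟩)
    obtain ⟨j, hj⟩ := ((hmem x).mp x.2).2
    have hj' : s ^ j = π ⟨x, hHC x.2⟩ := hj
    have h2 : π ⟨y, hHC y.2⟩ = (π ⟨x, hHC x.2⟩)⁻¹ := by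
      have h3 : (⟨y, hHC y.2⟩ : C) = (⟨g, hg⟩ : C)⁻¹ * ⟨x, hHC x.2⟩ * ⟨g, hg⟩ := Subtype.ext hy
      rw [h3, map_mul, map_mul, map_inv]
      obtain ⟨i, hi | hi⟩ := hq (π ⟨g, hg⟩)
      · exact absurd (hi ▸ zpow_mem (Subgroup.mem_zpowers s) i) h1
      · rw [hi, ← hj', mul_inv_rev]
        have h4 : t⁻¹ = t := inv_eq_of_mul_eq_one_left htt
        rw [h4]
        calc (s ^ i)⁻¹ * t * s ^ j * (t * s ^ i) = (s ^ i)⁻¹ * t * (s ^ j * t) * s ^ i := by group
          _ = (s ^ i)⁻¹ * (t * t) * s ^ (-j) * s ^ i := by rw [htzp]; group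
          _ = (s ^ j)⁻¹ := by rw [htt]; group
    have h5 : (ν.comp μ0) y = (ν.comp μ0) x⁻¹ := by
      apply hμeq
      rw [h2, ← map_inv]
      rfl
    rw [h5, map_inv]
  · have h1 : μ0 ⟨σ, hσH⟩ = ⟨s, Subgroup.mem_zpowers s⟩ := Subtype.ext rfl
    rw [MonoidHom.comp_apply, h1, orderOf_injective ν hν, Subgroup.orderOf_mk, hso]
  · intro x
    obtain ⟨j, hj⟩ := ((hmem x).mp x.2).2
    refine ⟨j, ?_⟩
    change ((ν.comp μ0) ⟨σ, hσH⟩) ^ j = (ν.comp μ0) x
    rw [← map_zpow]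
    apply hμeq
    rw [← show s ^ j = π ⟨x, hHC x.2⟩ from hj]
    change _ = (π sC) ^ j
    rw [← map_zpow]
    rfl
  · intro h0
    exact htS ((hmem τ).mp h0).2

end Build

end Cfsg.Agent.H26
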