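import Mathlib
import Cfsg.Agent.H26.Dih4

set_option autoImplicit false

/-!
# Counting involutions of `C(J)` outside `H`
-/

namespace Cfsg.Agent.H26

open Cfsg Cfsg.Agent.H3 Finset
open scoped ComplexConjugate

universe u

section Count

variable {G : Type u} [Group G] [Fintype G]

open Classical in
/-- the `C`-class of `a` -/
noncomputable def clC (C : Subgroup G) (a : G) : Finset G :=
  univ.filter (fun x => ∃ c ∈ C, c * a * c⁻¹ = x)

theorem mem_clC {C : Subgroup G} {a x : G} : x ∈ clC C a ↔ ∃ c ∈ C, c * a * c⁻¹ = x := by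
  classical
  rw [clC, Finset.mem_filter]
  exact ⟨fun h => h.2, fun h => ⟨Finset.mem_univ _, h⟩⟩

theorem card_clC {J a : G} (ha : a ∈ Subgroup.centralizer ({J} : Set G)) :
    (clC (Subgroup.centralizer ({J} : Set G)) a).card *
      Nat.card (Subgroup.centralizer ({J, a} : Set G)) =
      Nat.card (Subgroup.centralizer ({J} : Set G)) := by
  classical
  let C := Subgroup.centralizer ({J} : Set G)
  have h1 : (clC C a).card = (H27.cl (⟨a, ha⟩ : C)).card := by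
    symm
    apply Finset.card_bij (fun (x : C) _ => (x : G))
    · intro x hx
      rw [H27.mem_cl] at hx
      obtain ⟨c, hc⟩ := isConj_iff.mp hx
      exact mem_clC.mpr ⟨c, c.2, congrArg Subtype.val hc⟩
    · intro x _ y _ h
      exact Subtype.ext h
    · intro x hx
      obtain ⟨c, hc, hcx⟩ := mem_clC.mp hx
      have hxC : x ∈ C := by rw [← hcx]; exact mul_mem (mul_mem hc ha) (inv_mem hc)
      refine ⟨⟨x, hxC⟩, ?_, rfl⟩
      rw [H27.mem_cl]
      exact isConj_iff.mpr ⟨⟨c, hc⟩, Subtype.ext hcx⟩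
  have h2 : Nat.card (Subgroup.centralizer ({J, a} : Set G)) =
      Nat.card (Subgroup.centralizer ({(⟨a, ha⟩ : C)} : Set C)) := by
    have h3 : Subgroup.centralizer ({J, a} : Set G) =
        (Subgroup.centralizer ({(⟨a, ha⟩ : C)} : Set C)).map C.subtype := by
      ext x
      constructor
      · intro hx
        have hxC : x ∈ C := by
          rw [Subgroup.mem_centralizer_singleton_iff]
          exact ((Subgroup.mem_centralizer_iff.mp hx) J (by simp)).symm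
        refine ⟨⟨x, hxC⟩, ?_, rfl⟩
        rw [SetLike.mem_coe, Subgroup.mem_centralizer_singleton_iff]
        exact Subtype.ext ((Subgroup.mem_centralizer_iff.mp hx) a (by simp)).symm
      · rintro ⟨y, hy, rfl⟩
        rw [SetLike.mem_coe, Subgroup.mem_centralizer_singleton_iff] at hy
        rw [Subgroup.mem_centralizer_iff]
        intro z hz
        rcases hz with rfl | hz
        · exact (Subgroup.mem_centralizer_singleton_iff.mp y.2).symm
        · rw [Set.mem_singleton_iff.mp hz]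
          exact (congrArg Subtype.val hy).symm
    rw [h3, Subgroup.card_map_of_injective C.subtype_injective]
  rw [h1, h2, ← H27.index_centralizer_eq_card_cl, mul_comm, Subgroup.card_mul_index]

variable {P : Sylow 2 G} {σ τ : G} {m : ℕ} {H : Subgroup G} {μ : H →* ℂˣ}

/-- conjugates of `τ` under `C(J)` have square `μ`-offset to `τ` -/
theorem DS.clC_offset {J : G} (hD : DS J H μ) (hτC : τ ∈ Subgroup.centralizer ({J} : Set G))
    (hτH : τ ∉ H) (ht : τ * τ = 1) {x : G}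
    (hx : x ∈ clC (Subgroup.centralizer ({J} : Set G)) τ) :
    ∃ (e : H) (hm : x * τ ∈ H), μ ⟨x * τ, hm⟩ = μ e * μ e := by
  obtain ⟨c, hc, rfl⟩ := mem_clC.mp hx
  have hti : τ⁻¹ = τ := inv_eq_of_mul_eq_one_left ht
  have key : ∀ e ∈ H, ∃ (e' : H) (hm : e * τ * e⁻¹ * τ ∈ H), μ ⟨_, hm⟩ = μ e' * μ e' := by
    intro e he
    have h1 : τ * e⁻¹ * τ ∈ H := by
      have := hD.conj_mem hτC (inv_mem he)
      rwa [hti] at this
    have h2 : μ ⟨τ * e⁻¹ * τ, h1⟩ = (μ (⟨e, he⟩⁻¹))⁻¹ :=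
      hD.inv τ hτC hτH _ _ (by change τ * e⁻¹ * τ = τ⁻¹ * e⁻¹ * τ; rw [hti])
    have h3 : e * τ * e⁻¹ * τ ∈ H := by
      have : e * τ * e⁻¹ * τ = e * (τ * e⁻¹ * τ) := by group
      rw [this]; exact mul_mem he h1
    refine ⟨⟨e, he⟩, h3, ?_⟩
    have h4 : (⟨e * τ * e⁻¹ * τ, h3⟩ : H) = ⟨e, he⟩ * ⟨τ * e⁻¹ * τ, h1⟩ := by
      apply Subtype.ext
      change e * τ * e⁻¹ * τ = e * (τ * e⁻¹ * τ)
      group
    rw [h4, map_mul, h2, map_inv, inv_inv]
  by_cases hcH : c ∈ H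
  · exact key c hcH
  · have hcτ : c * τ ∈ H := by
      rw [hD.mul_mem_iff hc hτC]
      exact ⟨fun h => absurd h hcH, fun h => absurd h hτH⟩
    obtain ⟨e', hm, he'⟩ := key (c * τ) hcτ
    have e1 : c * τ * τ * (c * τ)⁻¹ * τ = c * τ * c⁻¹ * τ := by
      rw [mul_inv_rev, hti]
      calc c * τ * τ * (τ * c⁻¹) * τ = c * τ * (τ * τ) * c⁻¹ * τ := by group
        _ = c * τ * c⁻¹ * τ := by rw [ht, mul_one]
    have hm' := hm
    rw [e1] at hm'
    refine ⟨e', hm', ?_⟩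
    rw [← he']
    congr 1
    exact Subtype.ext e1.symm

theorem clC_disjoint (hD : DS (σ ^ (2 ^ m)) H μ) (hσH : σ ∈ H)
    (ho : orderOf (μ ⟨σ, hσH⟩) = 2 ^ (m + 1))
    (hz : ∀ x : H, μ x ∈ Subgroup.zpowers (μ ⟨σ, hσH⟩))
    (hτC : τ ∈ Subgroup.centralizer ({σ ^ (2 ^ m)} : Set G)) (hτH : τ ∉ H) (ht : τ * τ = 1) :
    Disjoint (clC (Subgroup.centralizer ({σ ^ (2 ^ m)} : Set G)) τ)
      (clC (Subgroup.centralizer ({σ ^ (2 ^ m)} : Set G)) (σ * τ)) := by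
  rw [Finset.disjoint_left]
  intro x hx1 hx2
  obtain ⟨c, hc, rfl⟩ := mem_clC.mp hx2
  obtain ⟨d, hd, hdx⟩ := mem_clC.mp hx1
  have h1 : σ * τ ∈ clC (Subgroup.centralizer ({σ ^ (2 ^ m)} : Set G)) τ := by
    refine mem_clC.mpr ⟨c⁻¹ * d, mul_mem (inv_mem hc) hd, ?_⟩
    calc c⁻¹ * d * τ * (c⁻¹ * d)⁻¹ = c⁻¹ * (d * τ * d⁻¹) * c := by group
      _ = σ * τ := by rw [hdx]; group
  obtain ⟨e, hm, he⟩ := hD.clC_offset hτC hτH ht h1
  have h2 : σ * τ * τ = σ := by rw [mul_assoc, ht, mul_one]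
  have h3 : (⟨σ * τ * τ, hm⟩ : H) = ⟨σ, hσH⟩ := Subtype.ext h2
  rw [h3] at he
  obtain ⟨k, hk⟩ := hz e
  have hk' : (μ ⟨σ, hσH⟩) ^ k = μ e := hk
  rw [← hk', ← zpow_add] at he
  have h4 : (μ ⟨σ, hσH⟩) ^ (k + k - 1) = 1 := by
    rw [zpow_sub_one, ← he, mul_inv_cancel]
  have h5 := orderOf_dvd_iff_zpow_eq_one.mpr h4
  rw [ho] at h5
  have h6 : (2 : ℤ) ∣ ((2 ^ (m + 1) : ℕ) : ℤ) := by
    exact_mod_cast dvd_pow_self 2 (Nat.succ_ne_zero m)
  have h7 := h6.trans h5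
  omega

open Classical in
theorem Iset_eq (h : DData (P : Subgroup G) σ τ m) (hD : DS (σ ^ (2 ^ m)) H μ) (hσH : σ ∈ H)
    (hτC : τ ∈ Subgroup.centralizer ({σ ^ (2 ^ m)} : Set G)) (hτH : τ ∉ H)
    (hc1 : IsConj (σ ^ (2 ^ m)) τ) (hc2 : IsConj (σ ^ (2 ^ m)) (σ * τ))
    (hPC : (P : Subgroup G) ≤ Subgroup.centralizer ({σ ^ (2 ^ m)} : Set G)) :
    Iset (σ ^ (2 ^ m)) H = clC (Subgroup.centralizer ({σ ^ (2 ^ m)} : Set G)) τ ∪
      clC (Subgroup.centralizer ({σ ^ (2 ^ m)} : Set G)) (σ * τ) := by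
  classical
  have hp2 : Fact (Nat.Prime 2) := ⟨Nat.prime_two⟩
  have hσC : σ ∈ Subgroup.centralizer ({σ ^ (2 ^ m)} : Set G) := hPC h.hσ
  have hστH : σ * τ ∉ H := by
    rw [hD.mul_mem_iff hσC hτC]
    exact fun h0 => hτH (h0.mp hσH)
  have hnc : ∀ c ∈ Subgroup.centralizer ({σ ^ (2 ^ m)} : Set G), ∀ a : G, a ∉ H →
      c * a * c⁻¹ ∉ H := by
    intro c hc a ha hm
    apply ha
    have := hD.conj_mem hc hm
    have e1 : c⁻¹ * (c * a * c⁻¹) * c = a := by group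
    rwa [e1] at this
  ext x
  rw [mem_Iset, Finset.mem_union, mem_clC, mem_clC]
  constructor
  · rintro ⟨hx1, hx2, hx3⟩
    have hxx : x * x = 1 := (cl_sq hD (H27.mem_cl.mpr hx1)).1
    let C := Subgroup.centralizer ({σ ^ (2 ^ m)} : Set G)
    have h1 : (⟨x, hx2⟩ : C) ^ 2 ^ 1 = 1 := by
      rw [pow_one, sq]; exact Subtype.ext hxx
    obtain ⟨y, hyP, hxy⟩ := H4.exists_conj_mem_sylow (P.subtype hPC) h1
    obtain ⟨c, hc⟩ := isConj_iff.mp hxy
    have hyP' : (y : G) ∈ (P : Subgroup G) := by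
      have h2 : y ∈ ((P.subtype hPC : Sylow 2 C) : Subgroup C) := hyP
      rw [Sylow.coe_subtype] at h2
      exact Subgroup.mem_subgroupOf.mp h2
    have hc' : (c : G) * x * (c : G)⁻¹ = y := congrArg Subtype.val hc
    have hyH : (y : G) ∉ H := by rw [← hc']; exact hnc c c.2 x hx3
    obtain ⟨i, hi | hi⟩ := h.elements hyP'
    · exact absurd (hi ▸ zpow_mem hσH i) hyH
    · obtain ⟨j, hj | hj⟩ := Int.even_or_odd' i
      · left
        refine ⟨(c : G)⁻¹ * σ ^ (-j), mul_mem (inv_mem c.2) (zpow_mem hσC _), ?_⟩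
        have e1 : σ ^ (-j) * τ * (σ ^ (-j))⁻¹ = y := by
          rw [hi, hj, h.zp_mul, neg_neg, zpow_neg, inv_inv, mul_assoc, ← zpow_add, two_mul]
        calc (c : G)⁻¹ * σ ^ (-j) * τ * ((c : G)⁻¹ * σ ^ (-j))⁻¹ =
            (c : G)⁻¹ * (σ ^ (-j) * τ * (σ ^ (-j))⁻¹) * c := by group
          _ = x := by rw [e1, ← hc']; group
      · right
        refine ⟨(c : G)⁻¹ * σ ^ (-j - 1), mul_mem (inv_mem c.2) (zpow_mem hσC _), ?_⟩
        have e1 : σ ^ (-j - 1) * (σ * τ) * (σ ^ (-j - 1))⁻¹ = y := by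
          have e2 : σ ^ (-j - 1) * (σ * τ) = σ ^ (-j) * τ := by
            rw [← mul_assoc, ← zpow_add_one]; congr 2; ring
          rw [e2, hi, hj, h.zp_mul, neg_neg, ← zpow_neg, mul_assoc, ← zpow_add]
          congr 2; ring
        calc (c : G)⁻¹ * σ ^ (-j - 1) * (σ * τ) * ((c : G)⁻¹ * σ ^ (-j - 1))⁻¹ =
            (c : G)⁻¹ * (σ ^ (-j - 1) * (σ * τ) * (σ ^ (-j - 1))⁻¹) * c := by group
          _ = x := by rw [e1, ← hc']; group
  · rintro (⟨c, hc, rfl⟩ | ⟨c, hc, rfl⟩)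
    · exact ⟨hc1.trans (isConj_iff.mpr ⟨c, rfl⟩), mul_mem (mul_mem hc hτC) (inv_mem hc),
        hnc c hc τ hτH⟩
    · exact ⟨hc2.trans (isConj_iff.mpr ⟨c, rfl⟩),
        mul_mem (mul_mem hc (mul_mem hσC hτC)) (inv_mem hc), hnc c hc _ hστH⟩

end Count

end Cfsg.Agent.H26
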