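import Mathlib
import Cfsg.Agent.H26.Dih5
import Cfsg.Agent.H11.Third2

set_option autoImplicit false

/-!
# Order formulas: the dihedral case
-/

namespace Cfsg.Agent.H26

open Cfsg Cfsg.Agent.H3 Finset
open scoped ComplexConjugate

universe u

section Const

variable {G : Type u} [Group G] [Fintype G] {J : G} {H : Subgroup G} {μ : H →* ℂˣ}
  {M : Ideal AlgInt}

theorem DS.conj_ker (h : DS J H μ) {g : G} (hg : g ∈ Subgroup.centralizer ({J} : Set G))
    {x : H} (hx : μ x = 1) (hm : g⁻¹ * (x : G) * g ∈ H) : μ ⟨g⁻¹ * (x : G) * g, hm⟩ = 1 := by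
  by_cases hgH : g ∈ H
  · have : (⟨g⁻¹ * x * g, hm⟩ : H) = (⟨g, hgH⟩ : H)⁻¹ * x * ⟨g, hgH⟩ := rfl
    rw [this, map_mul, map_mul, map_inv, hx, mul_one, inv_mul_cancel]
  · rw [h.inv g hg hgH x _ rfl, hx, inv_one]

theorem DS.pp (h : DS J H μ) {x : H} (hx : Odd (orderOf x)) : μ x = 1 := by
  obtain ⟨k, hk⟩ := h.two x
  have h1 : (μ x) ^ orderOf x = 1 := by rw [← map_pow, pow_orderOf_eq_one, map_one]
  have h2 : orderOf (μ x) ∣ Nat.gcd (2 ^ k) (orderOf x) :=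
    Nat.dvd_gcd (orderOf_dvd_of_pow_eq_one hk) (orderOf_dvd_of_pow_eq_one h1)
  have h3 : Nat.gcd (2 ^ k) (orderOf x) = 1 := Nat.Coprime.pow_left k
    ((Nat.Prime.coprime_iff_not_dvd Nat.prime_two).mpr (by
      rw [← even_iff_two_dvd, Nat.not_even_iff_odd]; exact hx))
  rw [h3] at h2
  exact orderOf_eq_one_iff.mp (Nat.dvd_one.mp h2)

/-- characters of the principal block at elements of `H` outside the kernel -/
theorem DS.const (h : DS J H μ) (hM : IsPModular 2 M) {χ : IrrCharacter G}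
    (hχ : χ ∈ principalBlock M G) {x : H} (hx : μ x ≠ 1) :
    ∃ u : H, μ u ≠ 1 ∧ (∃ k, orderOf u = 2 ^ k) ∧ (χ : G → ℂ) x = (χ : G → ℂ) u := by
  obtain ⟨u, v, huv, hc, ⟨k, hk⟩, hv⟩ := H11.exists_isPPart Nat.prime_two x
  have hvo : Odd (orderOf v) := by
    rw [← Nat.not_even_iff_odd, even_iff_two_dvd]; exact hv
  have hμv : μ v = 1 := h.pp hvo
  have hμu : μ u ≠ 1 := by
    intro h0
    apply hx
    rw [← huv, map_mul, h0, hμv, one_mul]
  refine ⟨u, hμu, ⟨k, hk⟩, ?_⟩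
  let K : Subgroup G := μ.ker.map H.subtype
  have hKC : ∀ g ∈ Subgroup.centralizer ({J} : Set G), ∀ y ∈ K, g⁻¹ * y * g ∈ K := by
    rintro g hg _ ⟨y, hy, rfl⟩
    have hm := h.conj_mem hg y.2
    exact ⟨⟨_, hm⟩, h.conj_ker hg hy hm, rfl⟩
  have hCu : Subgroup.centralizer ({(u : G)} : Set G) ≤ Subgroup.centralizer ({J} : Set G) := by
    intro c hc
    rw [Subgroup.mem_centralizer_singleton_iff] at hc ⊢
    obtain ⟨n, hn⟩ := h.J_mem hμu
    have hn' : (u : G) ^ n = J := hn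
    rw [← hn']
    have h1 : Commute c (u : G) := hc
    exact (h1.zpow_right n).eq
  let N : Subgroup (Subgroup.centralizer ({(u : G)} : Set G)) :=
    K.subgroupOf (Subgroup.centralizer ({(u : G)} : Set G))
  have hN : N.Normal := by
    constructor
    intro n hn g
    have h1 := hKC (g⁻¹ : Subgroup.centralizer ({(u : G)} : Set G))
      (hCu (g⁻¹ : Subgroup.centralizer ({(u : G)} : Set G)).2) n (Subgroup.mem_subgroupOf.mp hn)
    rw [Subgroup.mem_subgroupOf]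
    simpa using h1
  have hNo : ¬ 2 ∣ Nat.card N := by
    have h1 : Nat.card N ∣ Nat.card K := by
      have := Subgroup.card_dvd_of_injective (K.subgroupOf
        (Subgroup.centralizer ({(u : G)} : Set G))).subtype (Subgroup.subtype_injective _)
      have h2 : Nat.card N = Nat.card (N.map (Subgroup.subtype _)) :=
        (Subgroup.card_map_of_injective (Subgroup.subtype_injective _)).symm
      rw [h2]
      apply Subgroup.card_dvd_of_le
      rintro _ ⟨y, hy, rfl⟩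
      exact Subgroup.mem_subgroupOf.mp hy
    have h2 : Nat.card K = Nat.card μ.ker := Subgroup.card_map_of_injective H.subtype_injective
    intro h0
    have h3 := h0.trans h1
    rw [h2] at h3
    have := Nat.odd_iff.mp h.odd
    omega
  have hvC : (v : G) ∈ Subgroup.centralizer ({(u : G)} : Set G) := by
    rw [Subgroup.mem_centralizer_singleton_iff]
    exact (congrArg Subtype.val hc.eq).symm
  have hvN : (⟨(v : G), hvC⟩ : Subgroup.centralizer ({(u : G)} : Set G)) ∈ N := by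
    rw [Subgroup.mem_subgroupOf]
    exact ⟨v, hμv, rfl⟩
  have h3 := H11.principal_const hM (u := (u : G)) ⟨k, by rw [Subgroup.orderOf_coe]; exact hk⟩
    hNo hvN hχ
  rw [← huv]
  exact h3

end Const

section Main

variable {G : Type u} [Group G] [Finite G]

theorem st4482 (M : Ideal AlgInt) (hM : IsPModular 2 M) (n : ℕ) (hn : 3 ≤ n) (P : Sylow 2 G)
    (σ τ : G) (hσ : σ ∈ (P : Subgroup G)) (hτ : τ ∈ (P : Subgroup G))
    (hσo : orderOf σ = 2 ^ (n - 1)) (hτo : orderOf τ = 2) (hrel : τ * σ * τ⁻¹ = σ⁻¹)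
    (hgen : Subgroup.closure ({σ, τ} : Set G) = (P : Subgroup G))
    (hconj : IsConj (σ ^ (2 ^ (n - 2))) τ ∧ IsConj (σ ^ (2 ^ (n - 2))) (σ * τ))
    (χ₁ : IrrCharacter G) (hχ₁ : χ₁ ∈ principalBlock M G) (h1 : (χ₁ : G → ℂ) ≠ (fun _ => 1))
    (δ₁ : ℤ) (hδ₁ : δ₁ = 1 ∨ δ₁ = -1)
    (hval : ∀ l : ℕ, 0 < l → l < 2 ^ (n - 1) → (χ₁ : G → ℂ) (σ ^ l) = δ₁) :
    (charDegree (χ₁ : G → ℂ) : ℤ) ≠ δ₁ ∧
    (Nat.card G : ℚ) * ((charDegree (χ₁ : G → ℂ) : ℚ) - δ₁) ^ 2 =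
      2 * (charDegree (χ₁ : G → ℂ) : ℚ) * ((charDegree (χ₁ : G → ℂ) : ℚ) + δ₁) *
      (Nat.card (Subgroup.centralizer ({σ ^ (2 ^ (n - 2))} : Set G)) : ℚ) ^ 3 *
      (1 / (Nat.card (Subgroup.centralizer ({σ ^ (2 ^ (n - 2)), τ} : Set G)) : ℚ) +
       1 / (Nat.card (Subgroup.centralizer ({σ ^ (2 ^ (n - 2)), σ * τ} : Set G)) : ℚ)) ^ 2 := by
  classical
  have := Fintype.ofFinite G
  have := Fintype.ofFinite (IrrCharacter G)
  obtain ⟨m, rfl⟩ : ∃ m, n = m + 2 := ⟨n - 2, by omega⟩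
  have e1 : m + 2 - 1 = m + 1 := by omega
  have e2 : m + 2 - 2 = m := by omega
  rw [e1] at hσo hval
  rw [e2] at hconj ⊢
  have hm : 1 ≤ m := by omega
  have htt : τ * τ = 1 := by
    have := pow_orderOf_eq_one τ
    rwa [hτo, sq] at this
  have hne : τ ∉ Subgroup.zpowers σ := by
    rintro ⟨i, hi⟩
    have hi' : σ ^ i = τ := hi
    have h2 : τ * σ * τ⁻¹ = σ := by
      rw [← hi']; group
    rw [h2] at hrel
    have h3 : σ * σ = 1 := by nth_rewrite 2 [hrel]; exact mul_inv_cancel σ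
    have h4 : orderOf σ ∣ 2 := orderOf_dvd_of_pow_eq_one (by rw [sq]; exact h3)
    rw [hσo] at h4
    have h5 := Nat.le_of_dvd (by norm_num) h4
    have h6 : 2 ^ 2 ≤ 2 ^ (m + 1) := Nat.pow_le_pow_right (by norm_num) (by omega)
    omega
  have hd : DData (P : Subgroup G) σ τ m := ⟨hσ, hτ, hσo, htt, hne, hrel, hgen⟩
  obtain ⟨H, μ, hσH, hD, hμo, hμz, hτC, hτH⟩ := exists_DS hd
  have hPC : (P : Subgroup G) ≤ Subgroup.centralizer ({σ ^ (2 ^ m)} : Set G) := by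
    have h2 : σ ∈ Subgroup.centralizer ({σ ^ (2 ^ m)} : Set G) := hD.HC hσH
    rw [← hgen, Subgroup.closure_le]
    rintro x (rfl | hx)
    · exact h2
    · rw [Set.mem_singleton_iff.mp hx]; exact hτC
  -- count
  have hI := Iset_eq hd hD hσH hτC hτH hconj.1 hconj.2 hPC
  have hdis := clC_disjoint hD hσH hμo hμz hτC hτH htt
  have hIcard : ((Iset (σ ^ (2 ^ m)) H).card : ℚ) =
      (Nat.card (Subgroup.centralizer ({σ ^ (2 ^ m)} : Set G)) : ℚ) *
      (1 / (Nat.card (Subgroup.centralizer ({σ ^ (2 ^ m), τ} : Set G)) : ℚ) +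
       1 / (Nat.card (Subgroup.centralizer ({σ ^ (2 ^ m), σ * τ} : Set G)) : ℚ)) := by
    rw [hI, Finset.card_union_of_disjoint hdis]
    have h2 := card_clC hτC
    have h3 := card_clC (mul_mem (hD.HC hσH) hτC)
    have h4 : (Nat.card (Subgroup.centralizer ({σ ^ (2 ^ m), τ} : Set G)) : ℚ) ≠ 0 := by
      exact_mod_cast Nat.card_pos.ne'
    have h5 : (Nat.card (Subgroup.centralizer ({σ ^ (2 ^ m), σ * τ} : Set G)) : ℚ) ≠ 0 := by
      exact_mod_cast Nat.card_pos.ne'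
    rw [mul_add, mul_one_div, mul_one_div]
    push_cast
    congr 1
    · rw [eq_div_iff h4]; exact_mod_cast h2
    · rw [eq_div_iff h5]; exact_mod_cast h3
  have hμ2 : μ ⟨σ, hσH⟩ * μ ⟨σ, hσH⟩ ≠ 1 := by
    intro h0
    have h4 : orderOf (μ ⟨σ, hσH⟩) ∣ 2 := orderOf_dvd_of_pow_eq_one (by rw [sq]; exact h0)
    rw [hμo] at h4
    have h5 := Nat.le_of_dvd (by norm_num) h4
    have h6 : 2 ^ 2 ≤ 2 ^ (m + 1) := Nat.pow_le_pow_right (by norm_num) (by omega)
    omega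
  have hS := hD.sum_zero hμ2
  -- value of χ₁ on H outside the kernel
  have hconst : ∀ x : H, μ x ≠ 1 → (χ₁ : G → ℂ) x = δ₁ := by
    intro x hx
    obtain ⟨u, hu, ⟨k, hk⟩, hxu⟩ := hD.const hM hχ₁ hx
    rw [hxu]
    have hp2 : Fact (Nat.Prime 2) := ⟨Nat.prime_two⟩
    let C := Subgroup.centralizer ({σ ^ (2 ^ m)} : Set G)
    have h2 : (⟨u, hD.HC u.2⟩ : C) ^ 2 ^ k = 1 := by
      apply Subtype.ext
      change (u : G) ^ 2 ^ k = 1
      rw [← hk, ← Subgroup.orderOf_coe, pow_orderOf_eq_one]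
    obtain ⟨y, hyP, hxy⟩ := H4.exists_conj_mem_sylow (P.subtype hPC) h2
    obtain ⟨c, hc⟩ := isConj_iff.mp hxy
    have hyP' : (y : G) ∈ (P : Subgroup G) := by
      have h2 : y ∈ ((P.subtype hPC : Sylow 2 C) : Subgroup C) := hyP
      rw [Sylow.coe_subtype] at h2
      exact Subgroup.mem_subgroupOf.mp h2
    have hc' : (c : G) * u * (c : G)⁻¹ = y := congrArg Subtype.val hc
    have hyH : (y : G) ∈ H := by
      have := hD.conj_mem (inv_mem c.2) u.2
      rw [inv_inv, hc'] at this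
      exact this
    have hy1 : (y : G) ≠ 1 := by
      intro h0
      apply hu
      have : (u : G) = 1 := by
        rw [h0] at hc'
        calc (u : G) = (c : G)⁻¹ * (c * u * (c : G)⁻¹) * c := by group
          _ = 1 := by rw [hc']; group
      have : u = 1 := Subtype.ext this
      rw [this, map_one]
    have hval' : (χ₁ : G → ℂ) y = δ₁ := by
      obtain ⟨i, hi | hi⟩ := hd.elements hyP'
      · have h3 : σ ^ i = σ ^ (i % ((2 ^ (m + 1) : ℕ) : ℤ)).toNat := by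
          rw [← zpow_natCast, Int.toNat_of_nonneg (Int.emod_nonneg _ (by positivity)), ← hσo,
            zpow_mod_orderOf]
        rw [hi, h3]
        have h4 : (i % ((2 ^ (m + 1) : ℕ) : ℤ)).toNat < 2 ^ (m + 1) := by
          have := Int.emod_lt_of_pos i (b := ((2 ^ (m + 1) : ℕ) : ℤ)) (by positivity)
          omega
        rcases Nat.eq_zero_or_pos (i % ((2 ^ (m + 1) : ℕ) : ℤ)).toNat with h5 | h5
        · exfalso
          apply hy1
          rw [hi, h3, h5, pow_zero]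
        · exact hval _ h5 h4
      · exfalso
        apply hτH
        have : τ = y * (σ ^ i)⁻¹ := by rw [hi]; group
        rw [this]
        exact mul_mem hyH (inv_mem (zpow_mem hσH i))
    rw [← hval', ← hc']
    exact (irr_classFun χ₁.2 u c).symm
  -- the generalized character
  have hHne : (Nat.card H : ℂ) ≠ 0 := by exact_mod_cast Nat.card_pos.ne'
  have hsumφ : ∑ x : H, (1 - (μ x : ℂ)) = Nat.card H := by
    rw [Finset.sum_sub_distrib, sum_unit_zero (μ := μ) ⟨⟨σ, hσH⟩, fun h0 => hμ2 (by rw [h0, one_mul])⟩,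
      sub_zero, Finset.sum_const, Finset.card_univ, nsmul_eq_mul, mul_one,
      Nat.card_eq_fintype_card]
  have hinner : ∀ (χ : IrrCharacter G) (d : ℂ), (∀ x : H, μ x ≠ 1 → (χ : G → ℂ) x = d) →
      classInner (indFun H (fun z => 1 - (μ z : ℂ))) (χ : G → ℂ) = conj d := by
    intro χ d hχd
    rw [frobenius_reciprocity H _ (irr_classFun χ.2)]
    unfold classInner
    have h2 : ∀ x : H, (1 - (μ x : ℂ)) * conj ((χ : G → ℂ) x) = (1 - (μ x : ℂ)) * conj d := by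
      intro x
      by_cases hx : μ x = 1
      · rw [hx, Units.val_one, sub_self, zero_mul, zero_mul]
      · rw [hχd x hx]
    rw [Finset.sum_congr rfl fun x _ => h2 x, ← Finset.sum_mul, hsumφ, ← mul_assoc,
      inv_mul_cancel₀ hHne, one_mul]
  have hint := fun χ : IrrCharacter G => classInner_gen_int hD.isGen (isGen_of_irr χ.2)
  choose mm hmm using hint
  let one : IrrCharacter G := ⟨fun _ => 1, isIrr_one⟩
  have hm1 : mm one = 1 := by
    have h2 := hinner one 1 (fun _ _ => rfl)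
    rw [hmm, map_one] at h2
    exact_mod_cast h2
  have hmχ₁ : mm χ₁ = δ₁ := by
    have h2 := hinner χ₁ δ₁ hconst
    rw [hmm, map_intCast] at h2
    exact_mod_cast h2
  have hδsq : δ₁ ^ 2 = 1 := by rcases hδ₁ with h | h <;> rw [h] <;> norm_num
  have hsum3 : ∑ χ : IrrCharacter G, mm χ ^ 2 = 3 := by
    have h2 := hD.norm_three hμ2
    rw [classInner_eq_sum (indFun_classFun H _)] at h2
    have h3 : ∀ χ : IrrCharacter G, classInner (indFun H (fun z => 1 - (μ z : ℂ))) (χ : G → ℂ) *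
        conj (classInner (indFun H (fun z => 1 - (μ z : ℂ))) (χ : G → ℂ)) =
        ((mm χ ^ 2 : ℤ) : ℂ) := by
      intro χ
      rw [hmm, map_intCast]
      push_cast
      ring
    rw [Finset.sum_congr rfl fun χ _ => h3 χ] at h2
    exact_mod_cast h2
  have hne1 : one ≠ χ₁ := fun h0 => h1 (by rw [← h0])
  obtain ⟨χ₂, hc1, hc2, hc3, hc4⟩ := exists_third mm hne1 (by rw [hm1]; norm_num)
    (by rw [hmχ₁, hδsq]) hsum3
  have hf : ∀ g, indFun H (fun z => 1 - (μ z : ℂ)) g =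
      1 + δ₁ * (χ₁ : G → ℂ) g + mm χ₂ * (χ₂ : G → ℂ) g := by
    intro g
    rw [classFun_expand_apply (indFun_classFun H _) g]
    have h2 : ∀ χ : IrrCharacter G, classInner (indFun H (fun z => 1 - (μ z : ℂ))) (χ : G → ℂ) *
        (χ : G → ℂ) g = (if χ = one then (1 : ℂ) else 0) +
          (if χ = χ₁ then δ₁ * (χ₁ : G → ℂ) g else 0) +
          (if χ = χ₂ then mm χ₂ * (χ₂ : G → ℂ) g else 0) := by
      intro χ
      rw [hmm]
      by_cases ha : χ = one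
      · subst ha
        rw [if_pos rfl, if_neg hne1, if_neg hc1.symm, hm1]
        change ((1 : ℤ) : ℂ) * 1 = _
        push_cast
        ring
      · by_cases hb : χ = χ₁
        · subst hb
          rw [if_neg ha, if_pos rfl, if_neg hc2.symm, hmχ₁]
          ring
        · by_cases hc : χ = χ₂
          · subst hc
            rw [if_neg ha, if_neg hb, if_pos rfl]
            ring
          · rw [if_neg ha, if_neg hb, if_neg hc, hc4 χ ha hb hc]
            push_cast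
            ring
    rw [Finset.sum_congr rfl fun χ _ => h2 χ, Finset.sum_add_distrib, Finset.sum_add_distrib,
      Finset.sum_ite_eq' univ one, Finset.sum_ite_eq' univ χ₁, Finset.sum_ite_eq' univ χ₂]
    simp only [Finset.mem_univ, if_true]
  -- values at 1 and J
  have hf1 := hD.ind_apply (fun c => 1 - (c : ℂ)) (by rw [Units.val_one, sub_self]) 1
  rw [map_one, inv_one, Units.val_one, sub_self, add_zero] at hf1
  have hfJ := hD.ind_apply (fun c => 1 - (c : ℂ)) (by rw [Units.val_one, sub_self]) ⟨_, hD.JH⟩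
  rw [hD.mu_J] at hfJ
  have hneg : ((-1 : ℂˣ))⁻¹ = -1 := by rw [inv_neg, inv_one]
  rw [hneg, Units.val_neg, Units.val_one] at hfJ
  change indFun H (fun z => 1 - (μ z : ℂ)) (1 : G) = 0 at hf1
  change indFun H (fun z => 1 - (μ z : ℂ)) (σ ^ (2 ^ m)) = _ at hfJ
  rw [hf] at hf1 hfJ
  have hJval : (χ₁ : G → ℂ) (σ ^ (2 ^ m)) = δ₁ := hval _ (by positivity)
    (Nat.pow_lt_pow_right (by norm_num) (by omega))
  rw [hJval] at hfJ
  obtain ⟨hx1, hx10⟩ := H11.charDegree_spec χ₁.2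
  obtain ⟨hx2, hx20⟩ := H11.charDegree_spec χ₂.2
  rw [hx1, hx2] at hf1
  -- the formula
  have hform := hD.order_formula hS ![one, χ₁, χ₂] ![1, (δ₁ : ℂ), (mm χ₂ : ℂ)] (by
    intro g
    rw [hf g, Fin.sum_univ_three]
    simp only [Matrix.cons_val_zero, Matrix.cons_val_one, Matrix.cons_val_two, Matrix.head_cons,
      Matrix.tail_cons, Matrix.cons_val]
    change 1 + (δ₁ : ℂ) * _ + _ = 1 * 1 + _ + _
    ring)
  rw [Fin.sum_univ_three] at hform
  simp only [Matrix.cons_val_zero, Matrix.cons_val_one, Matrix.cons_val_two, Matrix.head_cons,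
    Matrix.tail_cons, Matrix.cons_val] at hform
  rw [hJval, hx1, hx2] at hform
  have hone : ((one : IrrCharacter G) : G → ℂ) = fun _ => 1 := rfl
  rw [hone] at hform
  set X : ℂ := (charDegree (χ₁ : G → ℂ) : ℂ) with hX
  set Y : ℂ := (charDegree (χ₂ : G → ℂ) : ℂ) with hY
  have hX0 : X ≠ 0 := by rw [hX]; exact_mod_cast hx10
  have hY0 : Y ≠ 0 := by rw [hY]; exact_mod_cast hx20
  have hδc : (δ₁ : ℂ) ^ 2 = 1 := by exact_mod_cast hδsq
  have hmc : (mm χ₂ : ℂ) ^ 2 = 1 := by exact_mod_cast hc3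
  have hJ2v : (χ₂ : G → ℂ) (σ ^ (2 ^ m)) = 2 * (mm χ₂ : ℂ) := by
    linear_combination (mm χ₂ : ℂ) * hfJ - (mm χ₂ : ℂ) * hδc -
      ((χ₂ : G → ℂ) (σ ^ (2 ^ m))) * hmc
  rw [hJ2v] at hform
  have hsumv : X * (X + δ₁) * (1 * (1 ^ 2 / 1) + (δ₁ : ℂ) * ((δ₁ : ℂ) ^ 2 / X) +
      (mm χ₂ : ℂ) * ((2 * (mm χ₂ : ℂ)) ^ 2 / Y)) = (X - δ₁) ^ 2 := by
    have h3 : (X + δ₁) = - (δ₁ : ℂ) * (mm χ₂ : ℂ) * Y := by
      linear_combination (δ₁ : ℂ) * hf1 - X * hδc
    have h4 : (mm χ₂ : ℂ) * ((2 * (mm χ₂ : ℂ)) ^ 2 / Y) * (X + δ₁) = - 4 * δ₁ := by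
      rw [h3, div_eq_mul_inv]
      have hYY : Y⁻¹ * Y = 1 := inv_mul_cancel₀ hY0
      linear_combination (-4 * (δ₁ : ℂ) * (mm χ₂ : ℂ) ^ 4) * hYY +
        (-4 * (δ₁ : ℂ) * ((mm χ₂ : ℂ) ^ 2 + 1)) * hmc
    have h5 : (δ₁ : ℂ) * ((δ₁ : ℂ) ^ 2 / X) * X = δ₁ := by
      rw [hδc]
      field_simp
    calc X * (X + δ₁) * (1 * (1 ^ 2 / 1) + (δ₁ : ℂ) * ((δ₁ : ℂ) ^ 2 / X) +
      (mm χ₂ : ℂ) * ((2 * (mm χ₂ : ℂ)) ^ 2 / Y)) = X * (X + δ₁) +
        (X + δ₁) * ((δ₁ : ℂ) * ((δ₁ : ℂ) ^ 2 / X) * X) +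
        X * ((mm χ₂ : ℂ) * ((2 * (mm χ₂ : ℂ)) ^ 2 / Y) * (X + δ₁)) := by ring
      _ = (X - δ₁) ^ 2 := by rw [h4, h5]; linear_combination 0
  have hfinal : (Nat.card G : ℂ) * (X - δ₁) ^ 2 = 2 * X * (X + δ₁) *
      (Nat.card (Subgroup.centralizer ({σ ^ (2 ^ m)} : Set G)) : ℂ) *
      ((Iset (σ ^ (2 ^ m)) H).card : ℂ) ^ 2 := by
    rw [← hsumv]
    linear_combination (X * (X + δ₁)) * hform
  have hfinalQ : (Nat.card G : ℚ) * ((charDegree (χ₁ : G → ℂ) : ℚ) - δ₁) ^ 2 =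
      2 * (charDegree (χ₁ : G → ℂ) : ℚ) * ((charDegree (χ₁ : G → ℂ) : ℚ) + δ₁) *
      (Nat.card (Subgroup.centralizer ({σ ^ (2 ^ m)} : Set G)) : ℚ) *
      ((Iset (σ ^ (2 ^ m)) H).card : ℚ) ^ 2 := by
    rw [hX] at hfinal
    exact_mod_cast hfinal
  have hmain : (Nat.card G : ℚ) * ((charDegree (χ₁ : G → ℂ) : ℚ) - δ₁) ^ 2 =
      2 * (charDegree (χ₁ : G → ℂ) : ℚ) * ((charDegree (χ₁ : G → ℂ) : ℚ) + δ₁) *
      (Nat.card (Subgroup.centralizer ({σ ^ (2 ^ m)} : Set G)) : ℚ) ^ 3 *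
      (1 / (Nat.card (Subgroup.centralizer ({σ ^ (2 ^ m), τ} : Set G)) : ℚ) +
       1 / (Nat.card (Subgroup.centralizer ({σ ^ (2 ^ m), σ * τ} : Set G)) : ℚ)) ^ 2 := by
    rw [hfinalQ, hIcard]
    ring
  refine ⟨?_, hmain⟩
  intro h0
  have h0' : (charDegree (χ₁ : G → ℂ) : ℚ) = δ₁ := by exact_mod_cast h0
  have hδ1 : δ₁ = 1 := by
    rcases hδ₁ with h | h
    · exact h
    · exfalso; rw [h] at h0; omega
  rw [h0', hδ1] at hmain
  have hpos : (0 : ℚ) < 2 * ((1 : ℤ) : ℚ) * (((1 : ℤ) : ℚ) + ((1 : ℤ) : ℚ)) *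
      (Nat.card (Subgroup.centralizer ({σ ^ (2 ^ m)} : Set G)) : ℚ) ^ 3 *
      (1 / (Nat.card (Subgroup.centralizer ({σ ^ (2 ^ m), τ} : Set G)) : ℚ) +
       1 / (Nat.card (Subgroup.centralizer ({σ ^ (2 ^ m), σ * τ} : Set G)) : ℚ)) ^ 2 := by
    have p1 : (0 : ℚ) < (Nat.card (Subgroup.centralizer ({σ ^ (2 ^ m)} : Set G)) : ℚ) := by
      exact_mod_cast Nat.card_pos
    have p2 : (0 : ℚ) < (Nat.card (Subgroup.centralizer ({σ ^ (2 ^ m), τ} : Set G)) : ℚ) := by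
      exact_mod_cast Nat.card_pos
    have p3 : (0 : ℚ) < (Nat.card (Subgroup.centralizer ({σ ^ (2 ^ m), σ * τ} : Set G)) : ℚ) := by
      exact_mod_cast Nat.card_pos
    push_cast
    positivity
  rw [← hmain] at hpos
  norm_num at hpos

end Main

end Cfsg.Agent.H26
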