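import Mathlib
import Cfsg.Agent.H26.BFeit
import Cfsg.Agent.H26.Princ
import Cfsg.Agent.H3.Counting

set_option autoImplicit false

/-!
# Landau's theorem and groups with a single block
-/

namespace Cfsg.Agent.H26

open Cfsg Cfsg.Agent.H3 Cfsg.Agent.H11 Finset

universe u

theorem egypt (k : ℕ) : ∀ q : ℚ, 0 < q → ∃ L : ℕ, ∀ s : Multiset ℕ, Multiset.card s = k →
    (∀ n ∈ s, 0 < n) → (s.map (fun n : ℕ => (1 : ℚ) / n)).sum = q → ∀ n ∈ s, n ≤ L := by
  induction k with
  | zero =>
    intro q _
    refine ⟨0, fun s hs _ _ n hn => ?_⟩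
    rw [Multiset.card_eq_zero] at hs
    subst hs
    simp at hn
  | succ k ih =>
    intro q hq
    -- bound for each possible smallest element
    have hex : ∀ m : ℕ, ∃ L : ℕ, 0 < q - 1 / m → ∀ s : Multiset ℕ, Multiset.card s = k →
        (∀ n ∈ s, 0 < n) → (s.map (fun n : ℕ => (1 : ℚ) / n)).sum = q - 1 / m →
        ∀ n ∈ s, n ≤ L := by
      intro m
      by_cases h : 0 < q - 1 / m
      · obtain ⟨L, hL⟩ := ih _ h
        exact ⟨L, fun _ => hL⟩
      · exact ⟨0, fun h' => absurd h' h⟩
    choose Lf hLf using hex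
    set K := ⌊((k : ℚ) + 1) / q⌋₊ with hK
    refine ⟨K + ∑ m ∈ Finset.range (K + 1), Lf m, ?_⟩
    intro s hs hpos hsum n hn
    have hne : s ≠ 0 := by rintro rfl; simp at hn
    -- the minimum
    obtain ⟨m, hm, hmin⟩ : ∃ m ∈ s, ∀ x ∈ s, m ≤ x := by
      have hne' : s.toFinset.Nonempty := by
        obtain ⟨x, hx⟩ := Multiset.exists_mem_of_ne_zero hne
        exact ⟨x, Multiset.mem_toFinset.mpr hx⟩
      refine ⟨s.toFinset.min' hne', Multiset.mem_toFinset.mp (Finset.min'_mem _ _), ?_⟩
      intro x hx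
      exact Finset.min'_le _ _ (Multiset.mem_toFinset.mpr hx)
    have hm0 : 0 < m := hpos m hm
    have hm0' : (0 : ℚ) < m := by exact_mod_cast hm0
    have hqle : q ≤ ((k : ℚ) + 1) / m := by
      rw [← hsum]
      have h1 := Multiset.sum_le_card_nsmul (s.map (fun n : ℕ => (1 : ℚ) / n)) (1 / (m : ℚ)) (by
        intro x hx
        obtain ⟨y, hy, rfl⟩ := Multiset.mem_map.mp hx
        apply one_div_le_one_div_of_le hm0'
        exact_mod_cast hmin y hy)
      rw [Multiset.card_map, hs, nsmul_eq_mul] at h1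
      push_cast at h1
      calc _ ≤ ((k : ℚ) + 1) * (1 / m) := h1
        _ = _ := by ring
    have hmK : m ≤ K := by
      rw [hK, Nat.le_floor_iff (by positivity)]
      rw [le_div_iff₀ hm0'] at hqle
      rw [le_div_iff₀ hq]
      linarith [mul_comm q (m : ℚ)]
    obtain ⟨t, rfl⟩ := Multiset.exists_cons_of_mem hm
    rw [Multiset.card_cons] at hs
    have ht : Multiset.card t = k := by omega
    rw [Multiset.map_cons, Multiset.sum_cons] at hsum
    rcases Multiset.mem_cons.mp hn with h | h
    · rw [h]; exact hmK.trans (Nat.le_add_right _ _)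
    · have hsumt : (t.map (fun n : ℕ => (1 : ℚ) / n)).sum = q - 1 / m := by linarith
      have hnpos : 0 < n := hpos n hn
      have hpos' : 0 < q - 1 / m := by
        rw [← hsumt]
        obtain ⟨t', rfl⟩ := Multiset.exists_cons_of_mem h
        rw [Multiset.map_cons, Multiset.sum_cons]
        have h1 : (0 : ℚ) < 1 / n := by positivity
        have h2 : 0 ≤ (t'.map (fun n : ℕ => (1 : ℚ) / n)).sum := by
          apply Multiset.sum_nonneg
          intro x hx
          obtain ⟨y, _, rfl⟩ := Multiset.mem_map.mp hx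
          positivity
        linarith
      have h3 := hLf m hpos' t ht (fun x hx => hpos x (Multiset.mem_cons_of_mem hx)) hsumt n h
      have h4 : Lf m ≤ ∑ m ∈ Finset.range (K + 1), Lf m :=
        Finset.single_le_sum (f := Lf) (fun _ _ => Nat.zero_le _)
          (Finset.mem_range.mpr (by omega))
      omega

/-- Landau's theorem. -/
theorem landau (k : ℕ) : ∃ L : ℕ, ∀ (G : Type u) [Group G] [Finite G],
    Nat.card (ConjClasses G) = k → Nat.card G ≤ L := by
  obtain ⟨L, hL⟩ := egypt k 1 one_pos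
  refine ⟨L, fun G _ _ hG => ?_⟩
  classical
  have := Fintype.ofFinite G
  have := Fintype.ofFinite (ConjClasses G)
  let f : ConjClasses G → ℕ := fun c => Nat.card (Subgroup.centralizer ({c.out} : Set G))
  have hf : ∀ g : G, f (ConjClasses.mk g) =
      Nat.card (Subgroup.centralizer ({g} : Set G)) := by
    intro g
    have h1 : IsConj g (ConjClasses.mk g).out := by
      rw [← ConjClasses.mk_eq_mk_iff_isConj]
      exact (Quotient.out_eq (ConjClasses.mk g)).symm
    have e1 := card_isConj_mul_card_centralizer g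
    have e2 := card_isConj_mul_card_centralizer (ConjClasses.mk g).out
    have e3 : Nat.card {x : G // IsConj g x} = Nat.card {x : G // IsConj (ConjClasses.mk g).out x} :=
      Nat.card_congr (Equiv.subtypeEquivRight fun x => ⟨fun hh => h1.symm.trans hh,
        fun hh => h1.trans hh⟩)
    haveI : Nonempty {x : G // IsConj g x} := ⟨⟨g, IsConj.refl g⟩⟩
    have e4 : 0 < Nat.card {x : G // IsConj g x} := Nat.card_pos
    rw [← e3, ← e1] at e2
    exact Nat.eq_of_mul_eq_mul_left e4 e2
  have hpos : ∀ c, 0 < f c := fun c => Nat.card_pos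
  have hsum := sum_conjClasses_eq (G := G) (fun c => (1 : ℂ) / f c)
  have h2 : ∑ g : G, (Nat.card (Subgroup.centralizer ({g} : Set G)) : ℂ) *
      (1 / (f (ConjClasses.mk g) : ℂ)) = Nat.card G := by
    rw [Finset.sum_congr rfl (g := fun _ => (1 : ℂ)) (fun g _ => by
      rw [hf g]
      have : (Nat.card (Subgroup.centralizer ({g} : Set G)) : ℂ) ≠ 0 := by
        exact_mod_cast Nat.card_pos.ne'
      field_simp)]
    simp [Nat.card_eq_fintype_card]
  rw [h2] at hsum
  have hG0 : (Nat.card G : ℂ) ≠ 0 := by exact_mod_cast Nat.card_pos.ne'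
  have h3 : ∑ c : ConjClasses G, (1 : ℂ) / f c = 1 := by
    apply mul_left_cancel₀ hG0
    rw [← hsum, mul_one]
  have h4 : ∑ c : ConjClasses G, (1 : ℚ) / f c = 1 := by
    have : ((∑ c : ConjClasses G, (1 : ℚ) / f c : ℚ) : ℂ) = 1 := by
      rw [← h3]; push_cast; rfl
    exact_mod_cast this
  have h5 := hL ((Finset.univ : Finset (ConjClasses G)).val.map f) (by
      rw [Multiset.card_map, Finset.card_val, Finset.card_univ, ← Nat.card_eq_fintype_card, hG])
    (by
      intro n hn
      obtain ⟨c, _, rfl⟩ := Multiset.mem_map.mp hn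
      exact hpos c)
    (by
      rw [Multiset.map_map]
      exact h4)
    (f (ConjClasses.mk 1)) (Multiset.mem_map_of_mem f (Finset.mem_univ _))
  rw [hf 1] at h5
  have h6 : Subgroup.centralizer ({(1 : G)} : Set G) = ⊤ := by
    ext x
    rw [Subgroup.mem_centralizer_iff]
    simp
  rw [h6, Subgroup.card_top] at h5
  exact h5

theorem landau_le (k : ℕ) : ∃ L : ℕ, ∀ (G : Type u) [Group G] [Finite G],
    Nat.card (ConjClasses G) ≤ k → Nat.card G ≤ L := by
  choose L hL using landau.{u}
  refine ⟨∑ j ∈ Finset.range (k + 1), L j, fun G _ _ hG => ?_⟩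
  exact (hL _ G rfl).trans (Finset.single_le_sum (f := L) (fun _ _ => Nat.zero_le _)
    (Finset.mem_range.mpr (by omega)))

theorem st4718 (p : ℕ) [Fact p.Prime] (a : ℕ) : ∃ N : ℕ, ∀ (G : Type u) [Group G] [Finite G]
    (M : Ideal AlgInt), IsPModular p M → (Nat.card G).factorization p = a →
    (∀ B : Set (IrrCharacter G), IsPBlock M B → B = principalBlock M G) → Nat.card G ≤ N := by
  obtain ⟨L, hL⟩ := landau_le.{u} (p ^ (2 * a) + 4)
  refine ⟨L, fun G _ _ M hM ha hB => hL G ?_⟩
  have := Fintype.ofFinite G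
  have := pmod_isPrime hM
  rw [← card_irr_eq]
  have h1 : principalBlock M G = Set.univ := by
    apply Set.eq_univ_of_forall
    intro χ
    rw [← hB (blockOf M (χ : G → ℂ)) ⟨χ, rfl⟩]
    exact mem_blockOf_self χ
  have h2 := st4494 hM (principalBlock M G) (isPBlock_principal G)
  have h3 : blockDefect p (principalBlock M G) ≤ a := by
    rw [← ha]; unfold blockDefect; exact Nat.sub_le _ _
  have h4 : p ^ (2 * blockDefect p (principalBlock M G)) ≤ p ^ (2 * a) :=
    Nat.pow_le_pow_right hM.1.pos (by omega)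
  have h5 : Nat.card (principalBlock M G) = Nat.card (IrrCharacter G) := by
    rw [h1]
    exact Nat.card_congr (Equiv.Set.univ _)
  rw [← h5]
  omega

end Cfsg.Agent.H26
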