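import Mathlib
import Cfsg.Agent.H26.MajSub3
import Cfsg.Agent.H26.Cover6
import Cfsg.Agent.H26.Lift
import Cfsg.Agent.H27.Dual

set_option autoImplicit false

/-!
# Blocks with abelian defect groups and normal subgroups of `p`-power index
-/

namespace Cfsg.Agent.H26

open Cfsg Cfsg.Agent.H3 Cfsg.Agent.H11 Cfsg.Agent.H27 Finset
open scoped ComplexConjugate

universe u

section Maj

variable {G : Type u} [Group G] [Fintype G] {p : ℕ} [hp : Fact p.Prime] {M : Ideal AlgInt}

theorem MaxB.major (hM : IsPModular p M) [M.IsPrime] [CharP (KF M) p]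
    {B : Set (IrrCharacter G)} (hB : IsPBlock M B) {P : Subgroup G}
    {e f : MonoidAlgebra (KF M) G} (hm : MaxB p (EG M B) P e) {u : G} (hu : u ∈ P ⊓ cz P)
    (hf : PLE p (Subgroup.zpowers u) f P e) :
    ∃ b, IsPBlock M b ∧ EH M (cz (Subgroup.zpowers u)) b = f ∧
      IsInducedBlock M (cz (Subgroup.zpowers u)) b B ∧ blockDefect p b = blockDefect p B := by
  have hin : InB p (EG M B) (Subgroup.zpowers u) f := hm.1.of_ple' hf
  obtain ⟨b, hb, hbe⟩ := exists_EH hin.2.1.2
  have hpg := isPGroup_zpowers (hm.isPEl hu.1)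
  have hind : IsInducedBlock M (cz (Subgroup.zpowers u)) b B := by
    rw [isInducedBlock_cz_iff (p := p) hpg]
    exact ⟨hb, hB, by rw [hbe]; exact hin⟩
  have hPc : P ≤ cz (Subgroup.zpowers u) := by
    intro x hx
    rw [mem_cz_zpowers]
    exact Subgroup.mem_centralizer_iff.mp hu.2 x hx
  have hdef := hm.isDef_of_central hf hPc
  rw [← hbe] at hdef
  have hd1 : Nat.card P = p ^ blockDefect p b := card_def_local hM hb hdef
  have hd2 : Nat.card P = p ^ blockDefect p B := card_isDef_G hM hB hm.isDef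
  exact ⟨b, hb, hbe, hind, Nat.pow_right_injective hM.1.two_le (hd1.symm.trans hd2)⟩

theorem exists_ne_zero_of_central (hM : IsPModular p M) [M.IsPrime] [CharP (KF M) p]
    {B : Set (IrrCharacter G)} (hB : IsPBlock M B) {P : Subgroup G}
    {e : MonoidAlgebra (KF M) G} (hm : MaxB p (EG M B) P e) {u : G} (hu : u ∈ P ⊓ cz P)
    {χ : IrrCharacter G} (hχ : χ ∈ B) :
    ∃ s : G, s * u = u * s ∧ ¬ p ∣ orderOf s ∧ (χ : G → ℂ) (u * s) ≠ 0 := by
  classical
  obtain ⟨f, hf⟩ := exists_ple hm.1.2.1 (Subgroup.zpowers u)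
    (by rw [Subgroup.zpowers_le]; exact hu.1)
  obtain ⟨b, hb, -, hind, hd⟩ := hm.major hM hB hu hf
  have := Fintype.ofFinite (cz (Subgroup.zpowers u))
  have h1 := cn_self_ne_zero hM (hm.isPEl hu.1) (cent_zpowers u).symm hB hind hd hχ
  by_contra hcon
  push Not at hcon
  apply h1
  have h2 : cn p (cz (Subgroup.zpowers u)) u b (χ : G → ℂ) (χ : G → ℂ) =
      cn p (cz (Subgroup.zpowers u)) u b (fun _ => 0) (fun _ => 0) := by
    apply cn_congr hM hb
    · intro c hc
      exact hcon c (mem_cz_zpowers.mp c.2) (by rwa [Subgroup.orderOf_coe])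
    · intro c hc
      exact hcon c (mem_cz_zpowers.mp c.2) (by rwa [Subgroup.orderOf_coe])
  rw [h2, cn_eq]
  rw [Finset.sum_eq_zero, mul_zero]
  intro s _
  rw [ct_eq]
  simp

end Maj

section Cov

variable {G : Type u} [Group G] [Fintype G] {p : ℕ} [hp : Fact p.Prime] {M : Ideal AlgInt}
  {N : Subgroup G} [hNn : N.Normal] [Fintype N]

/-- Restriction is irreducible if `G = N P` and `P` abelian. -/
theorem irr_restrict_of_abelian (hM : IsPModular p M) [M.IsPrime] [CharP (KF M) p]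
    (hreg : ∀ g : G, ¬ p ∣ orderOf g → g ∈ N)
    {B : Set (IrrCharacter G)} (hB : IsPBlock M B) {P : Subgroup G}
    {e : MonoidAlgebra (KF M) G} (hm : MaxB p (EG M B) P e) (hNP : N ⊔ P = ⊤)
    (hPab : ∀ x ∈ P, ∀ y ∈ P, x * y = y * x) {χ : IrrCharacter G} (hχ : χ ∈ B) :
    IsIrrCharacter N (fun n : N => (χ : G → ℂ) n) := by
  classical
  -- the quotient is abelian
  have hrep : ∀ a : G ⧸ N, ∃ x ∈ P, (QuotientGroup.mk x : G ⧸ N) = a := by
    intro a
    obtain ⟨g, rfl⟩ := QuotientGroup.mk_surjective a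
    have hg : g ∈ N ⊔ P := by rw [hNP]; trivial
    obtain ⟨n, hn, x, hx, rfl⟩ := Subgroup.mem_sup_of_normal_left.mp hg
    refine ⟨x, hx, ?_⟩
    rw [QuotientGroup.mk_mul, (QuotientGroup.eq_one_iff n).mpr hn, one_mul]
  have hA : ∀ a b : G ⧸ N, a * b = b * a := by
    intro a b
    obtain ⟨x, hx, rfl⟩ := hrep a
    obtain ⟨y, hy, rfl⟩ := hrep b
    rw [← QuotientGroup.mk_mul, ← QuotientGroup.mk_mul, hPab x hx y hy]
  have := finite_dual (A := G ⧸ N)
  have := Fintype.ofFinite ((G ⧸ N) →* ℂˣ)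
  -- products with linear characters
  have hprod : ∀ ψ : (G ⧸ N) →* ℂˣ, classInner (fun g => ((ψ (QuotientGroup.mk g) : ℂˣ) : ℂ) *
      (χ : G → ℂ) g) (χ : G → ℂ) = if ψ = 1 then 1 else 0 := by
    intro ψ
    split_ifs with hψ
    · subst hψ
      simp only [MonoidHom.one_apply, Units.val_one, one_mul]
      exact classInner_self_of_irr χ.2
    · have hirr : IsIrrCharacter G (fun g => ((ψ (QuotientGroup.mk g) : ℂˣ) : ℂ) *
          (χ : G → ℂ) g) := isIrr_mul_hom χ.2 (ψ.comp (QuotientGroup.mk' N))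
      have h1 := classInner_irr' (⟨_, hirr⟩ : IrrCharacter G) χ
      change classInner (fun g => ((ψ (QuotientGroup.mk g) : ℂˣ) : ℂ) *
          (χ : G → ℂ) g) (χ : G → ℂ) = _ at h1
      rw [h1, if_neg]
      intro heq
      -- an element of `P` on which `ψ` is nontrivial
      have h2 : ∃ u ∈ P, ψ (QuotientGroup.mk u) ≠ 1 := by
        by_contra hcon
        push Not at hcon
        apply hψ
        apply MonoidHom.ext
        intro a
        obtain ⟨x, hx, rfl⟩ := hrep a
        rw [hcon x hx, MonoidHom.one_apply]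
      obtain ⟨u, hu, hu1⟩ := h2
      have huc : u ∈ P ⊓ cz P := by
        refine ⟨hu, ?_⟩
        change u ∈ Subgroup.centralizer (P : Set G)
        rw [Subgroup.mem_centralizer_iff]
        exact fun y hy => hPab y hy u hu
      obtain ⟨s, hs, hsr, hne⟩ := exists_ne_zero_of_central hM hB hm huc hχ
      have h3 := congrFun (congrArg Subtype.val heq) (u * s)
      change ((ψ (QuotientGroup.mk (u * s)) : ℂˣ) : ℂ) * (χ : G → ℂ) (u * s) =
        (χ : G → ℂ) (u * s) at h3
      rw [QuotientGroup.mk_mul, (QuotientGroup.eq_one_iff s).mpr (hreg s hsr), mul_one] at h3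
      apply hu1
      have h4 := mul_right_cancel₀ hne (h3.trans (one_mul _).symm)
      exact Units.ext h4
  -- sum over the dual group
  have hsum : ∑ ψ : (G ⧸ N) →* ℂˣ, classInner (fun g => ((ψ (QuotientGroup.mk g) : ℂˣ) : ℂ) *
      (χ : G → ℂ) g) (χ : G → ℂ) = 1 := by
    rw [Finset.sum_congr rfl fun ψ _ => hprod ψ, Finset.sum_ite_eq' Finset.univ (1 : _ →* _),
      if_pos (Finset.mem_univ _)]
  have hdual : ∀ g : G, ∑ ψ : (G ⧸ N) →* ℂˣ, ((ψ (QuotientGroup.mk g) : ℂˣ) : ℂ) =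
      if g ∈ N then (Nat.card (G ⧸ N) : ℂ) else 0 := by
    intro g
    split_ifs with hg
    · rw [(QuotientGroup.eq_one_iff g).mpr hg]
      simp only [map_one, Units.val_one, Finset.sum_const, Finset.card_univ, nsmul_eq_mul,
        mul_one]
      rw [← card_dual hA, Nat.card_eq_fintype_card]
    · exact sum_dual hA _ (fun h => hg ((QuotientGroup.eq_one_iff g).mp h))
  apply isIrr_of_char_norm (isChar_restrict' (C := N) (irr_isChar χ.2))
  rw [← hsum]
  unfold classInner
  have hN0 : (Nat.card N : ℂ) ≠ 0 := card_ne_zeroC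
  have hG0 : (Nat.card G : ℂ) ≠ 0 := card_ne_zeroC
  have hcard : (Nat.card G : ℂ) = Nat.card (G ⧸ N) * Nat.card N := by
    exact_mod_cast N.card_eq_card_quotient_mul_card_subgroup
  rw [← Finset.mul_sum, Finset.sum_comm]
  have h5 : ∀ g : G, ∑ ψ : (G ⧸ N) →* ℂˣ, ((ψ (QuotientGroup.mk g) : ℂˣ) : ℂ) *
      (χ : G → ℂ) g * conj ((χ : G → ℂ) g) =
      if g ∈ N then (Nat.card (G ⧸ N) : ℂ) * ((χ : G → ℂ) g * conj ((χ : G → ℂ) g)) else 0 := by
    intro g
    simp only [mul_assoc]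
    rw [← Finset.sum_mul, hdual]
    split_ifs <;> simp
  rw [Finset.sum_congr rfl fun g _ => h5 g, ← Finset.sum_filter, ← Finset.mul_sum, hcard]
  have h6 : ∑ g : G with g ∈ N, (χ : G → ℂ) g * conj ((χ : G → ℂ) g) =
      ∑ n : N, (χ : G → ℂ) n * conj ((χ : G → ℂ) n) := by
    symm
    apply Finset.sum_bij (fun (n : N) _ => (n : G))
    · intro n _; exact Finset.mem_filter.mpr ⟨Finset.mem_univ _, n.2⟩
    · intro a _ b _ h; exact Subtype.ext h
    · intro g hg; exact ⟨⟨g, (Finset.mem_filter.mp hg).2⟩, Finset.mem_univ _, rfl⟩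
    · intro n _; rfl
  rw [h6, mul_inv, mul_assoc, mul_left_comm, ← mul_assoc (Nat.card N : ℂ)⁻¹]
  have hA0 : (Nat.card (G ⧸ N) : ℂ) ≠ 0 := by
    intro h; rw [h, zero_mul] at hcard; exact hG0 hcard
  field_simp

omit [Fintype N] in
theorem isFx_of_stab [M.IsPrime] {b : Set (IrrCharacter N)}
    (hb : IsPBlock M b) (hstab : ∀ g : G, StabilizesBlock N b g) : IsFx ⊤ (EH M N b) :=
  fun g _ => ((stabilizesBlock_iff hb g).mp (hstab g)).2

/-- constituents of the restriction of members of `B` belong to `b`. -/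
theorem mem_of_inner_stab [M.IsPrime]
    {b : Set (IrrCharacter N)} (hb : IsPBlock M b) (hstab : ∀ g : G, StabilizesBlock N b g)
    {B : Set (IrrCharacter G)} (hB : IsPBlock M B) (hne : EG M B * EH M N b ≠ 0)
    {χ : IrrCharacter G} (hχ : χ ∈ B) {ψ : IrrCharacter N}
    (hψ : classInner (fun n : N => (χ : G → ℂ) n) (ψ : N → ℂ) ≠ 0) : ψ ∈ b := by
  obtain ⟨g, θ, hθ, h⟩ := exists_inner_of_cov hB hb hne hχ hψ
  obtain ⟨θ', hθ', hc⟩ := (hstab g⁻¹).2 θ hθ
  have : ψ = θ' := by
    apply Subtype.ext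
    funext n
    rw [h n]
    symm
    apply hc
    change (n : G) = g⁻¹ * (g * n * g⁻¹) * g⁻¹⁻¹
    group
  rw [this]; exact hθ'

theorem mem_of_over (hM : IsPModular p M) [M.IsPrime] (hidx : ∃ k : ℕ, N.index = p ^ k)
    {b : Set (IrrCharacter N)} (hb : IsPBlock M b) (hstab : ∀ g : G, StabilizesBlock N b g)
    {B : Set (IrrCharacter G)} (hB : IsPBlock M B) (hE : EG M B = EH M N b)
    {χ : IrrCharacter G} {θ : IrrCharacter N} (hθ : θ ∈ b)
    (h : classInner (fun n : N => (χ : G → ℂ) n) (θ : N → ℂ) ≠ 0) : χ ∈ B := by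
  have hB' : IsPBlock M {ψ : IrrCharacter G | SameBlock M (χ : G → ℂ) (ψ : G → ℂ)} :=
    ⟨χ, rfl⟩
  have hχ : χ ∈ {ψ : IrrCharacter G | SameBlock M (χ : G → ℂ) (ψ : G → ℂ)} :=
    fun g => sameBlock_refl (χ : G → ℂ) g
  have h1 := cov_of_inner hB' hb hχ hθ h
  have h2 := eq_of_stable_index hM hidx hb (isFx_of_stab hb hstab) hB' h1
  have h3 := EG_injective hB' hB (h2.trans hE.symm)
  rw [← h3]; exact hχ

end Cov

section St

variable {G : Type u} [Group G] [Fintype G]

theorem st4640 (p : ℕ) [hp : Fact p.Prime] (M : Ideal AlgInt) (hM : IsPModular p M)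
    (N : Subgroup G) [hNn : N.Normal] [Fintype N] (hNi : ∃ k : ℕ, N.index = p ^ k)
    (b : Set (IrrCharacter N)) (hb : IsPBlock M b) (hstab : ∀ g : G, StabilizesBlock N b g)
    (B : Set (IrrCharacter G)) (hB : IsPBlock M B)
    (hcov : ∃ χ ∈ B, ∃ θ ∈ b, classInner (fun n : N => (χ : G → ℂ) n) (θ : N → ℂ) ≠ 0)
    (P : Subgroup G) (hPD : IsDefectGroup p M B P)
    (hPab : ∀ x ∈ P, ∀ y ∈ P, x * y = y * x) :
    N ⊔ P = ⊤ ∧ IsDefectGroup p M b ((P ⊓ N).subgroupOf N) ∧
      (∀ χ ∈ B, ∃ θ ∈ b, ∀ n : N, (χ : G → ℂ) n = (θ : N → ℂ) n) ∧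
      (∀ θ ∈ b, Nat.card {χ : IrrCharacter G // χ ∈ B ∧ ∀ n : N, (χ : G → ℂ) n = (θ : N → ℂ) n}
        = N.index) ∧ Nat.card B = N.index * Nat.card b ∧ blockRank p B = blockRank p b := by
  classical
  have : M.IsPrime := hM.2.1.isPrime
  have : CharP (KF M) p := charP_KF hM
  have := Fintype.ofFinite (IrrCharacter G)
  have := Fintype.ofFinite (IrrCharacter N)
  obtain ⟨χ0, hχ0, θ0, hθ0, h0⟩ := hcov
  have hnon : Nonempty (IrrCharacter N) := ⟨θ0⟩
  have hne := cov_of_inner hB hb hχ0 hθ0 h0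
  have hfx := isFx_of_stab hb hstab
  have hE := eq_of_stable_index hM hNi hb hfx hB hne
  obtain ⟨h1, h2⟩ := (st4672 p M hM N hNi b hb hstab).2 B hB ((EG_eq_iff hNn hB hb).mp hE) P hPD
  have hDef := (isDefectGroup_iff_EG hB).mp hPD
  obtain ⟨e, he⟩ := hDef.exists_inB (isBlk_EG hB)
  have hm := he.maxB_of_isDef hDef
  have hreg : ∀ g : G, ¬ p ∣ orderOf g → g ∈ N := fun g hg => mem_of_pRegular hNi hg
  have hirr : ∀ χ ∈ B, IsIrrCharacter N (fun n : N => (χ : G → ℂ) n) := fun χ hχ =>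
    irr_restrict_of_abelian hM hreg hB hm h1 hPab hχ
  have hres : ∀ χ ∈ B, ∃ θ ∈ b, ∀ n : N, (χ : G → ℂ) n = (θ : N → ℂ) n := by
    intro χ hχ
    refine ⟨⟨_, hirr χ hχ⟩, ?_, fun n => rfl⟩
    apply mem_of_inner_stab hb hstab hB hne hχ
    change classInner (fun n : N => (χ : G → ℂ) n) (fun n : N => (χ : G → ℂ) n) ≠ 0
    rw [classInner_self_of_irr (hirr χ hχ)]
    exact one_ne_zero
  have hcount : ∀ θ ∈ b, Nat.card {χ : IrrCharacter G // χ ∈ B ∧ ∀ n : N,
      (χ : G → ℂ) n = (θ : N → ℂ) n} = N.index := by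
    intro θ hθ
    have hch := isChar_ind N (irr_isChar θ.2)
    have e1 := classFun_expand_apply (char_classFun hch) 1
    rw [indFun_one_apply] at e1
    have e2 : ∀ χ : IrrCharacter G, classInner (indFun N (θ : N → ℂ)) (χ : G → ℂ) *
        (χ : G → ℂ) 1 = if (χ ∈ B ∧ ∀ n : N, (χ : G → ℂ) n = (θ : N → ℂ) n)
          then (θ : N → ℂ) 1 else 0 := by
      intro χ
      rw [frobenius_reciprocity N _ (irr_classFun χ.2)]
      by_cases hz : classInner (fun n : N => (χ : G → ℂ) n) (θ : N → ℂ) = 0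
      · have hz' : classInner (θ : N → ℂ) (fun n : N => (χ : G → ℂ) n) = 0 := by
          rw [← classInner_conj_symm, hz, map_zero]
        rw [hz', zero_mul, if_neg]
        rintro ⟨-, h⟩
        have : (fun n : N => (χ : G → ℂ) n) = (θ : N → ℂ) := funext h
        rw [this, classInner_self_of_irr θ.2] at hz
        exact one_ne_zero hz
      · have hχ := mem_of_over hM hNi hb hstab hB hE hθ hz
        have heq : (fun n : N => (χ : G → ℂ) n) = (θ : N → ℂ) := by
          have h3 := classInner_irr' (⟨_, hirr χ hχ⟩ : IrrCharacter N) θ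
          by_contra hcon
          rw [if_neg (fun h => hcon (congrArg Subtype.val h))] at h3
          exact hz h3
        rw [if_pos ⟨hχ, fun n => congrFun heq n⟩, heq, classInner_self_of_irr θ.2, one_mul,
          ← heq]
        rfl
    rw [Finset.sum_congr rfl fun χ _ => e2 χ, ← Finset.sum_filter, Finset.sum_const,
      nsmul_eq_mul] at e1
    have e3 := mul_right_cancel₀ (irr_one_ne_zero θ.2) e1
    rw [Nat.card_eq_fintype_card, Fintype.card_subtype]
    exact_mod_cast e3.symm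
  have hbtot : Nat.card B = N.index * Nat.card b := by
    choose! r hr1 hr2 using hres
    let R : B → b := fun χ => ⟨r χ, hr1 χ χ.2⟩
    rw [Nat.card_congr (Equiv.sigmaFiberEquiv R).symm, Nat.card_sigma]
    have : ∀ θ : b, Nat.card {χ : B // R χ = θ} = N.index := by
      intro θ
      rw [← hcount θ θ.2]
      apply Nat.card_congr
      refine ⟨fun χ => ⟨χ.1, χ.1.2, fun n => ?_⟩, fun χ => ⟨⟨χ.1, χ.2.1⟩, ?_⟩, fun _ => rfl,
        fun _ => rfl⟩
      · have h3 : r χ.1 = θ := congrArg Subtype.val χ.2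
        rw [← h3]
        exact hr2 χ.1 χ.1.2 n
      · apply Subtype.ext
        apply Subtype.ext
        funext n
        rw [← χ.2.2 n]
        exact (hr2 χ.1 χ.2.1 n).symm
    rw [Finset.sum_congr rfl fun θ _ => this θ, Finset.sum_const, Finset.card_univ,
      smul_eq_mul, mul_comm, Nat.card_eq_fintype_card]
  refine ⟨h1, h2, hres, hcount, hbtot, ?_⟩
  -- ranks
  have k1 := blockRank_kr hM hB
  have k2 := blockRank_kr hM hb
  have k3 : ∑ g : G with ¬ p ∣ orderOf g, kr B g g =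
      (N.index : ℂ) * ∑ n : N with ¬ p ∣ orderOf n, kr b n n := by
    rw [Finset.mul_sum]
    symm
    apply Finset.sum_bij (fun (n : N) _ => (n : G))
    · intro n hn
      refine Finset.mem_filter.mpr ⟨Finset.mem_univ _, ?_⟩
      rw [Subgroup.orderOf_coe]
      exact (Finset.mem_filter.mp hn).2
    · intro a _ b _ h; exact Subtype.ext h
    · intro g hg
      have hg' := (Finset.mem_filter.mp hg).2
      refine ⟨⟨g, hreg g hg'⟩, Finset.mem_filter.mpr ⟨Finset.mem_univ _, ?_⟩, rfl⟩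
      rwa [← Subgroup.orderOf_coe]
    · intro n _
      rw [kr_eq, kr_eq]
      choose! r hr1 hr2 using hres
      rw [← Finset.sum_fiberwise_of_maps_to (s := univ.filter (· ∈ B))
        (t := univ.filter (· ∈ b)) (g := r)
        (fun χ hχ => Finset.mem_filter.mpr ⟨Finset.mem_univ _,
          hr1 χ (Finset.mem_filter.mp hχ).2⟩), Finset.mul_sum]
      apply Finset.sum_congr rfl
      intro θ hθ
      have hθ' := (Finset.mem_filter.mp hθ).2
      have h5 : ∀ χ ∈ (univ.filter (· ∈ B)).filter (fun χ => r χ = θ),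
          (χ : G → ℂ) n * conj ((χ : G → ℂ) n) = (θ : N → ℂ) n * conj ((θ : N → ℂ) n) := by
        intro χ hχ
        obtain ⟨h6, h7⟩ := Finset.mem_filter.mp hχ
        rw [← h7, hr2 χ (Finset.mem_filter.mp h6).2 n]
      rw [Finset.sum_congr rfl h5, Finset.sum_const, nsmul_eq_mul]
      congr 1
      rw [← hcount θ hθ', Nat.card_eq_fintype_card, Fintype.card_subtype]
      norm_cast
      congr 1
      ext χ
      simp only [Finset.mem_filter, Finset.mem_univ, true_and]
      constructor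
      · rintro ⟨h6, h7⟩
        refine ⟨h6, Subtype.ext (funext fun m => ?_)⟩
        rw [← h7 m]; exact (hr2 χ h6 m).symm
      · rintro ⟨h6, h7⟩
        exact ⟨h6, fun m => by rw [← h7]; exact hr2 χ h6 m⟩
  have hcard : (Nat.card G : ℂ) = N.index * Nat.card N := by
    exact_mod_cast (N.index_mul_card).symm
  rw [k3, ← k2, ← mul_assoc, ← hcard] at k1
  have hG0 : (Nat.card G : ℂ) ≠ 0 := card_ne_zeroC
  exact_mod_cast mul_left_cancel₀ hG0 k1

end St

end Cfsg.Agent.H26
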