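import Mathlib

set_option autoImplicit false

/-!
# Integer vectors with Gram matrix `e + δ`
-/

namespace Cfsg.Agent.H26

open Finset

universe u v

section Cells

variable {R : Type u} [Fintype R] [DecidableEq R]

/-- `1` at `a`, `0` elsewhere -/
def dl (a r : R) : ℤ := if r = a then 1 else 0

theorem sum_dl (f : R → ℤ) (a : R) : ∑ r, f r * dl a r = f a := by
  unfold dl
  simp

theorem two_sq {f d : R → ℤ} (hd : ∀ r, 0 < d r) (h2 : ∑ r, f r ^ 2 = 2)
    (h0 : ∑ r, f r * d r = 0) :
    ∃ a b, a ≠ b ∧ ∀ r, f r = dl a r - dl b r := by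
  have hpos : ∃ a, 0 < f a := by
    by_contra hc
    push Not at hc
    have h1 : ∀ r ∈ univ, f r * d r ≤ 0 := fun r _ =>
      mul_nonpos_of_nonpos_of_nonneg (hc r) (hd r).le
    have h3 := (Finset.sum_eq_zero_iff_of_nonpos h1).mp h0
    have h4 : ∑ r, f r ^ 2 = 0 := by
      apply Finset.sum_eq_zero
      intro r hr
      have := h3 r hr
      rcases mul_eq_zero.mp this with h | h
      · rw [h]; rfl
      · exact absurd h (hd r).ne'
    omega
  have hneg : ∃ b, f b < 0 := by
    by_contra hc
    push Not at hc
    have h1 : ∀ r ∈ univ, 0 ≤ f r * d r := fun r _ => mul_nonneg (hc r) (hd r).le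
    have h3 := (Finset.sum_eq_zero_iff_of_nonneg h1).mp h0
    have h4 : ∑ r, f r ^ 2 = 0 := by
      apply Finset.sum_eq_zero
      intro r hr
      have := h3 r hr
      rcases mul_eq_zero.mp this with h | h
      · rw [h]; rfl
      · exact absurd h (hd r).ne'
    omega
  obtain ⟨a, ha⟩ := hpos
  obtain ⟨b, hb⟩ := hneg
  have hab : a ≠ b := by
    intro h
    rw [h] at ha
    omega
  have h3 : ∑ r, f r ^ 2 = f a ^ 2 + (f b ^ 2 + ∑ r ∈ (univ.erase a).erase b, f r ^ 2) := by
    rw [Finset.add_sum_erase (univ.erase a) (fun r => f r ^ 2)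
      (Finset.mem_erase.mpr ⟨hab.symm, Finset.mem_univ b⟩),
      Finset.add_sum_erase univ (fun r => f r ^ 2) (Finset.mem_univ a)]
  have h4 : 0 ≤ ∑ r ∈ (univ.erase a).erase b, f r ^ 2 :=
    Finset.sum_nonneg fun _ _ => sq_nonneg _
  have ha2 : 1 ≤ f a ^ 2 := by nlinarith
  have hb2 : 1 ≤ f b ^ 2 := by nlinarith
  have h5 : ∑ r ∈ (univ.erase a).erase b, f r ^ 2 = 0 := by omega
  have h6 := (Finset.sum_eq_zero_iff_of_nonneg (fun _ _ => sq_nonneg _)).mp h5
  have hfa : f a = 1 := by
    have : f a ^ 2 = 1 := by omega
    nlinarith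
  have hfb : f b = -1 := by
    have : f b ^ 2 = 1 := by omega
    nlinarith
  refine ⟨a, b, hab, fun r => ?_⟩
  unfold dl
  by_cases hra : r = a
  · rw [if_pos hra, if_neg (fun h => hab (hra.symm.trans h)), hra, hfa]; rfl
  · by_cases hrb : r = b
    · rw [if_neg hra, if_pos hrb, hrb, hfb]; rfl
    · rw [if_neg hra, if_neg hrb]
      have := h6 r (Finset.mem_erase.mpr ⟨hrb, Finset.mem_erase.mpr ⟨hra, Finset.mem_univ r⟩⟩)
      simpa using this

variable {I : Type v} [Fintype I] [DecidableEq I]

theorem dl_mul_dl (a b : R) : ∑ r, dl a r * dl b r = if a = b then 1 else 0 := by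
  rw [sum_dl]
  unfold dl
  by_cases h : a = b
  · rw [if_pos h, if_pos h.symm]
  · rw [if_neg h, if_neg (fun h' => h h'.symm)]

theorem classify {w : I → R → ℤ} {d : R → ℤ} (hd : ∀ r, 0 < d r) {e : ℤ}
    (hw0 : ∀ i, ∑ r, w i r * d r = 0)
    (hG : ∀ i j, ∑ r, w i r * w j r = e + if i = j then 1 else 0)
    {i0 j0 : I} (hij : i0 ≠ j0) :
    ∃ (ε : ℤ) (c : R → ℤ) (X : I → R), (ε = 1 ∨ ε = -1) ∧ Function.Injective X ∧
        ∀ i r, w i r = c r + ε * dl (X i) r := by
  have h1 : ∀ j : I, j ≠ i0 → ∃ a b, a ≠ b ∧ ∀ r, w i0 r - w j r = dl a r - dl b r := by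
    intro j hj
    apply two_sq hd
    · have h2 : ∀ r, (w i0 r - w j r) ^ 2 =
          w i0 r * w i0 r - (w i0 r * w j r + w j r * w i0 r) + w j r * w j r := by
        intro r; ring
      rw [Finset.sum_congr rfl (fun r _ => h2 r), Finset.sum_add_distrib, Finset.sum_sub_distrib,
        Finset.sum_add_distrib, hG, hG, hG, hG, if_pos rfl, if_pos rfl, if_neg hj, if_neg hj.symm]
      ring
    · have h2 : ∀ r, (w i0 r - w j r) * d r = w i0 r * d r - w j r * d r := by
        intro r; ring
      rw [Finset.sum_congr rfl (fun r _ => h2 r), Finset.sum_sub_distrib, hw0, hw0, sub_zero]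
  have hRn : Nonempty R := ⟨(h1 j0 hij.symm).choose⟩
  choose! P N hPN hw using h1
  -- the products of the differences
  have h2 : ∀ j k : I, j ≠ i0 → k ≠ i0 → j ≠ k →
      (P j = P k ∧ N j ≠ N k) ∨ (N j = N k ∧ P j ≠ P k) := by
    intro j k hj hk hjk
    have h3 : ∑ r, (w i0 r - w j r) * (w i0 r - w k r) = 1 := by
      have h4 : ∀ r, (w i0 r - w j r) * (w i0 r - w k r) =
          w i0 r * w i0 r - (w i0 r * w k r + w j r * w i0 r) + w j r * w k r := by
        intro r; ring
      rw [Finset.sum_congr rfl (fun r _ => h4 r), Finset.sum_add_distrib, Finset.sum_sub_distrib,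
        Finset.sum_add_distrib, hG, hG, hG, hG, if_pos rfl, if_neg hj, if_neg hk.symm, if_neg hjk]
      ring
    have h5 : ∑ r, (w i0 r - w j r) * (w i0 r - w k r) =
        (if P j = P k then 1 else 0) - (if P j = N k then 1 else 0) -
        (if N j = P k then 1 else 0) + (if N j = N k then (1 : ℤ) else 0) := by
      have h4 : ∀ r, (w i0 r - w j r) * (w i0 r - w k r) =
          dl (P j) r * dl (P k) r - dl (P j) r * dl (N k) r - dl (N j) r * dl (P k) r +
            dl (N j) r * dl (N k) r := by
        intro r
        rw [hw j hj r, hw k hk r]; ring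
      rw [Finset.sum_congr rfl (fun r _ => h4 r), Finset.sum_add_distrib, Finset.sum_sub_distrib,
        Finset.sum_sub_distrib, dl_mul_dl, dl_mul_dl, dl_mul_dl, dl_mul_dl]
    rw [h5] at h3
    by_cases hp : P j = P k
    · by_cases hn : N j = N k
      · exfalso
        rw [if_pos hp, if_pos hn, if_neg (fun h => hPN k hk (hp.symm.trans h)),
          if_neg (fun h => hPN j hj (hp.trans h.symm))] at h3
        norm_num at h3
      · exact Or.inl ⟨hp, hn⟩
    · by_cases hn : N j = N k
      · exact Or.inr ⟨hn, hp⟩
      · exfalso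
        rw [if_neg hp, if_neg hn] at h3
        split_ifs at h3 <;> omega
  have hj0 : j0 ≠ i0 := hij.symm
  by_cases hall : ∀ j, j ≠ i0 → P j = P j0
  · refine ⟨1, fun r => w i0 r - dl (P j0) r, fun j => if j = i0 then P j0 else N j, Or.inl rfl,
      ?_, ?_⟩
    · intro j k hjk
      by_cases hj : j = i0
      · by_cases hk : k = i0
        · rw [hj, hk]
        · exfalso
          simp only [if_pos hj, if_neg hk] at hjk
          exact hPN k hk ((hall k hk).trans hjk)
      · by_cases hk : k = i0
        · exfalso
          simp only [if_pos hk, if_neg hj] at hjk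
          exact hPN j hj ((hall j hj).trans hjk.symm)
        · simp only [if_neg hj, if_neg hk] at hjk
          by_contra hne
          rcases h2 j k hj hk hne with h | h
          · exact h.2 hjk
          · exact h.2 ((hall j hj).trans (hall k hk).symm)
    · intro j r
      by_cases hj : j = i0
      · simp only [if_pos hj]
        rw [hj]; ring
      · simp only [if_neg hj]
        have := hw j hj r
        rw [hall j hj] at this
        linarith
  · push Not at hall
    obtain ⟨k0, hk0, hk0'⟩ := hall
    have hne : j0 ≠ k0 := fun h => hk0' (by rw [h])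
    have hN0 : N j0 = N k0 := by
      rcases h2 j0 k0 hj0 hk0 hne with h | h
      · exact absurd h.1.symm hk0'
      · exact h.1
    have hN : ∀ j, j ≠ i0 → N j = N j0 := by
      intro l hl
      by_contra hc
      have hlj : l ≠ j0 := fun h => hc (by rw [h])
      have hlk : l ≠ k0 := fun h => hc (by rw [h, hN0])
      rcases h2 l j0 hl hj0 hlj with h | h
      · rcases h2 l k0 hl hk0 hlk with h' | h'
        · exact hk0' (h'.1.symm.trans h.1)
        · exact hc (h'.1.trans hN0.symm)
      · exact hc h.1
    refine ⟨-1, fun r => w i0 r + dl (N j0) r, fun j => if j = i0 then N j0 else P j, Or.inr rfl,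
      ?_, ?_⟩
    · intro j k hjk
      by_cases hj : j = i0
      · by_cases hk : k = i0
        · rw [hj, hk]
        · exfalso
          simp only [if_pos hj, if_neg hk] at hjk
          exact hPN k hk (hjk.symm.trans (hN k hk).symm)
      · by_cases hk : k = i0
        · exfalso
          simp only [if_pos hk, if_neg hj] at hjk
          exact hPN j hj (hjk.trans (hN j hj).symm)
        · simp only [if_neg hj, if_neg hk] at hjk
          by_contra hne
          rcases h2 j k hj hk hne with h | h
          · exact h.2 ((hN j hj).trans (hN k hk).symm)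
          · exact h.2 hjk
    · intro j r
      by_cases hj : j = i0
      · simp only [if_pos hj]
        rw [hj]; ring
      · simp only [if_neg hj]
        have := hw j hj r
        rw [hN j hj] at this
        linarith

/-- The cells. -/
theorem exists_cells {w : I → R → ℤ} {d : R → ℤ} (hd : ∀ r, 0 < d r) {e : ℤ}
    (hw0 : ∀ i, ∑ r, w i r * d r = 0)
    (hG : ∀ i j, ∑ r, w i r * w j r = e + if i = j then 1 else 0) [hI : Nonempty I]
    (hne : ∀ r, ∃ i, w i r ≠ 0) :
    ∃ (K : Type u) (_ : Fintype K) (_ : DecidableEq K) (cell : R → K) (δ : K → ℤ),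
      Function.Surjective cell ∧
      (∀ i k, ∑ r with cell r = k, w i r = δ k) ∧ (∀ k, δ k ≠ 0) ∧
      (∀ b : R → ℂ, (∀ i, ∑ r, b r * (w i r : ℂ) = 0) → ∀ r s, cell r = cell s → b r = b s) ∧
      ∑ k, ∑ l, (if k = l then 0 else ((univ.filter (fun r => cell r = k)).card : ℤ) * δ l ^ 2) ≤
        (Fintype.card K - 1 : ℤ) * (1 + e * Fintype.card I) := by
  classical
  by_cases h1 : ∃ i0 j0 : I, i0 ≠ j0
  swap
  · -- one vector
    push Not at h1
    obtain ⟨i0⟩ := hI
    have hcard : Fintype.card I = 1 := Fintype.card_eq_one_iff.mpr ⟨i0, fun j => h1 j i0⟩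
    refine ⟨R, inferInstance, inferInstance, id, w i0, Function.surjective_id, ?_, ?_, ?_, ?_⟩
    · intro i k
      rw [h1 i i0]
      have : univ.filter (fun r : R => id r = k) = {k} := by
        ext r; simp
      rw [this, Finset.sum_singleton]
    · intro k
      obtain ⟨i, hi⟩ := hne k
      rwa [h1 i i0] at hi
    · intro b _ r s hrs
      rw [id, id] at hrs
      rw [hrs]
    · have h2 : ∀ k : R, ((univ.filter (fun r : R => id r = k)).card : ℤ) = 1 := by
        intro k
        have : univ.filter (fun r : R => id r = k) = {k} := by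
          ext r; simp
        rw [this, Finset.card_singleton]; rfl
      have h3 := hG i0 i0
      rw [if_pos rfl] at h3
      have h4 : ∀ k : R, ∑ l, (if k = l then 0 else
          ((univ.filter (fun r => id r = k)).card : ℤ) * w i0 l ^ 2) = (e + 1) - w i0 k ^ 2 := by
        intro k
        rw [h2 k, ← h3, ← Finset.add_sum_erase univ _ (Finset.mem_univ k), if_pos rfl, zero_add,
          ← Finset.add_sum_erase univ (fun r => w i0 r * w i0 r) (Finset.mem_univ k)]
        have h5 : ∑ x ∈ univ.erase k, (if k = x then 0 else 1 * w i0 x ^ 2) =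
            ∑ x ∈ univ.erase k, w i0 x * w i0 x := by
          apply Finset.sum_congr rfl
          intro x hx
          rw [if_neg (Finset.ne_of_mem_erase hx).symm]; ring
        rw [h5]; ring
      rw [Finset.sum_congr rfl (fun k _ => h4 k), Finset.sum_sub_distrib, Finset.sum_const,
        Finset.card_univ, hcard, nsmul_eq_mul]
      have h6 : ∑ x, w i0 x ^ 2 = e + 1 := by
        rw [← h3]
        exact Finset.sum_congr rfl fun r _ => by ring
      rw [h6]
      push_cast
      apply le_of_eq
      ring
  · obtain ⟨i0, j0, hij⟩ := h1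
    obtain ⟨ε, c, X, hε, hX, hwX⟩ := classify hd hw0 hG hij
    have hε2 : ε * ε = 1 := by rcases hε with h | h <;> rw [h] <;> rfl
    set q : ℤ := ((Fintype.card I : ℕ) : ℤ) with hq
    -- constancy of `c` on the image
    have hc1 : ∀ i j, i ≠ j → ∑ r, c r * c r + ε * (c (X i) + c (X j)) = e := by
      intro i j hne'
      have h2 := hG i j
      rw [if_neg hne', add_zero] at h2
      rw [← h2]
      have h3 : ∀ r, w i r * w j r = c r * c r + (ε * (c r * dl (X j) r) +
          (ε * (c r * dl (X i) r) + ε * ε * (dl (X i) r * dl (X j) r))) := by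
        intro r
        rw [hwX, hwX]; ring
      rw [Finset.sum_congr rfl (fun r _ => h3 r), Finset.sum_add_distrib, Finset.sum_add_distrib,
        Finset.sum_add_distrib, ← Finset.mul_sum, ← Finset.mul_sum, ← Finset.mul_sum, sum_dl,
        sum_dl, dl_mul_dl, if_neg (fun h => hne' (hX h))]
      ring
    have hc2 : ∀ i, ∑ r, c r * c r + 2 * ε * c (X i) = e := by
      intro i
      have h2 := hG i i
      rw [if_pos rfl] at h2
      have h3 : ∀ r, w i r * w i r = c r * c r + (ε * (c r * dl (X i) r) +
          (ε * (c r * dl (X i) r) + ε * ε * (dl (X i) r * dl (X i) r))) := by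
        intro r
        rw [hwX]; ring
      rw [Finset.sum_congr rfl (fun r _ => h3 r), Finset.sum_add_distrib, Finset.sum_add_distrib,
        Finset.sum_add_distrib, ← Finset.mul_sum, ← Finset.mul_sum, sum_dl,
        dl_mul_dl, if_pos rfl, hε2] at h2
      linarith
    set a := c (X i0) with ha
    have hc3 : ∀ i, c (X i) = a := by
      intro i
      have h2 := hc2 i
      have h3 := hc2 i0
      have h4 : ε * (c (X i) - a) = 0 := by rw [ha]; linarith
      rcases mul_eq_zero.mp h4 with h | h
      · rw [h] at hε2; norm_num at hε2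
      · linarith
    -- sums over the image
    set T : Finset R := univ.image X with hT
    have hTmem : ∀ r, r ∈ T ↔ ∃ i, X i = r := by
      intro r
      rw [hT, Finset.mem_image]
      simp
    have hTcard : (T.card : ℤ) = q := by
      rw [hT, Finset.card_image_of_injective _ hX, Finset.card_univ]
    have hTc : ∀ r ∈ T, c r = a := by
      intro r hr
      obtain ⟨i, rfl⟩ := (hTmem r).mp hr
      exact hc3 i
    set S : ℤ := ∑ r ∈ Tᶜ, c r ^ 2 with hS
    have hS0 : 0 ≤ S := Finset.sum_nonneg fun _ _ => sq_nonneg _
    have hsum : ∑ r, c r * c r = q * a ^ 2 + S := by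
      rw [← Finset.sum_add_sum_compl T, hS]
      congr 1
      · rw [Finset.sum_congr rfl (fun r hr => by rw [hTc r hr]), Finset.sum_const, nsmul_eq_mul,
          hTcard]; ring
      · exact Finset.sum_congr rfl fun r _ => by ring
    have hmain : e = q * a ^ 2 + S + 2 * ε * a := by
      rw [← hc2 i0, hsum, hc3]
    set δ0 : ℤ := q * a + ε with hδ0
    have hδ0sq : δ0 ^ 2 + q * S = 1 + e * q := by
      rw [hδ0, hmain]
      have : ε ^ 2 = 1 := by rw [sq]; exact hε2
      nlinarith [this]
    have hq2 : 2 ≤ q := by
      have : 1 < Fintype.card I := Fintype.one_lt_card_iff.mpr ⟨i0, j0, hij⟩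
      rw [hq]; exact_mod_cast this
    have hδ0ne : δ0 ≠ 0 := by
      intro h
      rw [hδ0] at h
      have h2 : q ∣ ε := ⟨-a, by linarith⟩
      have h3 : q ∣ 1 := by rw [← hε2]; exact Dvd.dvd.mul_right h2 ε
      have := Int.le_of_dvd one_pos h3
      omega
    let K := Option {r : R // r ∉ T}
    let cell : R → K := fun r => if h : r ∈ T then none else some ⟨r, h⟩
    let δ : K → ℤ := fun k => match k with
      | none => δ0
      | some r => c r.1
    have hcellT : ∀ r, r ∈ T → cell r = none := fun r hr => dif_pos hr
    have hcellN : ∀ r (hr : r ∉ T), cell r = some ⟨r, hr⟩ := fun r hr => dif_neg hr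
    have hfnone : univ.filter (fun r => cell r = none) = T := by
      ext r
      rw [Finset.mem_filter]
      constructor
      · rintro ⟨-, h⟩
        by_contra hc
        rw [hcellN r hc] at h
        cases h
      · intro h
        exact ⟨Finset.mem_univ _, hcellT r h⟩
    have hfsome : ∀ s : {r : R // r ∉ T}, univ.filter (fun r => cell r = some s) = {s.1} := by
      intro s
      ext r
      rw [Finset.mem_filter, Finset.mem_singleton]
      constructor
      · rintro ⟨-, h⟩
        by_cases hr : r ∈ T
        · rw [hcellT r hr] at h; cases h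
        · rw [hcellN r hr] at h
          have := Option.some.inj h
          rw [← this]
      · rintro rfl
        exact ⟨Finset.mem_univ _, hcellN _ s.2⟩
    refine ⟨K, inferInstance, inferInstance, cell, δ, ?_, ?_, ?_, ?_, ?_⟩
    · intro k
      match k with
      | none => exact ⟨X i0, hcellT _ ((hTmem _).mpr ⟨i0, rfl⟩)⟩
      | some r => exact ⟨r.1, hcellN _ r.2⟩
    · intro i k
      match k with
      | none =>
        rw [hfnone]
        have h2 : ∀ r ∈ T, w i r = a + ε * dl (X i) r := by
          intro r hr
          rw [hwX, hTc r hr]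
        rw [Finset.sum_congr rfl h2, Finset.sum_add_distrib, Finset.sum_const, nsmul_eq_mul,
          hTcard, ← Finset.mul_sum]
        have h3 : ∑ r ∈ T, dl (X i) r = 1 := by
          unfold dl
          rw [Finset.sum_ite_eq' T (X i), if_pos ((hTmem _).mpr ⟨i, rfl⟩)]
        rw [h3]
        change q * a + ε * 1 = δ0
        rw [hδ0]; ring
      | some s =>
        rw [hfsome s, Finset.sum_singleton, hwX]
        have h3 : dl (X i) s.1 = 0 := by
          unfold dl
          rw [if_neg]
          intro h
          exact s.2 ((hTmem _).mpr ⟨i, h.symm⟩)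
        rw [h3]
        change c s.1 + ε * 0 = c s.1
        ring
    · intro k
      match k with
      | none => exact hδ0ne
      | some s =>
        obtain ⟨i, hi⟩ := hne s.1
        rw [hwX] at hi
        have h3 : dl (X i) s.1 = 0 := by
          unfold dl
          rw [if_neg]
          intro h
          exact s.2 ((hTmem _).mpr ⟨i, h.symm⟩)
        rw [h3, mul_zero, add_zero] at hi
        exact hi
    · intro b hb r s hrs
      by_cases hr : r ∈ T
      · rw [hcellT r hr] at hrs
        by_cases hs : s ∈ T
        · obtain ⟨i, rfl⟩ := (hTmem r).mp hr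
          obtain ⟨j, rfl⟩ := (hTmem s).mp hs
          have h2 := hb i
          have h3 := hb j
          have h4 : ∀ i, ∑ r, b r * (w i r : ℂ) = ∑ r, b r * (c r : ℂ) + (ε : ℂ) * b (X i) := by
            intro i
            have h5 : ∀ r, b r * (w i r : ℂ) = b r * (c r : ℂ) +
                (ε : ℂ) * (if r = X i then b r else 0) := by
              intro r
              rw [hwX]
              unfold dl
              push_cast
              split_ifs <;> ring
            rw [Finset.sum_congr rfl (fun r _ => h5 r), Finset.sum_add_distrib, ← Finset.mul_sum,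
              Finset.sum_ite_eq' univ (X i), if_pos (Finset.mem_univ _)]
          rw [h4] at h2 h3
          have h6 : (ε : ℂ) * (b (X i) - b (X j)) = 0 := by linear_combination h2 - h3
          rcases mul_eq_zero.mp h6 with h | h
          · exfalso
            have : (ε : ℤ) = 0 := by exact_mod_cast h
            rw [this] at hε2; norm_num at hε2
          · exact sub_eq_zero.mp h
        · rw [hcellN s hs] at hrs; cases hrs
      · rw [hcellN r hr] at hrs
        by_cases hs : s ∈ T
        · rw [hcellT s hs] at hrs; cases hrs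
        · rw [hcellN s hs] at hrs
          have := Option.some.inj hrs
          have h2 : r = s := congrArg Subtype.val this
          rw [h2]
    · have hKcard : (Fintype.card K : ℤ) = ((Tᶜ).card : ℤ) + 1 := by
        rw [Fintype.card_option, Fintype.card_subtype_compl, Finset.card_compl]
        simp [Fintype.card_subtype]
      have hδs : ∑ l : {r : R // r ∉ T}, c l.1 ^ 2 = S := by
        rw [hS]
        rw [← Finset.sum_subtype Tᶜ (fun r => Finset.mem_compl) (fun r => c r ^ 2)]
      rw [Fintype.sum_option, Fintype.sum_option, if_pos rfl, zero_add]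
      have h1 : ∀ l : {r : R // r ∉ T}, (if (none : K) = some l then (0 : ℤ) else
          ((univ.filter (fun r => cell r = none)).card : ℤ) * δ (some l) ^ 2) =
          q * c l.1 ^ 2 := by
        intro l
        rw [if_neg (by simp), hfnone, hTcard]
      rw [Finset.sum_congr rfl (fun l _ => h1 l), ← Finset.mul_sum, hδs]
      have h2 : ∀ k : {r : R // r ∉ T}, ∑ l : K, (if (some k : K) = l then (0 : ℤ) else
          ((univ.filter (fun r => cell r = some k)).card : ℤ) * δ l ^ 2) =
          δ0 ^ 2 + S - c k.1 ^ 2 := by
        intro k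
        rw [Fintype.sum_option, if_neg (by simp), hfsome k, Finset.card_singleton, ← hδs,
          ← Finset.add_sum_erase univ _ (Finset.mem_univ k), if_pos rfl, zero_add,
          ← Finset.add_sum_erase univ (fun l : {r : R // r ∉ T} => c l.1 ^ 2) (Finset.mem_univ k)]
        have h5 : ∑ x ∈ univ.erase k, (if (some k : K) = some x then (0 : ℤ) else
            ((1 : ℕ) : ℤ) * δ (some x) ^ 2) =
            ∑ x ∈ univ.erase k, c x.1 ^ 2 := by
          apply Finset.sum_congr rfl
          intro x hx
          rw [if_neg (fun h => (Finset.ne_of_mem_erase hx) (Option.some.inj h).symm)]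
          change ((1 : ℕ) : ℤ) * c x.1 ^ 2 = c x.1 ^ 2
          push_cast; ring
        rw [h5]
        change ((1 : ℕ) : ℤ) * δ0 ^ 2 + _ = _
        push_cast; ring
      rw [Finset.sum_congr rfl (fun k _ => h2 k), Finset.sum_sub_distrib, Finset.sum_const,
        Finset.card_univ, nsmul_eq_mul, hδs, ← hδ0sq]
      set n : ℕ := Fintype.card {r : R // r ∉ T} with hn
      have hKn : (Fintype.card K : ℤ) = (n : ℤ) + 1 := by
        rw [Fintype.card_option]; push_cast; rfl
      rw [hKn]
      rcases Nat.eq_zero_or_pos n with h0 | h0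
      · have hS1 : S = 0 := by
          rw [← hδs]
          have : IsEmpty {r : R // r ∉ T} := Fintype.card_eq_zero_iff.mp h0
          exact Fintype.sum_empty _
        rw [h0, hS1]
        push_cast
        nlinarith
      · have h7 : 0 ≤ ((n : ℤ) - 1) * (q - 1) * S := by
          apply mul_nonneg _ hS0
          apply mul_nonneg
          · have : (1 : ℤ) ≤ n := by exact_mod_cast h0
            linarith
          · linarith
        nlinarith

end Cells

end Cfsg.Agent.H26
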