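import Mathlib
import Cfsg.Agent.H26.Star3
import Cfsg.Agent.H26.Lift
import Cfsg.Agent.H26.Cor1

set_option autoImplicit false

/-!
# Knörr–Robinson, II: characters of idempotents
-/

namespace Cfsg.Agent.H26

open MonoidAlgebra MulAction Cfsg Cfsg.Agent.H11 Cfsg.Agent.H3 Finset
open scoped ComplexConjugate

universe u

section Ub

variable {M : Ideal AlgInt} [hM : M.IsPrime]
variable {G : Type u} [Group G] [Fintype G]

/-- the set of characters of an idempotent -/
def ub (H : Subgroup G) (a : MonoidAlgebra (KF M) G) : Set (IrrCharacter H) :=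
  {χ | ∃ f ∈ bf H a, χ ∈ bs H f}

theorem exists_blk_of_char (H : Subgroup G) (χ : IrrCharacter H) :
    ∃ f : MonoidAlgebra (KF M) G, IsBlk H f ∧ χ ∈ bs H f := by
  have := Fintype.ofFinite H
  have hB : IsPBlock M (blockOf M (χ : H → ℂ)) := ⟨χ, rfl⟩
  refine ⟨EH M H (blockOf M (χ : H → ℂ)), isBlk_EH hB, ?_⟩
  rw [bs_EH hB]
  exact mem_blockOf_self χ

theorem lam_blk {H : Subgroup G} {f : MonoidAlgebra (KF M) G} (hf : IsBlk H f)
    {χ : IrrCharacter H} (hχ : χ ∈ bs H f) :
    lam (MulEquiv.refl H) χ ⟨f, hf.mem⟩ = 1 := by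
  classical
  have hb := isPBlock_bs hf
  have h1 := lam_Eb' (M := M) (MulEquiv.refl H) χ (U := bs H f) (fun x => lr_blockCoeff hb.1 x)
  rw [if_pos hχ] at h1
  rw [← h1]
  congr 1
  exact Subtype.ext hb.2.symm

theorem ub_eq_chars {H : Subgroup G} {a : MonoidAlgebra (KF M) G} (ha : a ∈ Zc (KF M) H)
    (_haa : a * a = a) : ub H a = chars (MulEquiv.refl H) ⟨a, ha⟩ := by
  ext χ
  constructor
  · rintro ⟨f, hf, hχ⟩
    obtain ⟨hf1, hf2⟩ := mem_bf.mp hf
    have h1 := lam_blk hf1 hχ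
    have h2 : (⟨a, ha⟩ : Zc (KF M) H) * ⟨f, hf1.mem⟩ = ⟨f, hf1.mem⟩ := Subtype.ext hf2
    have h3 := congrArg (lam (MulEquiv.refl H) χ) h2
    rw [map_mul, h1, mul_one] at h3
    exact h3
  · intro hχ
    change lam (MulEquiv.refl H) χ ⟨a, ha⟩ = 1 at hχ
    obtain ⟨f, hf, hχf⟩ := exists_blk_of_char (M := M) H χ
    refine ⟨f, mem_bf.mpr ⟨hf, ?_⟩, hχf⟩
    rcases hf.mul_eq_or ha _haa with h | h
    · exfalso
      have h2 : (⟨a, ha⟩ : Zc (KF M) H) * ⟨f, hf.mem⟩ = 0 := Subtype.ext h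
      have h3 := congrArg (lam (MulEquiv.refl H) χ) h2
      rw [map_mul, lam_blk hf hχf, hχ, mul_one, map_zero] at h3
      exact one_ne_zero h3
    · exact h

theorem bs_disjoint {H : Subgroup G} {f f' : MonoidAlgebra (KF M) G} (hf : IsBlk H f)
    (hf' : IsBlk H f') {χ : IrrCharacter H} (h : χ ∈ bs H f) (h' : χ ∈ bs H f') : f = f' := by
  have := Fintype.ofFinite H
  have hb := isPBlock_bs hf
  have hb' := isPBlock_bs hf'
  rcases isPBlock_eq_or_disjoint hb.1 hb'.1 with h1 | h1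
  · rw [← hb.2, ← hb'.2, h1]
  · exact absurd (Set.mem_inter h h') (by
      rw [Set.disjoint_iff_inter_eq_empty.mp h1]; exact Set.notMem_empty _)

open Classical in
theorem sum_ub {H : Subgroup G} {hfi : Fintype (IrrCharacter H)} {a : MonoidAlgebra (KF M) G}
    (F : IrrCharacter H → ℂ) :
    ∑ χ : IrrCharacter H with χ ∈ ub H a, F χ =
      ∑ f ∈ bf H a, ∑ χ : IrrCharacter H with χ ∈ bs H f, F χ := by
  rw [← Finset.sum_biUnion]
  · apply Finset.sum_congr _ (fun _ _ => rfl)
    ext χ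
    simp only [Finset.mem_filter, Finset.mem_univ, true_and, Finset.mem_biUnion]
    rfl
  · intro f hf f' hf' hne
    rw [Function.onFun, Finset.disjoint_left]
    intro χ h1 h2
    exact hne (bs_disjoint (mem_bf.mp hf).1 (mem_bf.mp hf').1 (Finset.mem_filter.mp h1).2
      (Finset.mem_filter.mp h2).2)

theorem kr_ub {H : Subgroup G} [Fintype H] {a : MonoidAlgebra (KF M) G} (y z : H) :
    kr (ub H a) y z = ∑ f ∈ bf H a, kr (bs H f) y z := by
  classical
  have hfi := Fintype.ofFinite (IrrCharacter H)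
  rw [kr_eq, sum_ub]
  apply Finset.sum_congr rfl
  intro f _
  rw [kr_eq]

theorem blockCoeff_ub {H : Subgroup G} {a : MonoidAlgebra (KF M) G} (x : H) :
    blockCoeff (ub H a) x = ∑ f ∈ bf H a, blockCoeff (bs H f) x := by
  classical
  have hfi := Fintype.ofFinite (IrrCharacter H)
  unfold blockCoeff
  rw [finsum_mem_irr, sum_ub, Finset.mul_sum]
  apply Finset.sum_congr rfl
  intro f _
  rw [finsum_mem_irr]

/-- coefficients of the lift of an idempotent -/
noncomputable def epsl (H : Subgroup G) (a : MonoidAlgebra (KF M) G) (g : G) : ℂ :=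
  ∑ f ∈ bf H a, ec H f g

theorem epsl_of_notMem {H : Subgroup G} {a : MonoidAlgebra (KF M) G} {g : G} (hg : g ∉ H) :
    epsl H a g = 0 := Finset.sum_eq_zero fun _ _ => ec_of_notMem hg

theorem epsl_mem {H : Subgroup G} {a : MonoidAlgebra (KF M) G} {g : G} (hg : g ∈ H) :
    epsl H a g = blockCoeff (ub H a) ⟨g, hg⟩ := by
  rw [blockCoeff_ub]
  exact Finset.sum_congr rfl fun f _ => ec_mem hg

theorem epsl_eq {C L : Subgroup G} (hCL : C ≤ L) (hL : L ≤ nz C) {a : MonoidAlgebra (KF M) G}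
    (haC : a ∈ Zc (KF M) C) (haL : a ∈ Zc (KF M) L) (haa : a * a = a) (g : G) :
    epsl L a g = epsl C a g := by
  by_cases hg : g ∈ L
  · have hU : ∀ x, MemLocalRing M (blockCoeff (ub C a) x) := by
      rw [ub_eq_chars haC haa]; exact lr_chars _ (Subtype.ext haa)
    have hB : ∀ x, MemLocalRing M (blockCoeff (ub L a) x) := by
      rw [ub_eq_chars haL haa]; exact lr_chars _ (Subtype.ext haa)
    have hEU : EH M C (ub C a) = a := by
      rw [ub_eq_chars haC haa]; exact Eb_chars _ (Subtype.ext haa)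
    have hEB : EH M L (ub L a) = a := by
      rw [ub_eq_chars haL haa]; exact Eb_chars _ (Subtype.ext haa)
    have h1 := blockCoeff_eq_of_Eb_eq (M := M) (MulEquiv.refl L) (K := C) (U := ub C a)
      (B := ub L a) hB hCL (fun n hn x => sbc_conj_of_cj hU (hL hn) (by
        rw [hEU]; exact haL.2 n hn) x) (fun x => lr_sbc_of_lr hU x)
      (by
        change EH M L (ub L a) = EH M C (ub C a)
        rw [hEU, hEB]) ⟨g, hg⟩
    rw [epsl_mem hg, h1]
    change subgroupBlockCoeff C (ub C a) g = _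
    unfold subgroupBlockCoeff
    split_ifs with hgC
    · rw [epsl_mem hgC]
    · rw [epsl_of_notMem hgC]
  · rw [epsl_of_notMem hg, epsl_of_notMem (fun h => hg (hCL h))]

end Ub

section Un

variable {M : Ideal AlgInt} [hM : M.IsPrime] {p : ℕ} [hp : Fact p.Prime] [hch : CharP (KF M) p]
variable {G : Type u} [Group G] [Fintype G]

omit hp hch [Fintype G] in
theorem br_zpowers_mem_Zc {N : Subgroup G} {u : G} {a : MonoidAlgebra (KF M) G}
    (ha : a ∈ Zc (KF M) N) :
    br (Subgroup.zpowers u) a ∈ Zc (KF M) (cz (Subgroup.zpowers u) ⊓ N) := by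
  refine ⟨?_, ?_⟩
  · intro g hg
    by_cases h1 : g ∈ cz (Subgroup.zpowers u)
    · rw [coeff_br_of_mem _ h1]
      exact ha.1 g (fun h => hg ⟨h1, h⟩)
    · exact coeff_br_of_notMem _ h1
  · rw [br_def]
    apply IsFx.rst
    · exact ha.2.mono inf_le_right
    · intro g hg x
      have hg1 := hg.1
      constructor
      · intro h
        have h2 := (cz (Subgroup.zpowers u)).mul_mem
          ((cz (Subgroup.zpowers u)).mul_mem ((cz (Subgroup.zpowers u)).inv_mem hg1) h) hg1
        have h3 : g⁻¹ * (g * x * g⁻¹) * g = x := by group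
        rwa [h3] at h2
      · intro h
        exact (cz (Subgroup.zpowers u)).mul_mem
          ((cz (Subgroup.zpowers u)).mul_mem hg1 h) ((cz (Subgroup.zpowers u)).inv_mem hg1)

theorem bf_union {N : Subgroup G} {u : G} (huN : u ∈ N) (hu : ∃ k : ℕ, orderOf u = p ^ k)
    {a : MonoidAlgebra (KF M) G} (ha : a ∈ Zc (KF M) N) (haa : a * a = a)
    (F : MonoidAlgebra (KF M) G → ℂ) :
    ∑ f ∈ bf N a, ∑ f' ∈ bf (cz (Subgroup.zpowers u) ⊓ N) (br (Subgroup.zpowers u) f), F f' =
      ∑ f' ∈ bf (cz (Subgroup.zpowers u) ⊓ N) (br (Subgroup.zpowers u) a), F f' := by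
  classical
  have hup := isPGroup_zpowers hu
  have hfx : ∀ {c : MonoidAlgebra (KF M) G}, c ∈ Zc (KF M) N → IsFx (Subgroup.zpowers u) c :=
    fun hc => hc.2.mono (by rwa [Subgroup.zpowers_le])
  rw [← Finset.sum_biUnion]
  · apply Finset.sum_congr _ (fun _ _ => rfl)
    ext f'
    rw [Finset.mem_biUnion]
    constructor
    · rintro ⟨f, hf, hf'⟩
      obtain ⟨h1, h2⟩ := mem_bf.mp hf
      obtain ⟨h3, h4⟩ := mem_bf.mp hf'
      rw [mem_bf]
      refine ⟨h3, ?_⟩
      calc br (Subgroup.zpowers u) a * f' =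
          br (Subgroup.zpowers u) a * (br (Subgroup.zpowers u) f * f') := by rw [h4]
        _ = br (Subgroup.zpowers u) (a * f) * f' := by
            rw [br_mul hup (hfx ha) (hfx h1.mem), mul_assoc]
        _ = f' := by rw [h2, h4]
    · intro hf'
      obtain ⟨h3, h4⟩ := mem_bf.mp hf'
      have hfin : Finite (blks (KF M) N) := (blks_finite (k := KF M) N).to_subtype
      have := Fintype.ofFinite (blks (KF M) N)
      have h5 : f' = ∑ f : blks (KF M) N,
          br (Subgroup.zpowers u) (f : MonoidAlgebra (KF M) G) * f' := by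
        rw [← Finset.sum_mul, ← map_sum, sum_blks, br_one, one_mul]
      have h6 : ∃ f : blks (KF M) N,
          br (Subgroup.zpowers u) (f : MonoidAlgebra (KF M) G) * f' ≠ 0 := by
        by_contra hcon
        push Not at hcon
        rw [Finset.sum_eq_zero (fun f _ => hcon f)] at h5
        exact h3.ne_zero h5
      obtain ⟨⟨f, hf⟩, h7⟩ := h6
      have hf1 : IsBlk N f := hf
      have h8 : br (Subgroup.zpowers u) f * f' = f' := by
        rcases h3.mul_eq_or (br_zpowers_mem_Zc hf1.mem)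
          (by rw [← br_mul hup (hfx hf1.mem) (hfx hf1.mem), hf1.idem]) with h9 | h9
        · exact absurd h9 h7
        · exact h9
      refine ⟨f, mem_bf.mpr ⟨hf1, ?_⟩, mem_bf.mpr ⟨h3, h8⟩⟩
      rcases hf1.mul_eq_or ha haa with h9 | h9
      · exfalso
        have h10 : br (Subgroup.zpowers u) (a * f) * f' = f' := by
          rw [br_mul hup (hfx ha) (hfx hf1.mem), mul_assoc, h8, h4]
        rw [h9, map_zero, zero_mul] at h10
        exact h3.ne_zero h10.symm
      · exact h9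
  · intro f1 hf1 f2 hf2 hne
    rw [Function.onFun, Finset.disjoint_left]
    intro f' h1 h2
    obtain ⟨h3, h4⟩ := mem_bf.mp h1
    obtain ⟨-, h5⟩ := mem_bf.mp h2
    have hb1 := (mem_bf.mp hf1).1
    have hb2 := (mem_bf.mp hf2).1
    have h6 : br (Subgroup.zpowers u) (f1 * f2) * f' = f' := by
      rw [br_mul hup (hfx hb1.mem) (hfx hb2.mem), mul_assoc, h5, h4]
    rw [hb1.mul_of_ne hb2 hne, map_zero, zero_mul] at h6
    exact h3.ne_zero h6.symm

open Classical in
/-- The section theorem for idempotents. -/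
theorem epsl_sec (hMp : IsPModular p M) {N : Subgroup G} {u y : G} (huN : u ∈ N) (hyN : y ∈ N)
    (hu : ∃ k : ℕ, orderOf u = p ^ k) (hy : y ∈ cz (Subgroup.zpowers u)) (hyr : ¬ p ∣ orderOf y)
    {a : MonoidAlgebra (KF M) G} (ha : a ∈ Zc (KF M) N) (haa : a * a = a) :
    ∑ k : G with k ∈ N, epsl N a ((u * y)⁻¹ * k * (u * y) * k⁻¹) =
      ∑ c : G with c ∈ cz (Subgroup.zpowers u) ⊓ N,
        epsl (cz (Subgroup.zpowers u) ⊓ N) (br (Subgroup.zpowers u) a) (y⁻¹ * c * y * c⁻¹) := by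
  have hfN := Fintype.ofFinite N
  unfold epsl
  rw [Finset.sum_comm]
  have h1 : ∀ f ∈ bf N a, ∑ k : G with k ∈ N, ec N f ((u * y)⁻¹ * k * (u * y) * k⁻¹) =
      ∑ f' ∈ bf (cz (Subgroup.zpowers u) ⊓ N) (br (Subgroup.zpowers u) f),
        ∑ c : G with c ∈ cz (Subgroup.zpowers u) ⊓ N,
          ec (cz (Subgroup.zpowers u) ⊓ N) f' (y⁻¹ * c * y * c⁻¹) := by
    intro f hf
    exact sec_sub hMp (mem_bf.mp hf).1 huN hu hyN hyN hy hy hyr hyr
  rw [Finset.sum_congr rfl h1, bf_union huN hu ha haa, Finset.sum_comm]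

end Un

end Cfsg.Agent.H26
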