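import Mathlib
import Cfsg.Agent.H26.KR2
import Cfsg.Agent.H26.Sec
import Cfsg.Agent.H26.Star9
import Cfsg.Agent.H26.Nil3

set_option autoImplicit false

/-!
# Elements `g` with `z ∈ ⟨g⟩`: blocks of `C_G(z)`
-/

namespace Cfsg.Agent.H26

open MonoidAlgebra MulAction Cfsg Cfsg.Agent.H11 Cfsg.Agent.H3 Finset
open scoped ComplexConjugate

universe u

section R

variable {M : Ideal AlgInt} [hM : M.IsPrime] {p : ℕ} [hp : Fact p.Prime] [hch : CharP (KF M) p]
variable {G : Type u} [Group G] [Fintype G]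

theorem cz_anti_zpowers {z u : G} (hzu : z ∈ Subgroup.zpowers u) :
    cz (Subgroup.zpowers u) ≤ cz (Subgroup.zpowers z) :=
  cz_anti (by rwa [Subgroup.zpowers_le])

theorem brE_mem {B : Set (IrrCharacter G)} (hB : IsPBlock M B) (Q : Subgroup G) :
    br Q (EG M B) ∈ Zc (KF M) (cz Q) := by
  have h1 : IsBlk (cz (⊥ : Subgroup G)) (EG M B) := by
    rw [cz_bot]; exact isBlk_EG hB
  exact h1.br_mem bot_le

theorem brE_idem {B : Set (IrrCharacter G)} (hB : IsPBlock M B) {Q : Subgroup G}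
    (hQ : IsPGroup p Q) : br Q (EG M B) * br Q (EG M B) = br Q (EG M B) :=
  isFx_br_idem hQ (EG_isFx B Q) (isBlk_EG hB).idem

theorem kr_top_ub (hMp : IsPModular p M) {B : Set (IrrCharacter G)} (hB : IsPBlock M B)
    {z u y w : G} (hz : ∃ k : ℕ, orderOf z = p ^ k)
    (hzu : z ∈ Subgroup.zpowers u) (hu : ∃ k : ℕ, orderOf u = p ^ k)
    (hy : y ∈ cz (Subgroup.zpowers u)) (hw : w ∈ cz (Subgroup.zpowers u))
    (hyr : ¬ p ∣ orderOf y) (hwr : ¬ p ∣ orderOf w)
    (h1 : u * y ∈ cz (Subgroup.zpowers z)) (h2 : u * w ∈ cz (Subgroup.zpowers z)) :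
    kr B (u * y) (u * w) =
      kr (ub (cz (Subgroup.zpowers z)) (br (Subgroup.zpowers z) (EG M B))) ⟨u * y, h1⟩
        ⟨u * w, h2⟩ := by
  classical
  have hfC : Fintype (cz (Subgroup.zpowers z)) := Fintype.ofFinite _
  have hCu := cz_anti_zpowers hzu
  have hE := isBlk_EG (M := M) hB
  have haC := brE_mem (M := M) hB (Subgroup.zpowers z)
  have haa := brE_idem (M := M) (p := p) hB (isPGroup_zpowers hz)
  have huC : u ∈ cz (Subgroup.zpowers z) := hCu (mem_cz_zpowers.mpr rfl)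
  rw [kr_ub]
  have h3 : ∀ f ∈ bf (cz (Subgroup.zpowers z)) (br (Subgroup.zpowers z) (EG M B)),
      kr (bs (cz (Subgroup.zpowers z)) f) ⟨u * y, h1⟩ ⟨u * w, h2⟩ =
      ∑ f' ∈ bf (cz (Subgroup.zpowers u) ⊓ cz (Subgroup.zpowers z)) (br (Subgroup.zpowers u) f),
        ∑ c : G with c ∈ cz (Subgroup.zpowers u) ⊓ cz (Subgroup.zpowers z),
          ec (cz (Subgroup.zpowers u) ⊓ cz (Subgroup.zpowers z)) f' (y⁻¹ * c * w * c⁻¹) := by
    intro f hf
    rw [← sum_ec_conj h1 h2]
    exact sec_sub hMp (mem_bf.mp hf).1 huC hu (hCu hy) (hCu hw) hy hw hyr hwr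
  rw [Finset.sum_congr rfl h3, bf_union huC hu haC haa
    (fun f' => ∑ c : G with c ∈ cz (Subgroup.zpowers u) ⊓ cz (Subgroup.zpowers z),
          ec (cz (Subgroup.zpowers u) ⊓ cz (Subgroup.zpowers z)) f' (y⁻¹ * c * w * c⁻¹)),
    br_br (by rwa [Subgroup.zpowers_le]), inf_eq_left.mpr hCu, ← sec_top hMp hE hu hy hw hyr hwr,
    ← sum_blockCoeff_conj]
  apply Finset.sum_congr rfl
  intro c _
  rw [ec_top hB]

/-- the `p`-part of an element whose powers contain the `p`-element `z` -/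
theorem mem_zpowers_pp {z g u : G} (hz : ∃ k : ℕ, orderOf z = p ^ k)
    (hg : IsPPart p g u) (hzg : z ∈ Subgroup.zpowers g) : z ∈ Subgroup.zpowers u := by
  obtain ⟨s, hus, hc, hu, hs⟩ := hg
  obtain ⟨n, hn⟩ := Subgroup.mem_zpowers_iff.mp hzg
  rw [← hus, hc.mul_zpow] at hn
  have h1 : s ^ n = 1 := by
    apply eq_one_of_pp (p := p)
    · have h2 : s ^ n = (u ^ n)⁻¹ * z := by rw [← hn]; group
      have hcz : Commute (u ^ n)⁻¹ z := by
        rw [← hn]
        apply Commute.mul_right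
        · exact (Commute.refl (u ^ n)).inv_left
        · exact (hc.zpow_zpow n n).inv_left
      have hpg : IsPGroup p (Subgroup.zpowers u) := isPGroup_zpowers hu
      obtain ⟨a, ha⟩ := hz
      obtain ⟨b, hb⟩ := hu
      have h3 : (s ^ n) ^ (p ^ (a + b)) = 1 := by
        rw [h2, hcz.mul_pow, pow_add]
        have e1 : ((u ^ n)⁻¹) ^ (p ^ a * p ^ b) = 1 := by
          rw [mul_comm, pow_mul, inv_pow, ← zpow_natCast (u ^ n), ← zpow_mul, mul_comm n,
            zpow_mul, zpow_natCast, ← hb, pow_orderOf_eq_one, one_zpow, inv_one, one_pow]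
        have e2 : z ^ (p ^ a * p ^ b) = 1 := by
          rw [pow_mul, ← ha, pow_orderOf_eq_one, one_pow]
        rw [e1, e2, one_mul]
      obtain ⟨k, -, hk⟩ := (Nat.dvd_prime_pow hp.out).mp (orderOf_dvd_of_pow_eq_one h3)
      exact ⟨k, hk⟩
    · intro h
      have h2 : orderOf (s ^ n) ∣ orderOf s := by
        apply orderOf_dvd_of_pow_eq_one
        rw [← zpow_natCast, ← zpow_mul, mul_comm, zpow_mul, zpow_natCast, pow_orderOf_eq_one,
          one_zpow]
      exact hs (h.trans h2)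
  rw [h1, mul_one] at hn
  exact Subgroup.mem_zpowers_iff.mpr ⟨n, hn⟩

open Classical in
/-- **Projection onto the block on the sections of the elements above `z`.** -/
theorem blockPart_ub (hMp : IsPModular p M) {B : Set (IrrCharacter G)} (hB : IsPBlock M B)
    {z g : G} (hz : ∃ k : ℕ, orderOf z = p ^ k) (hzg : z ∈ Subgroup.zpowers g)
    {θ : G → ℂ} (hθ : IsClassFunction G θ) [Fintype (cz (Subgroup.zpowers z))]
    (hg : g ∈ cz (Subgroup.zpowers z)) :
    blockPart B θ g = blockPart (ub (cz (Subgroup.zpowers z)) (br (Subgroup.zpowers z) (EG M B)))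
      (fun c : cz (Subgroup.zpowers z) => θ c) ⟨g, hg⟩ := by
  set C := cz (Subgroup.zpowers z) with hC
  set U := ub C (br (Subgroup.zpowers z) (EG M B)) with hU
  obtain ⟨y, huy, hcy, hu, hyr⟩ := pp_spec p g
  have hppg := pp_spec p g
  set u := pp p g with hupp
  have hzu : z ∈ Subgroup.zpowers u := mem_zpowers_pp hz hppg hzg
  have hCu : cz (Subgroup.zpowers u) ≤ C := cz_anti_zpowers hzu
  have huC : u ∈ C := hCu (mem_cz_zpowers.mpr rfl)
  have hyu : y ∈ cz (Subgroup.zpowers u) := mem_cz_zpowers.mpr hcy.symm.eq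
  rw [blockPart_eq_kr, blockPart_eq_kr]
  -- the sum in `G`
  have hfIG : Fintype (IrrCharacter G) := Fintype.ofFinite _
  have hfG : Fintype (Subgroup.centralizer ({u} : Set G)) := Fintype.ofFinite _
  have hF : IsClassFunction G (fun c => θ c * kr B g c) := by
    intro c h
    have e1 : kr B g (h * c * h⁻¹) = kr B g c := by
      rw [kr_eq, kr_eq]
      apply Finset.sum_congr rfl
      intro χ _
      rw [irr_classFun χ.2]
    change θ (h * c * h⁻¹) * kr B g (h * c * h⁻¹) = θ c * kr B g c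
    rw [hθ c h, e1]
  have hsG := sum_section (p := p) hF hu
  have hz0 : ∀ c ∈ (univ : Finset G), c ∉ univ.filter (fun c : G => ∃ w, IsPPart p c w ∧ IsConj u w) →
      θ c * kr B g c = 0 := by
    intro c _ hc
    obtain ⟨w, hw⟩ : ∃ w, IsPPart p c w := ⟨pp p c, pp_spec p c⟩
    have h3 : ¬ IsConj u w := fun h => hc (Finset.mem_filter.mpr ⟨Finset.mem_univ _, w, hw, h⟩)
    have h4 := block_orthogonality hMp (g := g) (h := c) hppg hw h3 hB
    have h5 : kr B g c = 0 := by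
      unfold kr
      rw [← h4]
      apply finsum_mem_congr rfl
      intro χ _
      rw [char_inv (irr_isChar χ.2)]
    rw [h5, mul_zero]
  rw [Finset.sum_subset (Finset.filter_subset _ _) hz0] at hsG
  -- the sum in `C`
  have hfI : Fintype (IrrCharacter C) := Fintype.ofFinite _
  have huC' : ∃ k : ℕ, orderOf (⟨u, huC⟩ : C) = p ^ k := by
    rw [Subgroup.orderOf_mk]; exact hu
  have hF' : IsClassFunction C (fun c : C => θ c * kr U ⟨g, hg⟩ c) := by
    intro c h
    have e1 : kr U ⟨g, hg⟩ (h * c * h⁻¹) = kr U ⟨g, hg⟩ c := by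
      rw [kr_eq, kr_eq]
      apply Finset.sum_congr rfl
      intro χ _
      rw [irr_classFun χ.2]
    change θ ((h * c * h⁻¹ : C) : G) * kr U ⟨g, hg⟩ (h * c * h⁻¹) = θ c * kr U ⟨g, hg⟩ c
    rw [e1]
    congr 1
    exact hθ (c : G) (h : G)
  have hfC : Fintype (Subgroup.centralizer ({(⟨u, huC⟩ : C)} : Set C)) := Fintype.ofFinite _
  have hsC := sum_section (p := p) hF' huC'
  have hppC : IsPPart p (⟨g, hg⟩ : C) ⟨u, huC⟩ := by
    refine ⟨⟨y, hCu hyu⟩, Subtype.ext huy, Subtype.ext hcy.eq, huC', ?_⟩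
    rwa [Subgroup.orderOf_mk]
  have hz0' : ∀ c ∈ (univ : Finset C),
      c ∉ univ.filter (fun c : C => ∃ w, IsPPart p c w ∧ IsConj (⟨u, huC⟩ : C) w) →
      θ c * kr U ⟨g, hg⟩ c = 0 := by
    intro c _ hc
    obtain ⟨w, hw⟩ : ∃ w, IsPPart p c w := ⟨pp p c, pp_spec p c⟩
    have h3 : ¬ IsConj (⟨u, huC⟩ : C) w :=
      fun h => hc (Finset.mem_filter.mpr ⟨Finset.mem_univ _, w, hw, h⟩)
    have h5 : kr U ⟨g, hg⟩ c = 0 := by
      rw [hU, kr_ub]
      apply Finset.sum_eq_zero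
      intro f hf
      have h4 := block_orthogonality hMp (g := (⟨g, hg⟩ : C)) (h := c) hppC hw h3
        (isPBlock_bs (mem_bf.mp hf).1).1
      unfold kr
      rw [← h4]
      apply finsum_mem_congr rfl
      intro χ _
      rw [char_inv (irr_isChar χ.2)]
    rw [h5, mul_zero]
  have hsub := Finset.sum_subset (Finset.filter_subset _ _) hz0'
  have hsC1 : (Nat.card (Subgroup.centralizer ({(⟨u, huC⟩ : C)} : Set C)) : ℂ) *
      ∑ c : C, θ c * kr U ⟨g, hg⟩ c = (Nat.card C : ℂ) *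
      ∑ c : Subgroup.centralizer ({(⟨u, huC⟩ : C)} : Set C) with ¬ p ∣ orderOf c,
      θ (((⟨u, huC⟩ : C) * (c : C) : C) : G) * kr U ⟨g, hg⟩ ((⟨u, huC⟩ : C) * (c : C)) := by
    rw [← hsub]
    convert hsC
  -- comparison
  let φ : Subgroup.centralizer ({u} : Set G) ≃ Subgroup.centralizer ({(⟨u, huC⟩ : C)} : Set C) :=
    { toFun := fun c => ⟨⟨c, hCu (mem_cz_zpowers.mpr (Subgroup.mem_centralizer_singleton_iff.mp c.2))⟩, by
        rw [Subgroup.mem_centralizer_singleton_iff]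
        exact Subtype.ext (Subgroup.mem_centralizer_singleton_iff.mp c.2)⟩
      invFun := fun c => ⟨((c : C) : G), by
        rw [Subgroup.mem_centralizer_singleton_iff]
        exact congrArg Subtype.val (Subgroup.mem_centralizer_singleton_iff.mp c.2)⟩
      left_inv := fun _ => rfl
      right_inv := fun _ => rfl }
  have hcard : Nat.card (Subgroup.centralizer ({u} : Set G)) =
      Nat.card (Subgroup.centralizer ({(⟨u, huC⟩ : C)} : Set C)) := Nat.card_congr φ
  have hsum : ∑ c : Subgroup.centralizer ({u} : Set G) with ¬ p ∣ orderOf c,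
      θ (u * c) * kr B g (u * c) =
      ∑ c : Subgroup.centralizer ({(⟨u, huC⟩ : C)} : Set C) with ¬ p ∣ orderOf c,
      θ (((⟨u, huC⟩ : C) * (c : C) : C) : G) * kr U ⟨g, hg⟩ ((⟨u, huC⟩ : C) * (c : C)) := by
    apply Finset.sum_bij (fun c _ => φ c)
    · intro c hc
      rw [Finset.mem_filter] at hc ⊢
      refine ⟨Finset.mem_univ _, ?_⟩
      rw [← Subgroup.orderOf_coe, ← Subgroup.orderOf_coe]
      change ¬ p ∣ orderOf (c : G)
      rw [Subgroup.orderOf_coe]
      exact hc.2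
    · intro c _ c' _ h
      exact φ.injective h
    · intro c hc
      refine ⟨φ.symm c, ?_, φ.apply_symm_apply c⟩
      rw [Finset.mem_filter] at hc ⊢
      refine ⟨Finset.mem_univ _, ?_⟩
      rw [← Subgroup.orderOf_coe]
      change ¬ p ∣ orderOf ((c : C) : G)
      rw [Subgroup.orderOf_coe, Subgroup.orderOf_coe]
      exact hc.2
    · intro c hc
      have hcr := (Finset.mem_filter.mp hc).2
      have hcu : (c : G) ∈ cz (Subgroup.zpowers u) :=
        mem_cz_zpowers.mpr (Subgroup.mem_centralizer_singleton_iff.mp c.2)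
      have h1 : u * y ∈ C := by rw [huy]; exact hg
      have h2 : u * (c : G) ∈ C := C.mul_mem huC (hCu hcu)
      have h3 := kr_top_ub hMp hB hz hzu hu hyu hcu hyr (by rwa [Subgroup.orderOf_coe]) h1 h2
      have h4 : (⟨u * y, h1⟩ : C) = ⟨g, hg⟩ := Subtype.ext huy
      have h5 : (⟨u * (c : G), h2⟩ : C) = (⟨u, huC⟩ : C) * ((φ c : _) : C) := Subtype.ext rfl
      have h6 : kr B g (u * c) = kr U ⟨g, hg⟩ ((⟨u, huC⟩ : C) * ((φ c : _) : C)) := by
        have e1 : kr B g (u * c) = kr B (u * y) (u * c) := by rw [huy]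
        rw [e1, h3]
        exact congrArg₂ (kr U) h4 h5
      rw [h6]
      rfl
  have hG0 : (Nat.card G : ℂ) ≠ 0 := by exact_mod_cast Nat.card_pos.ne'
  have hC0 : (Nat.card C : ℂ) ≠ 0 := by exact_mod_cast Nat.card_pos.ne'
  have hCG0 : (Nat.card (Subgroup.centralizer ({u} : Set G)) : ℂ) ≠ 0 := by
    exact_mod_cast Nat.card_pos.ne'
  rw [hsum] at hsG
  rw [← hcard] at hsC1
  set X := ∑ c : Subgroup.centralizer ({(⟨u, huC⟩ : C)} : Set C) with ¬ p ∣ orderOf c,
      θ (((⟨u, huC⟩ : C) * (c : C) : C) : G) * kr U ⟨g, hg⟩ ((⟨u, huC⟩ : C) * (c : C)) with hX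
  have e1 : (Nat.card G : ℂ)⁻¹ * ∑ c, θ c * kr B g c =
      (Nat.card (Subgroup.centralizer ({u} : Set G)) : ℂ)⁻¹ * X := by
    field_simp
    linear_combination hsG
  have e2 : (Nat.card C : ℂ)⁻¹ * ∑ c : C, θ c * kr U ⟨g, hg⟩ c =
      (Nat.card (Subgroup.centralizer ({u} : Set G)) : ℂ)⁻¹ * X := by
    field_simp
    linear_combination hsC1
  rw [e1, e2]

end R

end Cfsg.Agent.H26
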