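import Mathlib
import Cfsg.Agent.H26.Cy2
import Cfsg.Agent.H26.Cover6
import Cfsg.Agent.H26.InfBlk2
import Cfsg.Agent.H27.DefZero

set_option autoImplicit false

/-!
# The local block above an element of order `p`
-/

namespace Cfsg.Agent.H26

open MonoidAlgebra MulAction Cfsg Cfsg.Agent.H11 Cfsg.Agent.H3 Finset
open scoped ComplexConjugate

universe u

/-- the centralizer of an element -/
abbrev cx {G : Type u} [Group G] (z : G) : Subgroup G := cz (Subgroup.zpowers z)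

/-- restriction of functions -/
abbrev rs {G : Type u} [Group G] (H : Subgroup G) (θ : G → ℂ) : H → ℂ := fun c => θ (c : G)

section L

/-- Local data for a block `B` of `G` at the element `z` of order `p`. -/
structure CyL (M : Ideal AlgInt) [M.IsPrime] (p : ℕ) {G : Type u} [Group G] [Fintype G] (z : G)
    (B : Set (IrrCharacter G)) (b : Set (IrrCharacter (cx z))) : Prop where
  ordz : orderOf z = p
  isB : IsPBlock M B
  isb : IsPBlock M b
  inB : InB p (EG M B) (Subgroup.zpowers z) (EH M (cx z) b)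
  sing : ∀ ψ ∈ b, ∀ c : cx z, p ∣ orderOf c → (ψ : cx z → ℂ) c ≠ 0 →
    z ∈ Subgroup.zpowers (c : G)
  reg : ∀ ψ ∈ b, ∀ ψ' ∈ b, ∀ c : cx z, ¬ p ∣ orderOf c →
    (ψ : cx z → ℂ) c = (ψ' : cx z → ℂ) c
  rank : blockRank p b = 1
  cnj : ∀ f, InB p (EG M B) (Subgroup.zpowers z) f →
    ∃ n ∈ nz (Subgroup.zpowers z), cj n (EH M (cx z) b) = f
  vanish : ∀ χ ∈ B, ∀ g : G, p ∣ orderOf g → (χ : G → ℂ) g ≠ 0 →
    ∃ h : G, z ∈ Subgroup.zpowers (h * g * h⁻¹)

variable {M : Ideal AlgInt} [hM : M.IsPrime] {p : ℕ} [hp : Fact p.Prime] [hch : CharP (KF M) p]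
variable {G : Type u} [Group G] [Fintype G] {z : G} {B : Set (IrrCharacter G)}
  {b : Set (IrrCharacter (cx z))}

theorem CyL.zp (L : CyL M p z B b) : ∃ k : ℕ, orderOf z = p ^ k := ⟨1, by rw [L.ordz, pow_one]⟩

theorem mem_cx {c : G} : c ∈ cx z ↔ c * z = z * c := mem_cz_zpowers

theorem mem_cx_of_above {g : G} (h : z ∈ Subgroup.zpowers g) : g ∈ cx z := by
  rw [mem_cx]
  obtain ⟨n, hn⟩ := Subgroup.mem_zpowers_iff.mp h
  rw [← hn]
  exact (Commute.refl g).zpow_right n

theorem rs_classFun {θ : G → ℂ} (hθ : IsClassFunction G θ) (H : Subgroup G) :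
    IsClassFunction H (rs H θ) := fun c h => hθ (c : G) (h : G)

theorem CyL.sub_ub (L : CyL M p z B b) {ψ : IrrCharacter (cx z)} (hψ : ψ ∈ b) :
    ψ ∈ ub (cx z) (br (Subgroup.zpowers z) (EG M B)) :=
  ⟨EH M (cx z) b, mem_bf.mpr ⟨isBlk_EH L.isb, L.inB.2.2⟩, by rw [bs_EH L.isb]; exact hψ⟩

theorem blockPart_congr_inner {X : Type u} [Group X] [Fintype X] {B : Set (IrrCharacter X)}
    {θ η : X → ℂ} (h : ∀ χ ∈ B, classInner θ (χ : X → ℂ) = classInner η (χ : X → ℂ)) :
    blockPart B θ = blockPart B η := by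
  classical
  have := Fintype.ofFinite (IrrCharacter X)
  funext g
  rw [blockPart_eq_sum, blockPart_eq_sum]
  apply Finset.sum_congr rfl
  intro χ hχ
  rw [h χ (Finset.mem_filter.mp hχ).2]

theorem classInner_blockPart_mem {X : Type u} [Group X] [Fintype X] {B : Set (IrrCharacter X)}
    (θ : X → ℂ) {χ : IrrCharacter X} (hχ : χ ∈ B) :
    classInner (blockPart B θ) (χ : X → ℂ) = classInner θ (χ : X → ℂ) := by
  classical
  have := Fintype.ofFinite (IrrCharacter X)
  have h1 : blockPart B θ = ∑ ψ ∈ univ.filter (· ∈ B), classInner θ (ψ : X → ℂ) • (ψ : X → ℂ) := by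
    funext g
    rw [blockPart_eq_sum, Finset.sum_apply]
    rfl
  rw [h1, classInner_sum_left, Finset.sum_eq_single_of_mem χ
    (Finset.mem_filter.mpr ⟨Finset.mem_univ _, hχ⟩)]
  · rw [classInner_smul_left, classInner_irr', if_pos rfl, mul_one]
  · intro ψ _ hne
    rw [classInner_smul_left, classInner_irr', if_neg hne, mul_zero]

/-- If the `B`-part of `θ` vanishes above `z` then so does the `b`-part of the restriction. -/
theorem CyL.blockPart_zero (hMp : IsPModular p M) (L : CyL M p z B b) {θ : G → ℂ}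
    (hθ : IsClassFunction G θ)
    (h0 : ∀ g : G, z ∈ Subgroup.zpowers g → blockPart B θ g = 0)
    (c : cx z) (hc : z ∈ Subgroup.zpowers (c : G)) :
    blockPart b (rs (cx z) θ) c = 0 := by
  classical
  have hfC : Fintype (cx z) := Fintype.ofFinite _
  set φ := blockPart (ub (cx z) (br (Subgroup.zpowers z) (EG M B))) (rs (cx z) θ) with hφ
  have h1 : ∀ c : cx z, z ∈ Subgroup.zpowers (c : G) → φ c = 0 := by
    intro c hc
    have h2 := blockPart_ub hMp L.isB L.zp hc hθ c.2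
    rw [h0 _ hc] at h2
    exact h2.symm
  have h2 : blockPart b (rs (cx z) θ) = blockPart b φ := by
    apply blockPart_congr_inner
    intro ψ hψ
    rw [hφ, classInner_blockPart_mem _ (L.sub_ub hψ)]
  rw [h2]
  have hppc := pp_spec p c
  apply blockPart_section hMp (θ := φ) (blockPart_classFun _ (rs_classFun hθ _)) (x := pp p c)
    _ L.isb c (pp p c) hppc (IsConj.refl _)
  intro w v hv hconj
  apply h1
  -- `z` is a power of `w`
  obtain ⟨k, hk⟩ := isConj_iff.mp hconj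
  have h3 : z ∈ Subgroup.zpowers ((pp p c : cx z) : G) := by
    have h4 : IsPPart p (c : G) ((pp p c : cx z) : G) := by
      obtain ⟨y, hy1, hy2, hy3, hy4⟩ := hppc
      refine ⟨(y : G), ?_, ?_, ?_, ?_⟩
      · exact congrArg Subtype.val hy1
      · exact congrArg Subtype.val hy2.eq
      · obtain ⟨k, hk⟩ := hy3
        exact ⟨k, by rw [Subgroup.orderOf_coe]; exact hk⟩
      · rwa [Subgroup.orderOf_coe]
    exact mem_zpowers_pp L.zp h4 hc
  have h5 : z ∈ Subgroup.zpowers ((v : cx z) : G) := by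
    obtain ⟨n, hn⟩ := Subgroup.mem_zpowers_iff.mp h3
    refine Subgroup.mem_zpowers_iff.mpr ⟨n, ?_⟩
    have h6 : ((v : cx z) : G) = (k : G) * ((pp p c : cx z) : G) * (k : G)⁻¹ := by
      rw [← hk]; rfl
    rw [h6, conj_zpow, hn, mem_cx.mp k.2]
    group
  have h6 : ((v : cx z) : G) ∈ Subgroup.zpowers ((w : cx z) : G) := by
    have h7 : v ∈ Subgroup.zpowers w := by
      obtain ⟨s, hs⟩ := isPPart_mem_zpowers hp.out hv
      exact ⟨(s : ℤ), by rw [hs]; simp⟩
    obtain ⟨n, hn⟩ := Subgroup.mem_zpowers_iff.mp h7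
    exact Subgroup.mem_zpowers_iff.mpr ⟨n, by rw [← hn]; rfl⟩
  rw [← Subgroup.zpowers_le] at h5 h6 ⊢
  exact h5.trans h6

theorem CyL.inner_const_of_notMem (hMp : IsPModular p M) (L : CyL M p z B b) [Fintype (cx z)]
    {χ : IrrCharacter G}
    (hχ : χ ∉ B) {ψ ψ' : IrrCharacter (cx z)} (hψ : ψ ∈ b) (hψ' : ψ' ∈ b) :
    classInner (fun c : cx z => (ψ : cx z → ℂ) c - (ψ' : cx z → ℂ) c)
      (rs (cx z) (χ : G → ℂ)) = 0 := by
  classical
  have := Fintype.ofFinite (IrrCharacter (cx z))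
  have h0 : ∀ g : G, z ∈ Subgroup.zpowers g → blockPart B (χ : G → ℂ) g = 0 := by
    intro g _
    rw [blockPart_irr, if_neg hχ]
  have h1 := L.blockPart_zero hMp (irr_classFun χ.2) h0
  have h2 : classInner (fun c : cx z => (ψ : cx z → ℂ) c - (ψ' : cx z → ℂ) c)
      (rs (cx z) (χ : G → ℂ)) = classInner (fun c : cx z => (ψ : cx z → ℂ) c - (ψ' : cx z → ℂ) c)
      (blockPart b (rs (cx z) (χ : G → ℂ))) := by
    have e : ∀ η ∈ b, classInner (η : cx z → ℂ) (rs (cx z) (χ : G → ℂ)) =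
        classInner (η : cx z → ℂ) (blockPart b (rs (cx z) (χ : G → ℂ))) := by
      intro η hη
      rw [← classInner_conj_symm, ← classInner_blockPart_mem _ hη, classInner_conj_symm]
    have e2 : (fun c : cx z => (ψ : cx z → ℂ) c - (ψ' : cx z → ℂ) c) =
        (ψ : cx z → ℂ) - (ψ' : cx z → ℂ) := rfl
    rw [e2, classInner_sub_left, classInner_sub_left, e ψ hψ, e ψ' hψ']
  rw [h2]
  unfold classInner
  rw [mul_eq_zero]
  right
  apply Finset.sum_eq_zero
  intro c _
  by_cases hc : p ∣ orderOf c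
  · by_cases hz : z ∈ Subgroup.zpowers (c : G)
    · rw [h1 c hz, map_zero, mul_zero]
    · have e1 : (ψ : cx z → ℂ) c = 0 := by
        by_contra h
        exact hz (L.sing ψ hψ c hc h)
      have e2 : (ψ' : cx z → ℂ) c = 0 := by
        by_contra h
        exact hz (L.sing ψ' hψ' c hc h)
      change ((ψ : cx z → ℂ) c - (ψ' : cx z → ℂ) c) * _ = 0
      rw [e1, e2, sub_zero, zero_mul]
  · change ((ψ : cx z → ℂ) c - (ψ' : cx z → ℂ) c) * _ = 0
    rw [L.reg ψ hψ ψ' hψ' c hc, sub_self, zero_mul]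

open Classical in
theorem kr_cj {C : Subgroup G} {f : MonoidAlgebra (KF M) G} (hf : IsBlk C f) {n : G}
    (hn : n ∈ nz C) {y w : G} (hy : y ∈ C) (hw : w ∈ C) (hy' : n * y * n⁻¹ ∈ C)
    (hw' : n * w * n⁻¹ ∈ C) :
    kr (bs C (cj n f)) (⟨n * y * n⁻¹, hy'⟩ : C) ⟨n * w * n⁻¹, hw'⟩ =
      kr (bs C f) (⟨y, hy⟩ : C) ⟨w, hw⟩ := by
  rw [← sum_ec_conj hy' hw', ← sum_ec_conj hy hw]
  have hcg : cg C n = C := cg_eq_of_mem_nz hn
  have hec : ∀ x : G, ec C (cj n f) (n * x * n⁻¹) = ec C f x := by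
    intro x
    have := ec_cj hf n x
    rwa [hcg] at this
  apply Finset.sum_bij' (fun c _ => n⁻¹ * c * n) (fun c _ => n * c * n⁻¹)
  · intro c hc
    rw [Finset.mem_filter] at hc ⊢
    refine ⟨Finset.mem_univ _, ?_⟩
    rw [Subgroup.mem_normalizer_iff.mp hn]
    have : n * (n⁻¹ * c * n) * n⁻¹ = c := by group
    rw [this]; exact hc.2
  · intro c hc
    rw [Finset.mem_filter] at hc ⊢
    exact ⟨Finset.mem_univ _, (Subgroup.mem_normalizer_iff.mp hn c).mp hc.2⟩
  · intro c _; group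
  · intro c _; group
  · intro c _
    rw [← hec]
    congr 1
    group

/-- `b`-parts are constant combinations of the sum when the multiplicities agree. -/
theorem CyL.vanish_of_const (hMp : IsPModular p M) (L : CyL M p z B b) [Fintype (cx z)]
    {h : G → ℂ} (hcl : IsClassFunction G h)
    (hB0 : ∀ χ : IrrCharacter G, χ ∉ B → classInner h (χ : G → ℂ) = 0) {ψ₀ : IrrCharacter (cx z)}
    (hψ₀ : ψ₀ ∈ b)
    (hc : ∀ ψ ∈ b, classInner (rs (cx z) h) (ψ : cx z → ℂ) =
      classInner (rs (cx z) h) (ψ₀ : cx z → ℂ)) (g : G) (hg : p ∣ orderOf g) : h g = 0 := by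
  classical
  have := Fintype.ofFinite (IrrCharacter G)
  have := Fintype.ofFinite (IrrCharacter (cx z))
  have hexp : ∀ g, h g = ∑ χ : IrrCharacter G with χ ∈ B,
      classInner h (χ : G → ℂ) * (χ : G → ℂ) g := by
    intro g
    rw [classFun_expand_apply hcl g]
    symm
    apply Finset.sum_subset (Finset.filter_subset _ _)
    intro χ _ hχ
    rw [hB0 χ (fun h => hχ (Finset.mem_filter.mpr ⟨Finset.mem_univ _, h⟩)), zero_mul]
  have hbp : ∀ g, blockPart B h g = h g := by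
    intro g
    rw [blockPart_eq_sum, hexp g]
  by_contra hne
  obtain ⟨χ, hχ, hχg⟩ : ∃ χ ∈ B, (χ : G → ℂ) g ≠ 0 := by
    by_contra hcon
    push Not at hcon
    apply hne
    rw [hexp g]
    apply Finset.sum_eq_zero
    intro χ hχ
    rw [hcon χ (Finset.mem_filter.mp hχ).2, mul_zero]
  obtain ⟨k, hk⟩ := L.vanish χ hχ g hg hχg
  set g' := k * g * k⁻¹ with hg'
  have hg'C : g' ∈ cx z := mem_cx_of_above hk
  have hg'p : p ∣ orderOf g' := by rw [hg', orderOf_cj]; exact hg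
  apply hne
  have h1 : h g = h g' := (hcl g k).symm
  rw [h1, ← hbp g', blockPart_ub hMp L.isB L.zp hk hcl hg'C, blockPart_eq_kr]
  simp only [kr_ub]
  have h2 : ∀ f ∈ bf (cx z) (br (Subgroup.zpowers z) (EG M B)),
      ∑ c : cx z, rs (cx z) h c * kr (bs (cx z) f) ⟨g', hg'C⟩ c = 0 := by
    intro f hf
    have hI : InB p (EG M B) (Subgroup.zpowers z) f :=
      inB_of_mem_bf (isBlk_EG L.isB) L.zp hf
    obtain ⟨n, hn, rfl⟩ := L.cnj f hI
    have hnC : n ∈ nz (cx z) := normalizer_le_normalizer_centralizer _ hn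
    have hfb : IsBlk (cx z) (EH M (cx z) b) := isBlk_EH L.isb
    -- pull back
    have hmem : n⁻¹ * g' * n ∈ cx z := by
      rw [Subgroup.mem_normalizer_iff.mp hnC]
      have : n * (n⁻¹ * g' * n) * n⁻¹ = g' := by group
      rw [this]; exact hg'C
    have h3 : ∑ c : cx z, rs (cx z) h c *
        kr (bs (cx z) (cj n (EH M (cx z) b))) ⟨g', hg'C⟩ c =
        ∑ c : cx z, rs (cx z) h c * kr b ⟨n⁻¹ * g' * n, hmem⟩ c := by
      symm
      apply Finset.sum_bij (fun c _ => normConj (cx z) hnC c)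
      · intro _ _; exact Finset.mem_univ _
      · intro c _ c' _ hcc; exact (normConj (cx z) hnC).injective hcc
      · intro c _; exact ⟨(normConj (cx z) hnC).symm c, Finset.mem_univ _,
          (normConj (cx z) hnC).apply_symm_apply c⟩
      · intro c _
        have e1 : rs (cx z) h (normConj (cx z) hnC c) = rs (cx z) h c := hcl (c : G) n
        rw [e1]
        congr 1
        have e2 : n * (n⁻¹ * g' * n) * n⁻¹ ∈ cx z := by
          have : n * (n⁻¹ * g' * n) * n⁻¹ = g' := by group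
          rw [this]; exact hg'C
        have e3 := kr_cj hfb hnC hmem c.2 e2 (normConj (cx z) hnC c).2
        rw [bs_EH L.isb] at e3
        rw [← e3]
        congr 1
        apply Subtype.ext
        change n * (n⁻¹ * g' * n) * n⁻¹ = g'
        group
    rw [h3]
    have h4 : ∑ c : cx z, rs (cx z) h c * kr b ⟨n⁻¹ * g' * n, hmem⟩ c =
        (Nat.card (cx z) : ℂ) * blockPart b (rs (cx z) h) ⟨n⁻¹ * g' * n, hmem⟩ := by
      rw [blockPart_eq_kr, mul_inv_cancel_left₀ card_ne_zeroC]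
    rw [h4, blockPart_eq_sum]
    have h5 : ∑ ψ : IrrCharacter (cx z) with ψ ∈ b,
        classInner (rs (cx z) h) (ψ : cx z → ℂ) * (ψ : cx z → ℂ) ⟨n⁻¹ * g' * n, hmem⟩ =
        classInner (rs (cx z) h) (ψ₀ : cx z → ℂ) *
        ∑ ψ : IrrCharacter (cx z) with ψ ∈ b, (ψ : cx z → ℂ) ⟨n⁻¹ * g' * n, hmem⟩ := by
      rw [Finset.mul_sum]
      apply Finset.sum_congr rfl
      intro ψ hψ
      rw [hc ψ (Finset.mem_filter.mp hψ).2]
    rw [h5]
    -- the sum vanishes
    have h6 : p ∣ orderOf (⟨n⁻¹ * g' * n, hmem⟩ : cx z) := by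
      rw [Subgroup.orderOf_mk]
      have : n⁻¹ * g' * n = n⁻¹ * g' * n⁻¹⁻¹ := by rw [inv_inv]
      rw [this, orderOf_cj]
      exact hg'p
    have h1r : ¬ p ∣ orderOf (1 : cx z) := by
      rw [orderOf_one]; exact hp.out.one_lt.ne' ∘ Nat.dvd_one.mp
    have h7 := kr_eq_zero' hMp L.isb h6 h1r
    rw [kr_eq] at h7
    have h8 : ∑ ψ : IrrCharacter (cx z) with ψ ∈ b, (ψ : cx z → ℂ) ⟨n⁻¹ * g' * n, hmem⟩ *
        conj ((ψ : cx z → ℂ) 1) = (∑ ψ : IrrCharacter (cx z) with ψ ∈ b,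
        (ψ : cx z → ℂ) ⟨n⁻¹ * g' * n, hmem⟩) * conj ((ψ₀ : cx z → ℂ) 1) := by
      rw [Finset.sum_mul]
      apply Finset.sum_congr rfl
      intro ψ hψ
      rw [L.reg ψ (Finset.mem_filter.mp hψ).2 ψ₀ hψ₀ 1 h1r]
    rw [h8] at h7
    rcases mul_eq_zero.mp h7 with h9 | h9
    · rw [h9, mul_zero, mul_zero]
    · exfalso
      rw [H27.conj_char (irr_isChar ψ₀.2), inv_one] at h9
      exact H27.isIrr_one_ne_zero ψ₀.2 h9
  have h3 : ∑ c : cx z, h (c : G) * ∑ f ∈ bf (cx z) (br (Subgroup.zpowers z) (EG M B)),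
      kr (bs (cx z) f) ⟨g', hg'C⟩ c = 0 := by
    simp only [Finset.mul_sum]
    rw [Finset.sum_comm]
    exact Finset.sum_eq_zero h2
  rw [h3, mul_zero]

end L

end Cfsg.Agent.H26
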