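import Mathlib
import Cfsg.Agent.H26.Cy3
import Cfsg.Agent.H26.Cover9

set_option autoImplicit false

/-!
# The action on the local block
-/

namespace Cfsg.Agent.H26

open MonoidAlgebra MulAction Cfsg Cfsg.Agent.H11 Cfsg.Agent.H3 Finset
open scoped ComplexConjugate

universe u

section A

variable {M : Ideal AlgInt} [hM : M.IsPrime] {p : ℕ} [hp : Fact p.Prime] [hch : CharP (KF M) p]
variable {G : Type u} [Group G] [Fintype G] {z : G} {B : Set (IrrCharacter G)}
  {b : Set (IrrCharacter (cx z))}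

open Classical in
/-- the twist of a character -/
noncomputable def tw (n : G) (ψ : IrrCharacter (cx z)) : IrrCharacter (cx z) :=
  if h : n ∈ nz (cx z) then irrMap (normConj (cx z) h) ψ else ψ

theorem nz_cx {n : G} (hn : n ∈ nz (Subgroup.zpowers z)) : n ∈ nz (cx z) :=
  normalizer_le_normalizer_centralizer _ hn

theorem inv_conj_mem {n : G} (hn : n ∈ nz (cx z)) {c : G} (hc : c ∈ cx z) : n⁻¹ * c * n ∈ cx z := by
  rw [Subgroup.mem_normalizer_iff.mp hn]
  have : n * (n⁻¹ * c * n) * n⁻¹ = c := by group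
  rwa [this]

theorem tw_apply {n : G} (hn : n ∈ nz (cx z)) (ψ : IrrCharacter (cx z)) (c : cx z) :
    (tw n ψ : cx z → ℂ) c = (ψ : cx z → ℂ) ⟨n⁻¹ * c * n, inv_conj_mem hn c.2⟩ := by
  unfold tw
  rw [dif_pos hn]
  rfl

theorem tw_mul {m n : G} (hm : m ∈ nz (cx z)) (hn : n ∈ nz (cx z)) (ψ : IrrCharacter (cx z)) :
    tw (m * n) ψ = tw m (tw n ψ) := by
  apply Subtype.ext
  funext c
  rw [tw_apply (Subgroup.mul_mem _ hm hn), tw_apply hm, tw_apply hn]
  apply congrArg (ψ : cx z → ℂ)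
  apply Subtype.ext
  change (m * n)⁻¹ * c * (m * n) = n⁻¹ * (m⁻¹ * c * m) * n
  group

theorem tw_of_mem {n : G} (hn : n ∈ cx z) (ψ : IrrCharacter (cx z)) : tw n ψ = ψ := by
  apply Subtype.ext
  funext c
  rw [tw_apply (Subgroup.le_normalizer hn)]
  have h := irr_classFun ψ.2 c ⟨n⁻¹, Subgroup.inv_mem _ hn⟩
  rw [← h]
  apply congrArg (ψ : cx z → ℂ)
  apply Subtype.ext
  change n⁻¹ * c * n = n⁻¹ * c * n⁻¹⁻¹
  rw [inv_inv]

theorem tw_one (ψ : IrrCharacter (cx z)) : tw 1 ψ = ψ := tw_of_mem (Subgroup.one_mem _) ψ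

theorem tw_mem_iff (hb : IsPBlock M b) {n : G} (hn : n ∈ nz (cx z)) {ψ : IrrCharacter (cx z)}
    (hψ : ψ ∈ b) : tw n ψ ∈ b ↔ cj n (EH M (cx z) b) = EH M (cx z) b := by
  unfold tw
  rw [dif_pos hn]
  constructor
  · intro h
    exact cj_EH_eq_of_mem hb hn hψ h
  · intro h
    have h4 := Eb_normConj (M := M) hn b
    have h5 : irrMap (normConj (cx z) hn) '' b = b := by
      apply EH_injective (M := M) (isPBlock_irrMap _ hb) hb
      exact h4.trans h
    rw [← h5]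
    exact ⟨ψ, hψ, rfl⟩

theorem centralizes_of_mem_zpowers {u n : G} (hzu : z ∈ Subgroup.zpowers u) (h : n * u = u * n) :
    n ∈ cx z := by
  rw [mem_cx]
  obtain ⟨k, hk⟩ := Subgroup.mem_zpowers_iff.mp hzu
  rw [← hk]
  exact (show Commute n u from h).zpow_right k

open Classical in
theorem CyL.card_fix (hMp : IsPModular p M) (L : CyL M p z B b) {n : G}
    (hn : n ∈ nz (Subgroup.zpowers z)) (hnC : n ∉ cx z)
    (hnf : cj n (EH M (cx z) b) = EH M (cx z) b) [Fintype (IrrCharacter (cx z))] :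
    (univ.filter (fun ψ : IrrCharacter (cx z) => ψ ∈ b ∧ tw n ψ = ψ)).card = 1 := by
  have hfC : Fintype (cx z) := Fintype.ofFinite _
  have hnN := nz_cx hn
  have h1 : ((univ.filter (fun ψ : IrrCharacter (cx z) => ψ ∈ b ∧ tw n ψ = ψ)).card : ℂ) =
      ∑ ψ : IrrCharacter (cx z) with ψ ∈ b, classInner (tw n ψ : cx z → ℂ) (ψ : cx z → ℂ) := by
    rw [Finset.card_eq_sum_ones]
    push_cast
    rw [← Finset.filter_filter, Finset.sum_filter]
    apply Finset.sum_congr rfl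
    intro ψ _
    rw [classInner_irr']
  have h2 : ∑ ψ : IrrCharacter (cx z) with ψ ∈ b,
      classInner (tw n ψ : cx z → ℂ) (ψ : cx z → ℂ) =
      (Nat.card (cx z) : ℂ)⁻¹ * ∑ c : cx z, kr b ⟨n⁻¹ * c * n, inv_conj_mem hnN c.2⟩ c := by
    unfold classInner
    rw [← Finset.mul_sum, Finset.sum_comm]
    congr 1
    apply Finset.sum_congr rfl
    intro c _
    rw [kr_eq]
    apply Finset.sum_congr rfl
    intro ψ _
    rw [tw_apply hnN]
  have h3 : ∀ c : cx z, kr b ⟨n⁻¹ * c * n, inv_conj_mem hnN c.2⟩ c =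
      if ¬ p ∣ orderOf c then kr b c c else 0 := by
    intro c
    by_cases hc : p ∣ orderOf c
    · rw [if_neg (not_not.mpr hc)]
      by_cases hz : z ∈ Subgroup.zpowers (c : G)
      · have hppc := pp_spec p c
        have h4 : IsPPart p (c : G) ((pp p c : cx z) : G) := by
          obtain ⟨y, hy1, hy2, hy3, hy4⟩ := hppc
          refine ⟨(y : G), ?_, ?_, ?_, ?_⟩
          · exact congrArg Subtype.val hy1
          · exact congrArg Subtype.val hy2.eq
          · obtain ⟨k, hk⟩ := hy3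
            exact ⟨k, by rw [Subgroup.orderOf_coe]; exact hk⟩
          · rwa [Subgroup.orderOf_coe]
        have h5 : z ∈ Subgroup.zpowers ((pp p c : cx z) : G) := mem_zpowers_pp L.zp h4 hz
        -- the `p`-part of the conjugate
        set u : cx z := pp p c with hu
        have h6 : IsPPart p (⟨n⁻¹ * c * n, inv_conj_mem hnN c.2⟩ : cx z)
            ⟨n⁻¹ * u * n, inv_conj_mem hnN u.2⟩ := by
          obtain ⟨y, hy1, hy2, hy3, hy4⟩ := hppc
          refine ⟨⟨n⁻¹ * y * n, inv_conj_mem hnN y.2⟩, ?_, ?_, ?_, ?_⟩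
          · apply Subtype.ext
            change n⁻¹ * u * n * (n⁻¹ * y * n) = n⁻¹ * c * n
            have : (c : G) = u * y := by rw [← hy1]; rfl
            rw [this]; group
          · apply Subtype.ext
            change n⁻¹ * u * n * (n⁻¹ * y * n) = n⁻¹ * y * n * (n⁻¹ * u * n)
            have : (u : G) * y = y * u := congrArg Subtype.val hy2.eq
            have e1 : n⁻¹ * u * n * (n⁻¹ * y * n) = n⁻¹ * (u * y) * n := by group
            have e2 : n⁻¹ * y * n * (n⁻¹ * u * n) = n⁻¹ * (y * u) * n := by group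
            rw [e1, e2, this]
          · obtain ⟨k, hk⟩ := hy3
            refine ⟨k, ?_⟩
            rw [Subgroup.orderOf_mk]
            have : n⁻¹ * (u : G) * n = n⁻¹ * u * n⁻¹⁻¹ := by rw [inv_inv]
            rw [this, orderOf_cj, Subgroup.orderOf_coe]; exact hk
          · rw [Subgroup.orderOf_mk]
            have : n⁻¹ * (y : G) * n = n⁻¹ * y * n⁻¹⁻¹ := by rw [inv_inv]
            rw [this, orderOf_cj, Subgroup.orderOf_coe]; exact hy4
        have h7 : ¬ IsConj (⟨n⁻¹ * u * n, inv_conj_mem hnN u.2⟩ : cx z) u := by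
          intro hconj
          obtain ⟨k, hk⟩ := isConj_iff.mp hconj
          have h8 : (k : G) * (n⁻¹ * u * n) * (k : G)⁻¹ = u := congrArg Subtype.val hk
          have h9 : ((k : G) * n⁻¹) * u = u * ((k : G) * n⁻¹) := by
            have : (u : G) * ((k : G) * n⁻¹) =
              ((k : G) * (n⁻¹ * u * n) * (k : G)⁻¹) * ((k : G) * n⁻¹) := by rw [h8]
            rw [this]; group
          have h10 : (k : G) * n⁻¹ ∈ cx z := centralizes_of_mem_zpowers h5 h9
          apply hnC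
          have h11 : n = ((k : G) * n⁻¹)⁻¹ * k := by group
          rw [h11]
          exact Subgroup.mul_mem _ (Subgroup.inv_mem _ h10) k.2
        have h12 := block_orthogonality hMp (p := p) h6 hppc h7 L.isb
        unfold kr
        rw [← h12]
        apply finsum_mem_congr rfl
        intro χ _
        rw [char_inv (irr_isChar χ.2)]
      · rw [kr_eq]
        apply Finset.sum_eq_zero
        intro ψ hψ
        have e1 : (ψ : cx z → ℂ) c = 0 := by
          by_contra h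
          exact hz (L.sing ψ (Finset.mem_filter.mp hψ).2 c hc h)
        rw [e1, map_zero, mul_zero]
    · rw [if_pos hc, kr_eq, kr_eq]
      apply Finset.sum_congr rfl
      intro ψ hψ
      have hψb := (Finset.mem_filter.mp hψ).2
      have e1 : (ψ : cx z → ℂ) ⟨n⁻¹ * c * n, inv_conj_mem hnN c.2⟩ = (ψ : cx z → ℂ) c := by
        rw [← tw_apply hnN]
        exact L.reg _ ((tw_mem_iff L.isb hnN hψb).mpr hnf) _ hψb c hc
      rw [e1]
  have h4 := blockRank_kr hMp L.isb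
  rw [L.rank] at h4
  have h5 : ((univ.filter (fun ψ : IrrCharacter (cx z) => ψ ∈ b ∧ tw n ψ = ψ)).card : ℂ) = 1 := by
    rw [h1, h2, Finset.sum_congr rfl (fun c _ => h3 c), ← Finset.sum_filter, ← h4]
    push_cast
    rw [mul_one, inv_mul_cancel₀ card_ne_zeroC]
  have h6 := (Nat.cast_injective (R := ℂ)) (h5.trans Nat.cast_one.symm)
  convert h6

/-- commutators of elements normalizing `⟨z⟩` centralize `z` -/
theorem comm_mem_cx {m n : G} (hm : m ∈ nz (Subgroup.zpowers z))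
    (hn : n ∈ nz (Subgroup.zpowers z)) : (n * m)⁻¹ * (m * n) ∈ cx z := by
  obtain ⟨a, ha⟩ := Subgroup.mem_zpowers_iff.mp
    ((Subgroup.mem_normalizer_iff.mp hm z).mp (Subgroup.mem_zpowers z))
  obtain ⟨c, hc⟩ := Subgroup.mem_zpowers_iff.mp
    ((Subgroup.mem_normalizer_iff.mp hn z).mp (Subgroup.mem_zpowers z))
  have h1 : (m * n) * z * (m * n)⁻¹ = z ^ (a * c) := by
    have : (m * n) * z * (m * n)⁻¹ = m * (n * z * n⁻¹) * m⁻¹ := by group
    rw [this, ← hc, ← conj_zpow, ← ha, zpow_mul]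
  have h2 : (n * m) * z * (n * m)⁻¹ = z ^ (a * c) := by
    have : (n * m) * z * (n * m)⁻¹ = n * (m * z * m⁻¹) * n⁻¹ := by group
    rw [this, ← ha, ← conj_zpow, ← hc, mul_comm a c, zpow_mul]
  rw [mem_cx]
  have h3 : (m * n) * z * (m * n)⁻¹ = (n * m) * z * (n * m)⁻¹ := h1.trans h2.symm
  have h4 : (n * m)⁻¹ * (m * n) * z = (n * m)⁻¹ * ((m * n) * z * (m * n)⁻¹) * (m * n) := by group
  rw [h4, h3]
  group

theorem exists_mem_block' (hb : IsPBlock M b) : ∃ ψ, ψ ∈ b := by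
  have := Fintype.ofFinite (cx z)
  obtain ⟨ψ, hψ⟩ := hb
  exact ⟨ψ, by rw [hψ]; exact mem_blockOf_self ψ⟩

theorem CyL.exists_fixed (hMp : IsPModular p M) (L : CyL M p z B b) :
    ∃ ψ₁ ∈ b, (∀ n ∈ stab (nz (Subgroup.zpowers z)) (EH M (cx z) b), tw n ψ₁ = ψ₁) ∧
      ∀ n ∈ stab (nz (Subgroup.zpowers z)) (EH M (cx z) b), n ∉ cx z → ∀ ψ ∈ b,
        tw n ψ = ψ → ψ = ψ₁ := by
  classical
  have := Fintype.ofFinite (IrrCharacter (cx z))
  by_cases h : ∃ n₀ ∈ stab (nz (Subgroup.zpowers z)) (EH M (cx z) b), n₀ ∉ cx z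
  · obtain ⟨n₀, hn₀, hn₀C⟩ := h
    rw [mem_stab] at hn₀
    obtain ⟨ψ₁, hψ₁⟩ := Finset.card_eq_one.mp (L.card_fix hMp hn₀.1 hn₀C hn₀.2)
    have h1 : ∀ ψ, ψ ∈ b → tw n₀ ψ = ψ → ψ = ψ₁ := by
      intro ψ h1 h2
      have : ψ ∈ univ.filter (fun ψ : IrrCharacter (cx z) => ψ ∈ b ∧ tw n₀ ψ = ψ) :=
        Finset.mem_filter.mpr ⟨Finset.mem_univ _, h1, h2⟩
      rw [hψ₁] at this
      exact Finset.mem_singleton.mp this
    have h2 : ψ₁ ∈ b ∧ tw n₀ ψ₁ = ψ₁ := by
      have : ψ₁ ∈ univ.filter (fun ψ : IrrCharacter (cx z) => ψ ∈ b ∧ tw n₀ ψ = ψ) := by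
        rw [hψ₁]; exact Finset.mem_singleton_self _
      exact (Finset.mem_filter.mp this).2
    have h3 : ∀ m ∈ stab (nz (Subgroup.zpowers z)) (EH M (cx z) b), tw m ψ₁ = ψ₁ := by
      intro m hm
      rw [mem_stab] at hm
      apply h1
      · exact (tw_mem_iff L.isb (nz_cx hm.1) h2.1).mpr hm.2
      · have h4 := comm_mem_cx hn₀.1 hm.1
        have h5 : n₀ * m = m * n₀ * ((m * n₀)⁻¹ * (n₀ * m)) := by group
        rw [← tw_mul (nz_cx hn₀.1) (nz_cx hm.1), h5,
          tw_mul (Subgroup.mul_mem _ (nz_cx hm.1) (nz_cx hn₀.1)) (Subgroup.le_normalizer h4),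
          tw_of_mem h4, tw_mul (nz_cx hm.1) (nz_cx hn₀.1), h2.2]
    refine ⟨ψ₁, h2.1, h3, ?_⟩
    intro n hn hnC ψ hψ hfix
    rw [mem_stab] at hn
    obtain ⟨ψ₂, hψ₂⟩ := Finset.card_eq_one.mp (L.card_fix hMp hn.1 hnC hn.2)
    have e1 : ψ ∈ univ.filter (fun ψ : IrrCharacter (cx z) => ψ ∈ b ∧ tw n ψ = ψ) :=
      Finset.mem_filter.mpr ⟨Finset.mem_univ _, hψ, hfix⟩
    have e2 : ψ₁ ∈ univ.filter (fun ψ : IrrCharacter (cx z) => ψ ∈ b ∧ tw n ψ = ψ) :=
      Finset.mem_filter.mpr ⟨Finset.mem_univ _, h2.1, h3 n (mem_stab.mpr hn)⟩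
    rw [hψ₂, Finset.mem_singleton] at e1 e2
    rw [e1, e2]
  · push Not at h
    obtain ⟨ψ₁, hψ₁⟩ := exists_mem_block' L.isb
    exact ⟨ψ₁, hψ₁, fun n hn => tw_of_mem (h n hn) ψ₁, fun n hn hnC => absurd (h n hn) hnC⟩

end A

end Cfsg.Agent.H26
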