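import Mathlib
import Cfsg.Agent.H26.Cy4

set_option autoImplicit false

/-!
# The Gram matrix of the induced differences
-/

namespace Cfsg.Agent.H26

open MonoidAlgebra MulAction Cfsg Cfsg.Agent.H11 Cfsg.Agent.H3 Finset
open scoped ComplexConjugate

universe u

/-- elements of prime order in a cyclic group generate the same subgroup -/
theorem zpowers_eq_of_cyc {G : Type u} [Group G] [Finite G] {p : ℕ} [hp : Fact p.Prime]
    {g a c : G} (ha : a ∈ Subgroup.zpowers g) (hc : c ∈ Subgroup.zpowers g) (hao : orderOf a = p)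
    (hco : orderOf c = p) : Subgroup.zpowers a = Subgroup.zpowers c := by
  classical
  have := Fintype.ofFinite (Subgroup.zpowers g)
  set S := univ.filter (fun x : Subgroup.zpowers g => x ^ p = 1) with hS
  have h1 : S.card ≤ p := IsCyclic.card_pow_eq_one_le hp.out.pos
  have key : ∀ d : G, ∀ hd : d ∈ Subgroup.zpowers g, orderOf d = p →
      (Subgroup.zpowers (⟨d, hd⟩ : Subgroup.zpowers g) : Set (Subgroup.zpowers g)).toFinset = S := by
    intro d hd hdo
    apply Finset.eq_of_subset_of_card_le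
    · intro x hx
      rw [Set.mem_toFinset] at hx
      rw [hS, Finset.mem_filter]
      refine ⟨Finset.mem_univ _, ?_⟩
      obtain ⟨n, rfl⟩ := hx
      rw [← zpow_natCast, zpow_comm, zpow_natCast]
      have h2 : (⟨d, hd⟩ : Subgroup.zpowers g) ^ p = 1 := by
        apply Subtype.ext
        change d ^ p = 1
        rw [← hdo, pow_orderOf_eq_one]
      rw [h2, one_zpow]
    · rw [Set.toFinset_card]
      have h3 : Fintype.card ((Subgroup.zpowers (⟨d, hd⟩ : Subgroup.zpowers g) :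
          Subgroup (Subgroup.zpowers g)) : Set (Subgroup.zpowers g)) = p := by
        rw [← Nat.card_eq_fintype_card]
        change Nat.card (Subgroup.zpowers (⟨d, hd⟩ : Subgroup.zpowers g)) = p
        rw [Nat.card_zpowers, Subgroup.orderOf_mk, hdo]
      rw [h3]; exact h1
  have h2 := (key a ha hao).trans (key c hc hco).symm
  have h3 : (Subgroup.zpowers (⟨a, ha⟩ : Subgroup.zpowers g)) =
      Subgroup.zpowers (⟨c, hc⟩ : Subgroup.zpowers g) := by
    apply SetLike.coe_injective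
    exact Set.toFinset_inj.mp h2
  have h4 := congrArg (fun H => H.map (Subgroup.zpowers g).subtype) h3
  simpa [MonoidHom.map_zpowers] using h4

section Gr

variable {M : Ideal AlgInt} [hM : M.IsPrime] {p : ℕ} [hp : Fact p.Prime] [hch : CharP (KF M) p]
variable {G : Type u} [Group G] [Fintype G] {z : G} {B : Set (IrrCharacter G)}
  {b : Set (IrrCharacter (cx z))}

theorem mem_nz_of_above (hz : orderOf z = p) {g x : G} (h1 : z ∈ Subgroup.zpowers g)
    (h2 : z ∈ Subgroup.zpowers (x⁻¹ * g * x)) : x ∈ nz (Subgroup.zpowers z) := by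
  have h3 : x * z * x⁻¹ ∈ Subgroup.zpowers g := by
    obtain ⟨n, hn⟩ := Subgroup.mem_zpowers_iff.mp h2
    refine Subgroup.mem_zpowers_iff.mpr ⟨n, ?_⟩
    have : x⁻¹ * g * x = x⁻¹ * g * x⁻¹⁻¹ := by rw [inv_inv]
    rw [← hn, this, conj_zpow]
    group
  have h4 : orderOf (x * z * x⁻¹) = p := by rw [orderOf_cj]; exact hz
  have h5 := zpowers_eq_of_cyc h3 h1 h4 hz
  apply mem_nz_of_cg_eq
  rw [cg_zpowers, h5]

/-- the induced difference -/
noncomputable def ga (ψ₁ ψ : IrrCharacter (cx z)) : G → ℂ :=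
  indFun (cx z) ((ψ : cx z → ℂ) - (ψ₁ : cx z → ℂ))

theorem CyL.diff_zero (L : CyL M p z B b) {ψ ψ' : IrrCharacter (cx z)} (hψ : ψ ∈ b)
    (hψ' : ψ' ∈ b) {c : cx z} (hc : z ∉ Subgroup.zpowers (c : G)) :
    ((ψ : cx z → ℂ) - (ψ' : cx z → ℂ)) c = 0 := by
  rw [Pi.sub_apply]
  by_cases h : p ∣ orderOf c
  · have e1 : (ψ : cx z → ℂ) c = 0 := by
      by_contra h'
      exact hc (L.sing ψ hψ c h h')
    have e2 : (ψ' : cx z → ℂ) c = 0 := by
      by_contra h'
      exact hc (L.sing ψ' hψ' c h h')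
    rw [e1, e2, sub_zero]
  · rw [L.reg ψ hψ ψ' hψ' c h, sub_self]

open Classical in
theorem CyL.ga_above (L : CyL M p z B b) {ψ ψ₁ : IrrCharacter (cx z)} (hψ : ψ ∈ b) (hψ₁ : ψ₁ ∈ b)
    (c : cx z) (hc : z ∈ Subgroup.zpowers (c : G)) :
    ga ψ₁ ψ (c : G) = (Nat.card (cx z) : ℂ)⁻¹ *
      ∑ n : G with n ∈ nz (Subgroup.zpowers z),
        (((tw n ψ : IrrCharacter (cx z)) : cx z → ℂ) c -
          ((tw n ψ₁ : IrrCharacter (cx z)) : cx z → ℂ) c) := by
  unfold ga indFun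
  congr 1
  rw [Finset.sum_filter]
  apply Finset.sum_congr rfl
  intro x _
  by_cases hx : x ∈ nz (Subgroup.zpowers z)
  · rw [if_pos hx, extendByZero_mem _ _ (inv_conj_mem (nz_cx hx) c.2), tw_apply (nz_cx hx),
      tw_apply (nz_cx hx)]
    rfl
  · rw [if_neg hx]
    by_cases hm : x⁻¹ * (c : G) * x ∈ cx z
    · rw [extendByZero_mem _ _ hm]
      apply L.diff_zero hψ hψ₁
      intro h
      exact hx (mem_nz_of_above L.ordz hc h)
    · rw [extendByZero_not_mem _ _ hm]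

open Classical in
theorem CyL.gram (L : CyL M p z B b) [Fintype (cx z)] {ψ ψ' ψ₁ : IrrCharacter (cx z)}
    (hψ : ψ ∈ b) (hψ' : ψ' ∈ b) (hψ₁ : ψ₁ ∈ b) :
    classInner (ga ψ₁ ψ) (ga ψ₁ ψ') = (Nat.card (cx z) : ℂ)⁻¹ *
      ∑ n : G with n ∈ nz (Subgroup.zpowers z),
        classInner ((ψ : cx z → ℂ) - (ψ₁ : cx z → ℂ))
          ((tw n ψ' : cx z → ℂ) - (tw n ψ₁ : cx z → ℂ)) := by
  have hcl : IsClassFunction G (ga ψ₁ ψ') := indFun_classFun _ _
  have h1 : classInner (ga ψ₁ ψ) (ga ψ₁ ψ') =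
      classInner ((ψ : cx z → ℂ) - (ψ₁ : cx z → ℂ)) (fun c : cx z => ga ψ₁ ψ' c) :=
    frobenius_reciprocity (cx z) _ hcl
  rw [h1]
  have h2 : ∀ c : cx z, ((ψ : cx z → ℂ) - (ψ₁ : cx z → ℂ)) c * conj (ga ψ₁ ψ' (c : G)) =
      (Nat.card (cx z) : ℂ)⁻¹ * ∑ n : G with n ∈ nz (Subgroup.zpowers z),
        ((ψ : cx z → ℂ) - (ψ₁ : cx z → ℂ)) c *
          conj (((tw n ψ' : cx z → ℂ) - (tw n ψ₁ : cx z → ℂ)) c) := by
    intro c
    by_cases hc : z ∈ Subgroup.zpowers (c : G)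
    · rw [L.ga_above hψ' hψ₁ c hc, map_mul, map_inv₀, Complex.conj_natCast, map_sum,
        mul_left_comm, Finset.mul_sum]
      rfl
    · rw [L.diff_zero hψ hψ₁ hc, zero_mul]
      symm
      rw [mul_eq_zero]; right
      apply Finset.sum_eq_zero
      intro n _
      rw [zero_mul]
  unfold classInner
  rw [Finset.sum_congr rfl (fun c _ => h2 c), ← Finset.mul_sum, Finset.sum_comm]
  congr 1
  rw [Finset.mul_sum]

/-- The inner products on `C_G(z)`. -/
theorem CyL.inner_tw (L : CyL M p z B b) [Fintype (cx z)] {ψ ψ' ψ₁ : IrrCharacter (cx z)}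
    (hψ : ψ ∈ b) (hψ' : ψ' ∈ b) (hψ₁ : ψ₁ ∈ b) (hne : ψ ≠ ψ₁) (hne' : ψ' ≠ ψ₁)
    (hfix : ∀ n ∈ stab (nz (Subgroup.zpowers z)) (EH M (cx z) b), tw n ψ₁ = ψ₁) {n : G}
    (hn : n ∈ nz (Subgroup.zpowers z))
    [Decidable (n ∈ stab (nz (Subgroup.zpowers z)) (EH M (cx z) b))]
    [Decidable (tw n ψ' = ψ)] :
    classInner ((ψ : cx z → ℂ) - (ψ₁ : cx z → ℂ))
      ((tw n ψ' : cx z → ℂ) - (tw n ψ₁ : cx z → ℂ)) =
      if n ∈ stab (nz (Subgroup.zpowers z)) (EH M (cx z) b) then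
        (1 + if tw n ψ' = ψ then 1 else 0) else 0 := by
  classical
  have hnN := nz_cx hn
  by_cases hT : n ∈ stab (nz (Subgroup.zpowers z)) (EH M (cx z) b)
  · rw [if_pos hT, hfix n hT, classInner_sub_left, classInner_sub_right, classInner_sub_right,
      classInner_irr', classInner_irr', classInner_irr', classInner_irr', if_neg hne, if_pos rfl]
    have h1 : ψ₁ ≠ tw n ψ' := by
      intro h
      apply hne'
      have h2 : tw n ψ' = tw n ψ₁ := by rw [← h, hfix n hT]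
      have h3 : tw n⁻¹ (tw n ψ') = tw n⁻¹ (tw n ψ₁) := by rw [h2]
      rw [← tw_mul (Subgroup.inv_mem _ hnN) hnN, ← tw_mul (Subgroup.inv_mem _ hnN) hnN,
        inv_mul_cancel, tw_one, tw_one] at h3
      exact h3
    rw [if_neg h1]
    by_cases h4 : tw n ψ' = ψ
    · rw [if_pos h4, if_pos h4.symm]; ring
    · rw [if_neg h4, if_neg (fun h => h4 h.symm)]; ring
  · rw [if_neg hT]
    have h0 : ∀ η ∈ b, ∀ θ ∈ b, classInner (η : cx z → ℂ) (tw n θ : cx z → ℂ) = 0 := by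
      intro η hη θ hθ
      rw [classInner_irr', if_neg]
      intro h
      apply hT
      rw [mem_stab]
      exact ⟨hn, (tw_mem_iff L.isb hnN hθ).mp (h ▸ hη)⟩
    rw [classInner_sub_left, classInner_sub_right, classInner_sub_right, h0 _ hψ _ hψ',
      h0 _ hψ _ hψ₁, h0 _ hψ₁ _ hψ', h0 _ hψ₁ _ hψ₁]
    ring

end Gr

end Cfsg.Agent.H26
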