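import Mathlib
import Cfsg.Agent.H26.Cy5
import Cfsg.Agent.H3.CohB

set_option autoImplicit false

/-!
# The lattice of characters vanishing on `p`-regular elements
-/

namespace Cfsg.Agent.H26

open MonoidAlgebra MulAction Cfsg Cfsg.Agent.H11 Cfsg.Agent.H3 Finset
open scoped ComplexConjugate

universe u

section I

variable {M : Ideal AlgInt} [hM : M.IsPrime] {p : ℕ} [hp : Fact p.Prime] [hch : CharP (KF M) p]
variable {G : Type u} [Group G] [Fintype G] {z : G} {B : Set (IrrCharacter G)}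
  {b : Set (IrrCharacter (cx z))}

/-- the inertial subgroup -/
noncomputable abbrev TT (M : Ideal AlgInt) [M.IsPrime] {G : Type u} [Group G] [Fintype G] (z : G)
    (b : Set (IrrCharacter (cx z))) : Subgroup G :=
  stab (nz (Subgroup.zpowers z)) (EH M (cx z) b)

theorem CyL.cx_le_TT (L : CyL M p z B b) : cx z ≤ TT M z b := by
  intro c hc
  rw [mem_stab]
  have h1 : c ∈ nz (Subgroup.zpowers z) := centralizer_le_normalizer' _ hc
  exact ⟨h1, (isBlk_EH L.isb).isFx c hc⟩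

theorem CyL.card_TT (L : CyL M p z B b) :
    Nat.card (cx z) * (cx z).relIndex (TT M z b) = Nat.card (TT M z b) := by
  have h := Subgroup.relIndex_mul_relIndex (⊥ : Subgroup G) (cx z) (TT M z b) bot_le L.cx_le_TT
  rwa [Subgroup.relIndex_bot_left, Subgroup.relIndex_bot_left] at h

theorem CyL.card_tr (L : CyL M p z B b) {ψ₁ ψ ψ' : IrrCharacter (cx z)}
    (hψ' : ψ' ∈ b) (hne' : ψ' ≠ ψ₁)
    (hsr : ∀ n ∈ TT M z b, n ∉ cx z → ∀ ψ ∈ b, tw n ψ = ψ → ψ = ψ₁)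
    (h : ∃ n ∈ TT M z b, tw n ψ' = ψ) :
    Nat.card {n : G // n ∈ TT M z b ∧ tw n ψ' = ψ} = Nat.card (cx z) := by
  obtain ⟨n₀, hn₀, hn₀'⟩ := h
  have hn₀N := nz_cx (mem_stab.mp hn₀).1
  symm
  apply Nat.card_congr
  refine Equiv.ofBijective (fun c => ⟨n₀ * (c : G), Subgroup.mul_mem _ hn₀ (L.cx_le_TT c.2), by
    rw [tw_mul hn₀N (Subgroup.le_normalizer c.2), tw_of_mem c.2, hn₀']⟩) ⟨?_, ?_⟩
  · intro c c' hcc
    exact Subtype.ext (mul_left_cancel (congrArg Subtype.val hcc))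
  · rintro ⟨n, hnT, hn'⟩
    have hnN := nz_cx (mem_stab.mp hnT).1
    have h1 : n₀⁻¹ * n ∈ TT M z b := Subgroup.mul_mem _ (Subgroup.inv_mem _ hn₀) hnT
    have h2 : tw (n₀⁻¹ * n) ψ' = ψ' := by
      rw [tw_mul (Subgroup.inv_mem _ hn₀N) hnN, hn', ← hn₀',
        ← tw_mul (Subgroup.inv_mem _ hn₀N) hn₀N, inv_mul_cancel, tw_one]
    have h3 : n₀⁻¹ * n ∈ cx z := by
      by_contra hc
      exact hne' (hsr _ h1 hc ψ' hψ' h2)
    refine ⟨⟨n₀⁻¹ * n, h3⟩, Subtype.ext ?_⟩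
    change n₀ * (n₀⁻¹ * n) = n
    group

/-- The Gram matrix. -/
theorem CyL.gram_value (L : CyL M p z B b) {ψ₁ ψ ψ' : IrrCharacter (cx z)}
    (hψ₁ : ψ₁ ∈ b) (hψ : ψ ∈ b) (hψ' : ψ' ∈ b) (hne : ψ ≠ ψ₁) (hne' : ψ' ≠ ψ₁)
    (hfix : ∀ n ∈ TT M z b, tw n ψ₁ = ψ₁)
    (hsr : ∀ n ∈ TT M z b, n ∉ cx z → ∀ ψ ∈ b, tw n ψ = ψ → ψ = ψ₁) :
    ((∃ n ∈ TT M z b, tw n ψ' = ψ) →
      classInner (ga ψ₁ ψ) (ga ψ₁ ψ') = ((cx z).relIndex (TT M z b) : ℂ) + 1) ∧
    ((¬ ∃ n ∈ TT M z b, tw n ψ' = ψ) →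
      classInner (ga ψ₁ ψ) (ga ψ₁ ψ') = ((cx z).relIndex (TT M z b) : ℂ)) := by
  classical
  have hfC : Fintype (cx z) := Fintype.ofFinite _
  have h0 : classInner (ga ψ₁ ψ) (ga ψ₁ ψ') = (Nat.card (cx z) : ℂ)⁻¹ *
      ((Nat.card (TT M z b) : ℂ) + (Nat.card {n : G // n ∈ TT M z b ∧ tw n ψ' = ψ} : ℂ)) := by
    rw [L.gram hψ hψ' hψ₁]
    congr 1
    have h1 : ∀ n ∈ univ.filter (fun n : G => n ∈ nz (Subgroup.zpowers z)),
        classInner ((ψ : cx z → ℂ) - (ψ₁ : cx z → ℂ))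
            ((tw n ψ' : cx z → ℂ) - (tw n ψ₁ : cx z → ℂ)) =
        (if n ∈ TT M z b then (1 : ℂ) else 0) +
          if (n ∈ TT M z b ∧ tw n ψ' = ψ) then (1 : ℂ) else 0 := by
      intro n hn
      rw [L.inner_tw hψ hψ' hψ₁ hne hne' hfix (Finset.mem_filter.mp hn).2]
      by_cases h1 : n ∈ TT M z b
      · by_cases h2 : tw n ψ' = ψ
        · rw [if_pos h1, if_pos h2, if_pos h1, if_pos ⟨h1, h2⟩]
        · rw [if_pos h1, if_neg h2, if_pos h1, if_neg (fun h => h2 h.2)]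
      · rw [if_neg h1, if_neg h1, if_neg (fun h => h1 h.1), add_zero]
    have h2 : (Nat.card (TT M z b) : ℂ) =
        ∑ n ∈ univ.filter (fun n : G => n ∈ nz (Subgroup.zpowers z)),
          if n ∈ TT M z b then (1 : ℂ) else 0 := by
      rw [← Finset.sum_filter, Finset.sum_const, nsmul_eq_mul, mul_one, Finset.filter_filter]
      congr 1
      exact Nat.subtype_card _ (fun n => by
        rw [Finset.mem_filter]
        exact ⟨fun h => h.2.2, fun h => ⟨Finset.mem_univ _, (mem_stab.mp h).1, h⟩⟩)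
    have h3 : (Nat.card {n : G // n ∈ TT M z b ∧ tw n ψ' = ψ} : ℂ) =
        ∑ n ∈ univ.filter (fun n : G => n ∈ nz (Subgroup.zpowers z)),
          if (n ∈ TT M z b ∧ tw n ψ' = ψ) then (1 : ℂ) else 0 := by
      rw [← Finset.sum_filter, Finset.sum_const, nsmul_eq_mul, mul_one, Finset.filter_filter]
      congr 1
      exact Nat.subtype_card _ (fun n => by
        rw [Finset.mem_filter]
        exact ⟨fun h => h.2.2, fun h => ⟨Finset.mem_univ _, (mem_stab.mp h.1).1, h⟩⟩)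
    rw [h2, h3, ← Finset.sum_add_distrib]
    convert Finset.sum_congr rfl h1 using 2
  have hC0 : (Nat.card (cx z) : ℂ) ≠ 0 := by exact_mod_cast Nat.card_pos.ne'
  rw [h0, ← L.card_TT]
  push_cast
  constructor
  · intro h
    rw [L.card_tr hψ' hne' hsr h]
    field_simp
  · intro h
    have e1 : Nat.card {n : G // n ∈ TT M z b ∧ tw n ψ' = ψ} = 0 := by
      rw [Nat.card_eq_zero]
      left
      exact ⟨fun n => h ⟨n.1, n.2⟩⟩
    rw [e1]
    push_cast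
    field_simp
    ring

theorem ga_isGen (ψ₁ ψ : IrrCharacter (cx z)) : IsGeneralizedCharacter G (ga ψ₁ ψ) :=
  isGen_ind _ (isGen_sub (isGen_of_irr ψ.2) (isGen_of_irr ψ₁.2))

theorem CyL.ga_reg (L : CyL M p z B b) {ψ₁ ψ : IrrCharacter (cx z)} (hψ₁ : ψ₁ ∈ b) (hψ : ψ ∈ b)
    {g : G} (hg : ¬ p ∣ orderOf g) : ga ψ₁ ψ g = 0 := by
  unfold ga indFun
  rw [mul_eq_zero]; right
  apply Finset.sum_eq_zero
  intro x _
  by_cases hm : x⁻¹ * g * x ∈ cx z
  · rw [extendByZero_mem _ _ hm, Pi.sub_apply, sub_eq_zero]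
    apply L.reg ψ hψ ψ₁ hψ₁
    rw [Subgroup.orderOf_mk]
    have : x⁻¹ * g * x = x⁻¹ * g * x⁻¹⁻¹ := by rw [inv_inv]
    rw [this, orderOf_cj]
    exact hg
  · rw [extendByZero_not_mem _ _ hm]

theorem CyL.ga_notMem (hMp : IsPModular p M) (L : CyL M p z B b) {ψ₁ ψ : IrrCharacter (cx z)}
    (hψ₁ : ψ₁ ∈ b) (hψ : ψ ∈ b) {χ : IrrCharacter G} (hχ : χ ∉ B) :
    classInner (ga ψ₁ ψ) (χ : G → ℂ) = 0 := by
  have hfC : Fintype (cx z) := Fintype.ofFinite _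
  have h1 : classInner (ga ψ₁ ψ) (χ : G → ℂ) =
      classInner ((ψ : cx z → ℂ) - (ψ₁ : cx z → ℂ)) (rs (cx z) (χ : G → ℂ)) :=
    frobenius_reciprocity (cx z) _ (irr_classFun χ.2)
  rw [h1]
  exact L.inner_const_of_notMem hMp hχ hψ hψ₁

/-- The full description. -/
theorem CyL.exists_I (hMp : IsPModular p M) (L : CyL M p z B b) :
    ∃ (I : Finset (G → ℂ)) (e : ℕ), e * I.card + 1 = Nat.card b ∧
      (∀ γ ∈ I, IsGeneralizedCharacter G γ ∧
        (∀ χ : IrrCharacter G, χ ∉ B → classInner γ (χ : G → ℂ) = 0) ∧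
        ∀ g, ¬ p ∣ orderOf g → γ g = 0) ∧
      (∀ γ ∈ I, ∀ γ' ∈ I, (γ = γ' → classInner γ γ' = (e : ℂ) + 1) ∧
        (γ ≠ γ' → classInner γ γ' = (e : ℂ))) ∧
      (∀ h : G → ℂ, IsClassFunction G h →
        (∀ χ : IrrCharacter G, χ ∉ B → classInner h (χ : G → ℂ) = 0) →
        (∀ γ ∈ I, classInner h γ = 0) → ∀ g, p ∣ orderOf g → h g = 0) := by
  classical
  have hfC : Fintype (cx z) := Fintype.ofFinite _
  have hfI : Fintype (IrrCharacter (cx z)) := Fintype.ofFinite _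
  obtain ⟨ψ₁, hψ₁, hfix, hsr⟩ := L.exists_fixed hMp
  set S := univ.filter (fun ψ : IrrCharacter (cx z) => ψ ∈ b ∧ ψ ≠ ψ₁) with hS
  set e := (cx z).relIndex (TT M z b) with he
  have hSm : ∀ ψ, ψ ∈ S ↔ ψ ∈ b ∧ ψ ≠ ψ₁ := fun ψ => by
    rw [hS, Finset.mem_filter]; simp
  have hgr : ∀ ψ ∈ S, ∀ ψ' ∈ S, ((∃ n ∈ TT M z b, tw n ψ' = ψ) →
      classInner (ga ψ₁ ψ) (ga ψ₁ ψ') = (e : ℂ) + 1) ∧
    ((¬ ∃ n ∈ TT M z b, tw n ψ' = ψ) → classInner (ga ψ₁ ψ) (ga ψ₁ ψ') = (e : ℂ)) :=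
    fun ψ hψ ψ' hψ' =>
    L.gram_value hψ₁ ((hSm ψ).mp hψ).1 ((hSm ψ').mp hψ').1 ((hSm ψ).mp hψ).2 ((hSm ψ').mp hψ').2
      hfix hsr
  have hself : ∀ ψ ∈ S, classInner (ga ψ₁ ψ) (ga ψ₁ ψ) = (e : ℂ) + 1 := by
    intro ψ hψ
    exact (hgr ψ hψ ψ hψ).1 ⟨1, Subgroup.one_mem _, tw_one ψ⟩
  have heq : ∀ ψ ∈ S, ∀ ψ' ∈ S, (ga ψ₁ ψ = ga ψ₁ ψ' ↔ ∃ n ∈ TT M z b, tw n ψ' = ψ) := by
    intro ψ hψ ψ' hψ'
    constructor
    · intro h
      by_contra hc
      have h1 := (hgr ψ hψ ψ' hψ').2 hc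
      rw [← h, hself ψ hψ] at h1
      have : (1 : ℂ) = 0 := by linear_combination h1
      exact one_ne_zero this
    · intro h
      have h1 := (hgr ψ hψ ψ' hψ').1 h
      have h2 : classInner (ga ψ₁ ψ') (ga ψ₁ ψ) = (e : ℂ) + 1 := by
        rw [← classInner_conj_symm, h1, map_add, Complex.conj_natCast, map_one]
      have h3 : classInner (ga ψ₁ ψ - ga ψ₁ ψ') (ga ψ₁ ψ - ga ψ₁ ψ') = 0 := by
        rw [classInner_sub_left, classInner_sub_right, classInner_sub_right, h1, h2,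
          hself ψ hψ, hself ψ' hψ']
        ring
      exact sub_eq_zero.mp (eq_zero_of_norm' h3)
  refine ⟨S.image (ga ψ₁), e, ?_, ?_, ?_, ?_⟩
  · -- counting
    have h1 : ∀ γ ∈ S.image (ga ψ₁), (S.filter (fun ψ => ga ψ₁ ψ = γ)).card = e := by
      intro γ hγ
      obtain ⟨ψ, hψ, rfl⟩ := Finset.mem_image.mp hγ
      have hψb := (hSm ψ).mp hψ
      -- double counting
      set F := S.filter (fun ψ' => ga ψ₁ ψ' = ga ψ₁ ψ) with hF
      have hto : ∀ n : TT M z b, tw (n : G) ψ ∈ F := by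
        intro n
        have hnN := nz_cx (mem_stab.mp n.2).1
        have h4 : tw (n : G) ψ ∈ S := by
          rw [hSm]
          refine ⟨(tw_mem_iff L.isb hnN hψb.1).mpr (mem_stab.mp n.2).2, ?_⟩
          intro h
          apply hψb.2
          have h5 : tw (n : G)⁻¹ (tw (n : G) ψ) = tw (n : G)⁻¹ (tw (n : G) ψ₁) := by
            rw [h, hfix n n.2]
          rw [← tw_mul (Subgroup.inv_mem _ hnN) hnN, ← tw_mul (Subgroup.inv_mem _ hnN) hnN,
            inv_mul_cancel, tw_one, tw_one] at h5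
          exact h5
        rw [hF, Finset.mem_filter]
        exact ⟨h4, (heq _ h4 _ hψ).mpr ⟨n, n.2, rfl⟩⟩
      have hfT : Fintype (TT M z b) := Fintype.ofFinite _
      have h2 : (univ : Finset (TT M z b)).card = ∑ ψ' ∈ F,
          (univ.filter (fun n : TT M z b => tw (n : G) ψ = ψ')).card :=
        Finset.card_eq_sum_card_fiberwise (fun n _ => hto n)
      have h3 : ∀ ψ' ∈ F, (univ.filter (fun n : TT M z b => tw (n : G) ψ = ψ')).card =
          Nat.card (cx z) := by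
        intro ψ' hψ'
        obtain ⟨hψ'S, hψ'e⟩ := Finset.mem_filter.mp hψ'
        rw [← L.card_tr hψb.1 hψb.2 hsr ((heq _ hψ'S _ hψ).mp hψ'e),
          ← Nat.subtype_card (p := fun n : TT M z b => tw (n : G) ψ = ψ') _
            (fun n => by rw [Finset.mem_filter]; simp)]
        exact Nat.card_congr ⟨fun n => ⟨n.1.1, n.1.2, n.2⟩, fun n => ⟨⟨n.1, n.2.1⟩, n.2.2⟩,
          fun _ => rfl, fun _ => rfl⟩
      rw [Finset.sum_congr rfl h3, Finset.sum_const, smul_eq_mul, Finset.card_univ,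
        ← Nat.card_eq_fintype_card, ← L.card_TT, mul_comm] at h2
      exact (Nat.eq_of_mul_eq_mul_right Nat.card_pos h2).symm
    have h2 : S.card = ∑ γ ∈ S.image (ga ψ₁), (S.filter (fun ψ => ga ψ₁ ψ = γ)).card :=
      Finset.card_eq_sum_card_fiberwise (fun ψ hψ => Finset.mem_image_of_mem _ hψ)
    rw [Finset.sum_congr rfl h1, Finset.sum_const, smul_eq_mul] at h2
    have h3 : S.card + 1 = Nat.card b := by
      have h4 : Nat.card b = (univ.filter (fun ψ : IrrCharacter (cx z) => ψ ∈ b)).card := by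
        rw [Nat.card_eq_fintype_card, Fintype.card_subtype]
      have h5 : S = (univ.filter (fun ψ : IrrCharacter (cx z) => ψ ∈ b)).erase ψ₁ := by
        ext ψ
        rw [hSm, Finset.mem_erase, Finset.mem_filter]
        simp [and_comm]
      rw [h4, h5, Finset.card_erase_add_one]
      exact Finset.mem_filter.mpr ⟨Finset.mem_univ _, hψ₁⟩
    rw [← h3, h2, mul_comm]
  · intro γ hγ
    obtain ⟨ψ, hψ, rfl⟩ := Finset.mem_image.mp hγ
    have hψb := ((hSm ψ).mp hψ).1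
    exact ⟨ga_isGen ψ₁ ψ, fun χ hχ => L.ga_notMem hMp hψ₁ hψb hχ,
      fun g hg => L.ga_reg hψ₁ hψb hg⟩
  · intro γ hγ γ' hγ'
    obtain ⟨ψ, hψ, rfl⟩ := Finset.mem_image.mp hγ
    obtain ⟨ψ', hψ', rfl⟩ := Finset.mem_image.mp hγ'
    constructor
    · intro h
      rw [← h]
      exact hself ψ hψ
    · intro h
      exact (hgr ψ hψ ψ' hψ').2 (fun h' => h ((heq ψ hψ ψ' hψ').mpr h'))
  · intro h hcl hB0 hγ g hg
    apply L.vanish_of_const hMp hcl hB0 hψ₁ _ g hg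
    intro ψ hψ
    by_cases hne : ψ = ψ₁
    · rw [hne]
    · have h1 := hγ _ (Finset.mem_image_of_mem _ ((hSm ψ).mpr ⟨hψ, hne⟩))
      have h2 : classInner h (ga ψ₁ ψ) = classInner (rs (cx z) h)
          ((ψ : cx z → ℂ) - (ψ₁ : cx z → ℂ)) := frobenius_reciprocity' (cx z) _ hcl
      rw [h2, classInner_sub_right] at h1
      exact sub_eq_zero.mp h1

end I

end Cfsg.Agent.H26
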