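import Mathlib
import Cfsg.Agent.H26.Cy1
import Cfsg.Agent.H26.Cy6
import Cfsg.Agent.H26.PB3

set_option autoImplicit false

/-!
# The forms of a block with the Gram matrix `e + δ`
-/

namespace Cfsg.Agent.H26

open Cfsg Cfsg.Agent.H11 Cfsg.Agent.H3 Finset
open scoped ComplexConjugate

universe u

section F

variable {G : Type u} [Group G] [Fintype G] {p : ℕ} [hp : Fact p.Prime]
  {B : Set (IrrCharacter G)}

/-- A lattice of generalized characters vanishing on `p`-regular elements. -/
structure Lat (p : ℕ) {G : Type u} [Group G] [Fintype G] (B : Set (IrrCharacter G))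
    (I : Finset (G → ℂ)) (e : ℕ) : Prop where
  gen : ∀ γ ∈ I, IsGeneralizedCharacter G γ
  out : ∀ γ ∈ I, ∀ χ : IrrCharacter G, χ ∉ B → classInner γ (χ : G → ℂ) = 0
  reg : ∀ γ ∈ I, ∀ g, ¬ p ∣ orderOf g → γ g = 0
  gram1 : ∀ γ ∈ I, classInner γ γ = (e : ℂ) + 1
  gram2 : ∀ γ ∈ I, ∀ γ' ∈ I, γ ≠ γ' → classInner γ γ' = (e : ℂ)
  van : ∀ h : G → ℂ, IsClassFunction G h →
        (∀ χ : IrrCharacter G, χ ∉ B → classInner h (χ : G → ℂ) = 0) →
        (∀ γ ∈ I, classInner h γ = 0) → ∀ g, p ∣ orderOf g → h g = 0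

theorem Lat.exists_forms {I : Finset (G → ℂ)} {e : ℕ} (L : Lat p B I e) (hI : I.Nonempty)
    (hdz : ∀ χ ∈ B, ∃ g, p ∣ orderOf g ∧ (χ : G → ℂ) g ≠ 0) :
    ∃ (K : Type u) (_ : Fintype K) (h : K → K → G → ℂ) (N : K → K → ℤ),
      (∀ k l, IsPr p B (h k l)) ∧ (∀ k l, classInner (h k l) (h k l) = N k l) ∧
      (∑ k, ∑ l, N k l ≤ 2 * ((Fintype.card K : ℤ) - 1) * (1 + e * I.card)) ∧
      ∀ A : (G → ℂ) →+ ℂ, (∃ Φ, IsPr p B Φ ∧ A Φ ≠ 0) → 2 ≤ Fintype.card K ∧
        2 * ((Fintype.card K : ℤ) - 1) ≤
          ∑ k, ∑ l, (open Classical in if A (h k l) ≠ 0 then (1 : ℤ) else 0) := by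
  classical
  have hfI : Fintype (IrrCharacter G) := Fintype.ofFinite _
  -- the integer matrix
  have hint : ∀ γ : I, ∀ r : {χ // χ ∈ B}, ∃ n : ℤ, classInner (γ : G → ℂ) (r.1 : G → ℂ) = n :=
    fun γ r => classInner_gen_int (L.gen γ γ.2) (isGen_of_irr r.1.2)
  choose w hw using hint
  have hw' : ∀ γ : I, ∀ r : {χ // χ ∈ B}, classInner (r.1 : G → ℂ) (γ : G → ℂ) = w γ r := by
    intro γ r
    rw [← classInner_conj_symm, hw, conj_intC]
  -- Parseval
  have hpars : ∀ γ γ' : I, ∑ r, w γ r * w γ' r = (e : ℤ) + if γ = γ' then 1 else 0 := by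
    intro γ γ'
    have h1 : classInner (γ : G → ℂ) (γ' : G → ℂ) = ((∑ r, w γ r * w γ' r : ℤ) : ℂ) := by
      have h2 : (γ : G → ℂ) = ∑ χ : IrrCharacter G, classInner (γ : G → ℂ) (χ : G → ℂ) •
          (χ : G → ℂ) := classFun_expand (isGen_classFun (L.gen γ γ.2))
      conv_lhs => rw [h2]
      rw [classInner_sum_left]
      push_cast
      rw [← Finset.sum_subtype (univ.filter (fun χ : IrrCharacter G => χ ∈ B))
        (p := fun χ => χ ∈ B) (by simp)
        (fun χ => if h : χ ∈ B then (w γ ⟨χ, h⟩ : ℂ) * (w γ' ⟨χ, h⟩ : ℂ) else 0)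
        |>.trans (Finset.sum_congr rfl (fun r _ => dif_pos r.2))]
      rw [Finset.sum_filter]
      apply Finset.sum_congr rfl
      intro χ _
      rw [classInner_smul_left]
      by_cases hχ : χ ∈ B
      · rw [if_pos hχ, dif_pos hχ, hw γ ⟨χ, hχ⟩, hw' γ' ⟨χ, hχ⟩]
      · rw [if_neg hχ, L.out γ γ.2 χ hχ, zero_mul]
    by_cases h : γ = γ'
    · rw [if_pos h]
      rw [← h, L.gram1 γ γ.2] at h1
      rw [← h]
      exact_mod_cast h1.symm
    · rw [if_neg h, add_zero]
      rw [L.gram2 γ γ.2 γ' γ'.2 (fun h' => h (Subtype.ext h'))] at h1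
      exact_mod_cast h1.symm
  -- degrees
  have hd : ∀ r : {χ // χ ∈ B}, (0 : ℤ) < charDegree (r.1 : G → ℂ) := fun r => by
    exact_mod_cast H27.charDegree_pos r.1.2
  have hsum1 : ∀ (γ : I) (g : G), (γ : G → ℂ) g = ∑ r, (w γ r : ℂ) * (r.1 : G → ℂ) g := by
    intro γ g
    rw [classFun_expand_apply (isGen_classFun (L.gen γ γ.2)) g]
    rw [← Finset.sum_subtype (univ.filter (fun χ : IrrCharacter G => χ ∈ B))
        (p := fun χ => χ ∈ B) (by simp)
        (fun χ => if h : χ ∈ B then (w γ ⟨χ, h⟩ : ℂ) * (χ : G → ℂ) g else 0)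
        |>.trans (Finset.sum_congr rfl (fun r _ => dif_pos r.2))]
    rw [Finset.sum_filter]
    apply Finset.sum_congr rfl
    intro χ _
    by_cases hχ : χ ∈ B
    · rw [if_pos hχ, dif_pos hχ, hw γ ⟨χ, hχ⟩]
    · rw [if_neg hχ, L.out γ γ.2 χ hχ, zero_mul]
  have hw0 : ∀ γ : I, ∑ r, w γ r * (charDegree (r.1 : G → ℂ) : ℤ) = 0 := by
    intro γ
    have h1 := hsum1 γ 1
    rw [L.reg γ γ.2 1 (by rw [orderOf_one]; exact hp.out.one_lt.ne' ∘ Nat.dvd_one.mp)] at h1
    have h2 : ((∑ r, w γ r * (charDegree (r.1 : G → ℂ) : ℤ) : ℤ) : ℂ) = 0 := by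
      rw [h1]
      push_cast
      apply Finset.sum_congr rfl
      intro r _
      rw [(charDegree_spec r.1.2).1]
    exact_mod_cast h2
  have hne : ∀ r : {χ // χ ∈ B}, ∃ γ : I, w γ r ≠ 0 := by
    intro r
    by_contra hc
    push Not at hc
    obtain ⟨g, hg, hgn⟩ := hdz r.1 r.2
    apply hgn
    apply L.van _ (irr_classFun r.1.2) _ _ g hg
    · intro χ hχ
      rw [classInner_irr', if_neg]
      rintro rfl
      exact hχ r.2
    · intro γ hγ
      rw [hw' ⟨γ, hγ⟩ r, hc ⟨γ, hγ⟩, Int.cast_zero]
  have hIne : Nonempty I := hI.to_subtype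
  obtain ⟨K, hKf, hKd, cell, δ, hsurj, hδ, hδ0, hconst, hbound⟩ :=
    exists_cells hd hw0 hpars hne
  let cf : K → K → {χ // χ ∈ B} → ℤ := fun k l r =>
    (if cell r = k then δ l else 0) - (if cell r = l then δ k else 0)
  let h : K → K → G → ℂ := fun k l => ∑ r, (cf k l r : ℂ) • (r.1 : G → ℂ)
  have hinner : ∀ k l r, classInner (h k l) (r.1 : G → ℂ) = cf k l r := by
    intro k l r
    rw [classInner_sum_left, Finset.sum_eq_single_of_mem r (Finset.mem_univ _)]
    · rw [classInner_smul_left, classInner_irr', if_pos rfl, mul_one]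
    · intro s _ hs
      rw [classInner_smul_left, classInner_irr', if_neg (fun h => hs (Subtype.ext h)), mul_zero]
  have hcfγ : ∀ k l γ, ∑ r, cf k l r * w γ r = 0 := by
    intro k l γ
    have e1 : ∀ r, cf k l r * w γ r = δ l * (if cell r = k then w γ r else 0) -
        δ k * (if cell r = l then w γ r else 0) := by
      intro r
      simp only [cf]
      split_ifs <;> ring
    rw [Finset.sum_congr rfl (fun r _ => e1 r), Finset.sum_sub_distrib, ← Finset.mul_sum,
      ← Finset.mul_sum, ← Finset.sum_filter, ← Finset.sum_filter, hδ, hδ]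
    ring
  have hPr : ∀ k l, IsPr p B (h k l) := by
    intro k l
    have hgen : IsGeneralizedCharacter G (h k l) := by
      apply isGen_sum
      intro r _
      exact isGen_intCast_smul _ (isGen_of_irr r.1.2)
    have hout : ∀ χ : IrrCharacter G, χ ∉ B → classInner (h k l) (χ : G → ℂ) = 0 := by
      intro χ hχ
      rw [classInner_sum_left]
      apply Finset.sum_eq_zero
      intro r _
      rw [classInner_smul_left, classInner_irr', if_neg, mul_zero]
      rintro rfl
      exact hχ r.2
    refine ⟨hgen, ?_, hout⟩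
    apply L.van _ (isGen_classFun hgen) hout
    intro γ hγ
    rw [classInner_sum_left]
    have e1 : ∀ r ∈ univ, classInner ((cf k l r : ℂ) • (r.1 : G → ℂ)) γ =
        ((cf k l r * w ⟨γ, hγ⟩ r : ℤ) : ℂ) := by
      intro r _
      rw [classInner_smul_left, hw' ⟨γ, hγ⟩ r]; push_cast; rfl
    rw [Finset.sum_congr rfl e1, ← Int.cast_sum, hcfγ, Int.cast_zero]
  set n : K → ℤ := fun k => ((univ.filter (fun r => cell r = k)).card : ℤ) with hn
  let N : K → K → ℤ := fun k l => if k = l then 0 else n k * δ l ^ 2 + n l * δ k ^ 2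
  refine ⟨K, hKf, h, N, hPr, ?_, ?_, ?_⟩
  · intro k l
    have h1 : classInner (h k l) (h k l) = ((∑ r, cf k l r * cf k l r : ℤ) : ℂ) := by
      have h2 : classInner (h k l) (h k l) =
          ∑ r, (cf k l r : ℂ) * classInner (r.1 : G → ℂ) (h k l) := by
        conv_lhs => rw [show h k l = ∑ r, (cf k l r : ℂ) • (r.1 : G → ℂ) from rfl]
        rw [classInner_sum_left]
        apply Finset.sum_congr rfl
        intro r _
        rw [classInner_smul_left]
      rw [h2]
      push_cast
      apply Finset.sum_congr rfl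
      intro r _
      rw [← classInner_conj_symm, hinner, conj_intC]
    rw [h1]
    congr 1
    by_cases hkl : k = l
    · simp only [N]
      rw [if_pos hkl]
      apply Finset.sum_eq_zero
      intro r _
      simp only [cf]
      rw [hkl]; ring
    · simp only [N]
      rw [if_neg hkl]
      have e1 : ∀ r, cf k l r * cf k l r = δ l ^ 2 * (if cell r = k then 1 else 0) +
          δ k ^ 2 * (if cell r = l then 1 else 0) := by
        intro r
        simp only [cf]
        by_cases h1 : cell r = k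
        · rw [if_pos h1, if_neg (fun h2 => hkl (h1.symm.trans h2)), if_pos h1,
            if_neg (fun h2 => hkl (h1.symm.trans h2))]; ring
        · rw [if_neg h1, if_neg h1]
          split_ifs <;> ring
      rw [Finset.sum_congr rfl (fun r _ => e1 r), Finset.sum_add_distrib, ← Finset.mul_sum,
        ← Finset.mul_sum]
      simp only [hn, Finset.sum_boole]
      ring
  · have e1 : ∀ k l, N k l = (if k = l then 0 else n k * δ l ^ 2) +
        (if l = k then 0 else n l * δ k ^ 2) := by
      intro k l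
      simp only [N]
      by_cases hkl : k = l
      · rw [if_pos hkl, if_pos hkl, if_pos hkl.symm]; ring
      · rw [if_neg hkl, if_neg hkl, if_neg (fun h => hkl h.symm)]
    have e2 : ∑ k, ∑ l, N k l = 2 * ∑ k, ∑ l, (if k = l then 0 else n k * δ l ^ 2) := by
      rw [Finset.sum_congr rfl (fun k _ => Finset.sum_congr rfl (fun l _ => e1 k l))]
      simp only [Finset.sum_add_distrib]
      rw [Finset.sum_comm (f := fun k l => if l = k then 0 else n l * δ k ^ 2)]
      ring
    rw [e2]
    rw [Fintype.card_coe] at hbound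
    linarith
  · intro A hA
    obtain ⟨Φ, hΦ, hAΦ⟩ := hA
    -- values on the cells
    let a : K → ℂ := fun k => ∑ r with cell r = k, A (r.1 : G → ℂ)
    have hAz : ∀ (m : ℤ) (f : G → ℂ), A ((m : ℂ) • f) = (m : ℂ) * A f := by
      intro m f
      have h1 : ((m : ℂ) • f) = m • f := by
        funext g
        simp
      rw [h1, map_zsmul, zsmul_eq_mul]
    have hAh : ∀ k l, A (h k l) = (δ l : ℂ) * a k - (δ k : ℂ) * a l := by
      intro k l
      simp only [h, a]
      rw [map_sum]
      have e1 : ∀ r ∈ univ, A ((cf k l r : ℂ) • (r.1 : G → ℂ)) =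
          (δ l : ℂ) * (if cell r = k then A (r.1 : G → ℂ) else 0) -
          (δ k : ℂ) * (if cell r = l then A (r.1 : G → ℂ) else 0) := by
        intro r _
        rw [hAz]
        simp only [cf]
        push_cast
        split_ifs <;> ring
      rw [Finset.sum_congr rfl e1, Finset.sum_sub_distrib, ← Finset.mul_sum, ← Finset.mul_sum,
        ← Finset.sum_filter, ← Finset.sum_filter]
    have hδC : ∀ k, (δ k : ℂ) ≠ 0 := fun k => by exact_mod_cast hδ0 k
    let ρ : K → ℂ := fun k => a k / δ k
    have hρ : ∀ k l, A (h k l) ≠ 0 ↔ ρ k ≠ ρ l := by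
      intro k l
      rw [hAh]
      simp only [ρ]
      constructor
      · intro h1 h2
        apply h1
        rw [div_eq_div_iff (hδC k) (hδC l)] at h2
        linear_combination h2
      · intro h1 h2
        apply h1
        rw [div_eq_div_iff (hδC k) (hδC l)]
        linear_combination h2
    have hnot : ¬ ∀ k l, ρ k = ρ l := by
      intro hall
      apply hAΦ
      -- expand Φ
      have hmint : ∀ r : {χ // χ ∈ B}, ∃ m : ℤ, classInner Φ (r.1 : G → ℂ) = m :=
        fun r => classInner_gen_int hΦ.1 (isGen_of_irr r.1.2)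
      choose m hm using hmint
      have hΦe : Φ = ∑ r : {χ // χ ∈ B}, (m r : ℂ) • (r.1 : G → ℂ) := by
        rw [hΦ.eq_sum]
        symm
        rw [Finset.sum_subtype (univ.filter (fun χ : IrrCharacter G => χ ∈ B))
          (p := fun χ => χ ∈ B) (by simp)
          (fun χ => classInner Φ (χ : G → ℂ) • (χ : G → ℂ))]
        apply Finset.sum_congr rfl
        intro r _
        rw [hm]
      have hΦγ : ∀ γ : I, ∑ r, (m r : ℂ) * (w γ r : ℂ) = 0 := by
        intro γ
        have h1 : classInner Φ (γ : G → ℂ) = 0 := by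
          unfold classInner
          rw [mul_eq_zero]; right
          apply Finset.sum_eq_zero
          intro g _
          by_cases hg : p ∣ orderOf g
          · rw [hΦ.2.1 g hg, zero_mul]
          · rw [L.reg γ γ.2 g hg, map_zero, mul_zero]
        rw [hΦe, classInner_sum_left] at h1
        rw [← h1]
        apply Finset.sum_congr rfl
        intro r _
        rw [classInner_smul_left, hw']
      have hmc := hconst (fun r => (m r : ℂ)) hΦγ
      -- representatives
      choose rep hrep using hsurj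
      have hmrep : ∀ r, (m r : ℂ) = m (rep (cell r)) := fun r => hmc _ _ (hrep _).symm
      have h1 : A Φ = ∑ k, (m (rep k) : ℂ) * a k := by
        conv_lhs => rw [hΦe]
        rw [map_sum, ← Finset.sum_fiberwise (s := univ) (g := cell)]
        apply Finset.sum_congr rfl
        intro k _
        simp only [a]
        rw [Finset.mul_sum]
        apply Finset.sum_congr rfl
        intro r hr
        rw [hAz, hmrep r, (Finset.mem_filter.mp hr).2]
      have h2 : ∑ k, (m (rep k) : ℂ) * (δ k : ℂ) = 0 := by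
        obtain ⟨γ⟩ := hIne
        rw [← hΦγ γ, ← Finset.sum_fiberwise (s := univ) (g := cell)]
        apply Finset.sum_congr rfl
        intro k _
        rw [← hδ γ k]
        push_cast
        rw [Finset.mul_sum]
        apply Finset.sum_congr rfl
        intro r hr
        rw [hmrep r, (Finset.mem_filter.mp hr).2]
      rw [h1]
      by_cases hK : Nonempty K
      · obtain ⟨k₀⟩ := hK
        have h3 : ∀ k, a k = ρ k₀ * δ k := by
          intro k
          rw [hall k₀ k]
          simp only [ρ]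
          rw [div_mul_cancel₀ _ (hδC k)]
        rw [Finset.sum_congr rfl (fun k _ => by rw [h3 k])]
        have h4 : ∀ k ∈ univ, (m (rep k) : ℂ) * (ρ k₀ * (δ k : ℂ)) =
            ρ k₀ * ((m (rep k) : ℂ) * (δ k : ℂ)) := fun k _ => by ring
        rw [Finset.sum_congr rfl h4, ← Finset.mul_sum, h2, mul_zero]
      · rw [not_nonempty_iff] at hK
        exact Fintype.sum_empty _
    have h1 := pairs_ne ρ hnot
    constructor
    · push Not at hnot
      obtain ⟨k, l, hkl⟩ := hnot
      exact Fintype.one_lt_card_iff.mpr ⟨k, l, fun h => hkl (by rw [h])⟩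
    · refine h1.trans (le_of_eq ?_)
      apply Finset.sum_congr rfl
      intro k _
      apply Finset.sum_congr rfl
      intro l _
      by_cases hc : A (h k l) ≠ 0
      · rw [if_pos hc, if_pos ((hρ k l).mp hc)]
      · rw [if_neg hc, if_neg (fun h' => hc ((hρ k l).mpr h'))]

end F

end Cfsg.Agent.H26
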