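import Mathlib
import Cfsg.Agent.H26.Cy7
import Cfsg.Agent.H26.Coef3
import Cfsg.Agent.H26.BFeit
import Cfsg.Agent.H26.StD
import Cfsg.Agent.H26.Cor1

set_option autoImplicit false

/-!
# Existence of the local data for a cyclic defect group
-/

namespace Cfsg.Agent.H26

open MonoidAlgebra MulAction Cfsg Cfsg.Agent.H11 Cfsg.Agent.H3 Finset
open scoped ComplexConjugate

universe u

section One

variable {G : Type u} [Group G] [Fintype G] {p : ℕ} [hp : Fact p.Prime] {M : Ideal AlgInt}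

/-- Blocks with one Brauer character and `p^d` characters. -/
theorem reg_of_rank_one (hM : IsPModular p M) {B : Set (IrrCharacter G)} (hB : IsPBlock M B)
    (hr : blockRank p B = 1) (hc : Nat.card B = p ^ blockDefect p B) {χ ψ : IrrCharacter G}
    (hχ : χ ∈ B) (hψ : ψ ∈ B) {g : G} (hg : ¬ p ∣ orderOf g) :
    (χ : G → ℂ) g = (ψ : G → ℂ) g := by
  classical
  have hfI : Fintype (IrrCharacter G) := Fintype.ofFinite _
  obtain ⟨c, c1, c2, c3, c4, c5, c6⟩ := exists_cmat hM hB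
  have hp0 : (0 : ℤ) < (p : ℤ) ^ blockDefect p B := by
    have := hp.out.pos; positivity
  have hpC : ((p : ℂ) ^ blockDefect p B) ≠ 0 := by exact_mod_cast hp0.ne'
  -- diagonal entries are positive
  have hpos : ∀ χ ∈ B, 1 ≤ c χ χ := by
    intro χ hχ
    have h1 := cmat_sq hM hB c1 c2 c3 hχ
    have h2 : c χ χ ≠ 0 := by
      intro h0
      have := c1 χ χ hχ hχ
      rw [h0, Int.cast_zero] at this
      rcases mul_eq_zero.mp this with h | h
      · exact hpC h
      · exact mm_self_ne_zero χ h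
    have h3 : 0 ≤ ∑ ψ : IrrCharacter G, c χ ψ ^ 2 := Finset.sum_nonneg fun _ _ => sq_nonneg _
    rw [h1] at h3
    have h4 : 0 ≤ c χ χ := nonneg_of_mul_nonneg_right h3 hp0
    omega
  have htr : ∑ χ : IrrCharacter G with χ ∈ B, c χ χ = (p : ℤ) ^ blockDefect p B := by
    have h1 := blockRank_trace hM hB
    rw [hr, finsum_mem_irr] at h1
    have h2 : ((∑ χ : IrrCharacter G with χ ∈ B, c χ χ : ℤ) : ℂ) =
        (p : ℂ) ^ blockDefect p B := by
      push_cast
      have h3 : ∀ χ ∈ univ.filter (fun χ : IrrCharacter G => χ ∈ B), (c χ χ : ℂ) =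
          (p : ℂ) ^ blockDefect p B * mm p (χ : G → ℂ) (χ : G → ℂ) := fun χ hχ =>
        (c1 χ χ (Finset.mem_filter.mp hχ).2 (Finset.mem_filter.mp hχ).2).symm
      rw [Finset.sum_congr rfl h3, ← Finset.mul_sum, ← h1]
      push_cast; ring
    exact_mod_cast h2
  have hcard : ((univ.filter (fun χ : IrrCharacter G => χ ∈ B)).card : ℤ) =
      (p : ℤ) ^ blockDefect p B := by
    have h1 : Nat.card B = (univ.filter (fun χ : IrrCharacter G => χ ∈ B)).card := by
      rw [Nat.card_eq_fintype_card, Fintype.card_subtype]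
    rw [← h1, hc]; push_cast; rfl
  have hone : ∀ χ ∈ B, c χ χ = 1 := by
    have h1 : ∑ χ : IrrCharacter G with χ ∈ B, (c χ χ - 1) = 0 := by
      rw [Finset.sum_sub_distrib, htr, Finset.sum_const, nsmul_eq_mul, hcard]; ring
    have h2 := (Finset.sum_eq_zero_iff_of_nonneg (fun χ hχ => by
      have := hpos χ (Finset.mem_filter.mp hχ).2
      omega)).mp h1
    intro χ hχ
    have := h2 χ (Finset.mem_filter.mpr ⟨Finset.mem_univ _, hχ⟩)
    omega
  have hht : ∀ χ ∈ B, blockHeight p B (χ : G → ℂ) = 0 := by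
    intro χ hχ
    by_contra h0
    have h1 := c6 χ χ hχ hχ h0
    rw [hone χ hχ] at h1
    have h2 : (p : ℤ) ∣ 1 := (dvd_pow_self _ (Nat.succ_ne_zero _)).trans h1
    have h3 := Int.le_of_dvd one_pos h2
    have := hp.out.one_lt
    omega
  have hne : ∀ χ ∈ B, ∀ ψ ∈ B, c χ ψ ≠ 0 := by
    intro χ hχ ψ hψ h0
    have h1 := c5 χ ψ hχ hψ (hht χ hχ)
    rw [h0] at h1
    exact h1 (dvd_zero _)
  have hsq : ∀ χ ∈ B, ∀ ψ ∈ B, c χ ψ ^ 2 = 1 := by
    intro χ hχ
    have h1 := cmat_sq hM hB c1 c2 c3 hχ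
    rw [hone χ hχ, mul_one] at h1
    have h2 : ∑ ψ : IrrCharacter G with ψ ∈ B, c χ ψ ^ 2 = (p : ℤ) ^ blockDefect p B := by
      rw [← h1]
      apply Finset.sum_subset (Finset.filter_subset _ _)
      intro ψ _ hψ
      rw [c2 χ ψ (fun h => hψ (Finset.mem_filter.mpr ⟨Finset.mem_univ _, h⟩))]; ring
    have h3 : ∑ ψ : IrrCharacter G with ψ ∈ B, (c χ ψ ^ 2 - 1) = 0 := by
      rw [Finset.sum_sub_distrib, h2, Finset.sum_const, nsmul_eq_mul, hcard]; ring
    have h4 := (Finset.sum_eq_zero_iff_of_nonneg (fun ψ hψ => by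
      have := hne χ hχ ψ (Finset.mem_filter.mp hψ).2
      have : 1 ≤ c χ ψ ^ 2 := by
        have := sq_nonneg (c χ ψ)
        have h5 : c χ ψ ^ 2 ≠ 0 := pow_ne_zero _ ‹_›
        omega
      omega)).mp h3
    intro ψ hψ
    have := h4 ψ (Finset.mem_filter.mpr ⟨Finset.mem_univ _, hψ⟩)
    omega
  -- conclusion
  obtain ⟨ε, hε, hεc⟩ : ∃ ε : ℤ, ε ^ 2 = 1 ∧ c χ ψ = ε := ⟨c χ ψ, hsq χ hχ ψ hψ, rfl⟩
  have hm : ∀ θ ∈ B, ∀ η ∈ B, mm p (θ : G → ℂ) (η : G → ℂ) =
      (c θ η : ℂ) / (p : ℂ) ^ blockDefect p B := by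
    intro θ hθ η hη
    rw [eq_div_iff hpC, mul_comm]
    exact c1 θ η hθ hη
  have h1 : classInner (pRegularPart p ((χ : G → ℂ) - (ε : ℂ) • (ψ : G → ℂ)))
      (pRegularPart p ((χ : G → ℂ) - (ε : ℂ) • (ψ : G → ℂ))) = 0 := by
    rw [classInner_pr_right]
    have e1 : pRegularPart p ((χ : G → ℂ) - (ε : ℂ) • (ψ : G → ℂ)) =
        pRegularPart p (χ : G → ℂ) - (ε : ℂ) • pRegularPart p (ψ : G → ℂ) := by
      funext g
      simp only [Pi.sub_apply, Pi.smul_apply]
      unfold pRegularPart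
      split_ifs <;> simp
    rw [e1, classInner_sub_left, classInner_sub_right, classInner_sub_right, classInner_smul_left,
      classInner_smul_left, classInner_smul_right, classInner_smul_right]
    change mm p (χ : G → ℂ) (χ : G → ℂ) - conj (ε : ℂ) * mm p (χ : G → ℂ) (ψ : G → ℂ) -
      ((ε : ℂ) * mm p (ψ : G → ℂ) (χ : G → ℂ) -
        (ε : ℂ) * (conj (ε : ℂ) * mm p (ψ : G → ℂ) (ψ : G → ℂ))) = 0
    rw [hm χ hχ χ hχ, hm χ hχ ψ hψ, hm ψ hψ χ hχ, hm ψ hψ ψ hψ, hone χ hχ, hone ψ hψ,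
      ← c3 χ ψ hχ hψ, hεc, conj_intC]
    have : (ε : ℂ) ^ 2 = 1 := by exact_mod_cast hε
    field_simp
    push_cast
    linear_combination (-1 : ℂ) * this
  have h2 := eq_zero_of_norm' h1
  have h3 : ∀ x : G, ¬ p ∣ orderOf x → (χ : G → ℂ) x = (ε : ℂ) * (ψ : G → ℂ) x := by
    intro x hx
    have h4 := congrFun h2 x
    unfold pRegularPart at h4
    rw [if_pos (show IsPRegular p x from hx)] at h4
    simp only [Pi.sub_apply, Pi.smul_apply, smul_eq_mul, Pi.zero_apply] at h4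
    exact sub_eq_zero.mp h4
  have h4 := h3 1 (by rw [orderOf_one]; exact hp.out.one_lt.ne' ∘ Nat.dvd_one.mp)
  rw [(charDegree_spec χ.2).1, (charDegree_spec ψ.2).1] at h4
  have h5 : (charDegree (χ : G → ℂ) : ℤ) = ε * charDegree (ψ : G → ℂ) := by exact_mod_cast h4
  have h6 : (0 : ℤ) < charDegree (χ : G → ℂ) := by exact_mod_cast H27.charDegree_pos χ.2
  have h7 : (0 : ℤ) < charDegree (ψ : G → ℂ) := by exact_mod_cast H27.charDegree_pos ψ.2
  have h8 : ε = 1 := by
    have h9 : 0 < ε := by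
      by_contra hcc
      push Not at hcc
      nlinarith
    nlinarith
  rw [h3 g hg, h8]
  simp

end One

section Gp

variable {G : Type u} [Group G] [Finite G] {p : ℕ} [hp : Fact p.Prime]

/-- A `p'`-element normalizing a cyclic `p`-group and centralizing its subgroup of order `p`. -/
theorem cyc_centralize {Q : Subgroup G} (hQ : IsPGroup p Q) (hcyc : IsCyclic Q) {z x : G}
    (hz : z ∈ Q) (hzo : orderOf z = p) (hx : x ∈ nz Q) (hxo : ¬ p ∣ orderOf x)
    (hxz : x * z = z * x) : x ∈ cz Q := by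
  obtain ⟨⟨q, hq⟩, hgen⟩ := hcyc.exists_generator
  have hgen' : ∀ y ∈ Q, ∃ n : ℤ, y = q ^ n := by
    intro y hy
    obtain ⟨n, hn⟩ := Subgroup.mem_zpowers_iff.mp (hgen ⟨y, hy⟩)
    exact ⟨n, (congrArg Subtype.val hn).symm⟩
  obtain ⟨a, ha⟩ := hgen' (x * q * x⁻¹) ((Subgroup.mem_normalizer_iff.mp hx q).mp hq)
  -- iterate
  have hpow : ∀ m : ℕ, x ^ m * q * (x ^ m)⁻¹ = q ^ (a ^ m) := by
    intro m
    induction m with
    | zero => simp
    | succ m ih =>
      have : x ^ (m + 1) * q * (x ^ (m + 1))⁻¹ = x * (x ^ m * q * (x ^ m)⁻¹) * x⁻¹ := by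
        rw [pow_succ']; group
      rw [this, ih, ← conj_zpow, ha, ← zpow_mul]
      congr 1
      rw [pow_succ']
  obtain ⟨n, hn⟩ : ∃ n, orderOf q = p ^ n := by
    obtain ⟨n, hn⟩ := IsPGroup.iff_orderOf.mp hQ ⟨q, hq⟩
    exact ⟨n, by rwa [Subgroup.orderOf_mk] at hn⟩
  -- `a ^ m ≡ 1`
  set m := orderOf x with hm
  have h1 : (p : ℤ) ^ n ∣ a ^ m - 1 := by
    have h2 := hpow m
    rw [hm, pow_orderOf_eq_one, inv_one, mul_one, one_mul] at h2
    have h3 : q ^ (a ^ orderOf x - 1) = 1 := by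
      rw [zpow_sub, ← h2, zpow_one, mul_inv_cancel]
    have h4 := orderOf_dvd_iff_zpow_eq_one.mpr h3
    rw [hn] at h4
    push_cast at h4
    exact h4
  -- `a ≡ 1` mod `p`
  have h2 : (p : ℤ) ∣ a - 1 := by
    obtain ⟨k, hk⟩ := hgen' z hz
    have h3 : x * z * x⁻¹ = z := by rw [hxz]; group
    rw [hk, ← conj_zpow, ha, ← zpow_mul] at h3
    have h4 : q ^ (k * (a - 1)) = 1 := by
      have : k * (a - 1) = a * k - k := by ring
      rw [this, zpow_sub, h3, mul_inv_cancel]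
    have h5 : z ^ (a - 1) = 1 := by rw [hk, ← zpow_mul, h4]
    have h6 := orderOf_dvd_iff_zpow_eq_one.mpr h5
    rwa [hzo] at h6
  have h3 : (p : ℤ) ^ n ∣ a - 1 := by
    have h4 : a ^ m - 1 = (∑ i ∈ Finset.range m, a ^ i) * (a - 1) := (geom_sum_mul a m).symm
    have h5 : IsCoprime ((p : ℤ) ^ n) (∑ i ∈ Finset.range m, a ^ i) := by
      apply IsCoprime.pow_left
      rw [Int.isCoprime_iff_gcd_eq_one, Int.gcd_comm]
      rw [← Int.isCoprime_iff_gcd_eq_one]
      apply IsCoprime.symm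
      rw [(Nat.prime_iff_prime_int.mp hp.out).coprime_iff_not_dvd]
      intro hdvd
      have h6 : (p : ℤ) ∣ (∑ i ∈ Finset.range m, a ^ i) - m := by
        have h7 : (∑ i ∈ Finset.range m, a ^ i) - m = ∑ i ∈ Finset.range m, (a ^ i - 1) := by
          rw [Finset.sum_sub_distrib]; simp
        rw [h7]
        apply Finset.dvd_sum
        intro i _
        exact h2.trans (sub_one_dvd_pow_sub_one a i)
      have h8 : (p : ℤ) ∣ m := by
        have := dvd_sub hdvd h6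
        simpa using this
      exact hxo (by exact_mod_cast h8)
    rw [h4] at h1
    exact h5.dvd_of_dvd_mul_left h1
  have h4 : x * q * x⁻¹ = q := by
    have h5 : q ^ (a - 1) = 1 := by
      rw [← orderOf_dvd_iff_zpow_eq_one, hn]
      push_cast
      exact h3
    rw [ha]
    have : a = (a - 1) + 1 := by ring
    rw [this, zpow_add, h5, one_mul, zpow_one]
  rw [Subgroup.mem_centralizer_iff]
  intro y hy
  obtain ⟨k, rfl⟩ := hgen' y hy
  have h5 : Commute x q := by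
    have : x * q = x * q * x⁻¹ * x := by group
    change x * q = q * x
    rw [this, h4]
  exact ((h5.zpow_right k).eq).symm

/-- unique subgroup of order `p` -/
theorem cyc_unique {Q : Subgroup G} (hcyc : IsCyclic Q) {a c : G} (ha : a ∈ Q) (hc : c ∈ Q)
    (hao : orderOf a = p) (hco : orderOf c = p) : Subgroup.zpowers a = Subgroup.zpowers c := by
  obtain ⟨⟨q, hq⟩, hgen⟩ := hcyc.exists_generator
  have hgen' : ∀ y ∈ Q, y ∈ Subgroup.zpowers q := by
    intro y hy
    obtain ⟨n, hn⟩ := Subgroup.mem_zpowers_iff.mp (hgen ⟨y, hy⟩)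
    exact Subgroup.mem_zpowers_iff.mpr ⟨n, congrArg Subtype.val hn⟩
  exact zpowers_eq_of_cyc (hgen' a ha) (hgen' c hc) hao hco

/-- a non-trivial element of a cyclic `p`-group lies above the elements of order `p` -/
theorem cyc_above {Q : Subgroup G} (hQ : IsPGroup p Q) (hcyc : IsCyclic Q) {z v : G}
    (hz : z ∈ Q) (hzo : orderOf z = p) (hv : v ∈ Q) (hv1 : v ≠ 1) :
    z ∈ Subgroup.zpowers v := by
  obtain ⟨n, hn⟩ : ∃ n, orderOf v = p ^ n := by
    obtain ⟨n, hn⟩ := IsPGroup.iff_orderOf.mp hQ ⟨v, hv⟩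
    exact ⟨n, by rwa [Subgroup.orderOf_mk] at hn⟩
  have hn0 : n ≠ 0 := by
    rintro rfl
    rw [pow_zero, orderOf_eq_one_iff] at hn
    exact hv1 hn
  obtain ⟨m, rfl⟩ := Nat.exists_eq_succ_of_ne_zero hn0
  have h1 : orderOf (v ^ (p ^ m)) = p := by
    rw [orderOf_pow' v (pow_ne_zero _ hp.out.ne_zero), hn]
    rw [Nat.gcd_eq_right (pow_dvd_pow p (Nat.le_succ m)), pow_succ]
    exact Nat.mul_div_cancel_left p (pow_pos hp.out.pos m)
  have h2 := cyc_unique hcyc (Subgroup.pow_mem _ hv _) hz h1 hzo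
  have h3 : Subgroup.zpowers z ≤ Subgroup.zpowers v := by
    rw [← h2, Subgroup.zpowers_le]
    exact Subgroup.pow_mem _ (Subgroup.mem_zpowers v) _
  exact h3 (Subgroup.mem_zpowers z)

end Gp

end Cfsg.Agent.H26
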