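import Mathlib
import Cfsg.Agent.H26.Cy8

set_option autoImplicit false

/-!
# Existence of the local data for a cyclic defect group, II
-/

namespace Cfsg.Agent.H26

open MonoidAlgebra MulAction Cfsg Cfsg.Agent.H11 Cfsg.Agent.H3 Finset
open scoped ComplexConjugate

universe u

section Ex

/-- non-zero values of characters come from `p`-parts in a defect group -/
theorem conj_into_defect {G : Type u} [Group G] [Fintype G] {p : ℕ} [hp : Fact p.Prime]
    {M : Ideal AlgInt} (hMp : IsPModular p M) {B : Set (IrrCharacter G)} (hB : IsPBlock M B)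
    {P : Subgroup G} (hP : IsDefectGroup p M B P) {χ : IrrCharacter G} (hχ : χ ∈ B) {g u : G}
    (hg : (χ : G → ℂ) g ≠ 0) (hu : IsPPart p g u) : ∃ h : G, h * u * h⁻¹ ∈ P := by
  have hM : M.IsPrime := hMp.2.1.isPrime
  have hch : CharP (KF M) p := charP_KF hMp
  have hD := (isDefectGroup_iff_EG hB).mp hP
  obtain ⟨s, hus, hc, hup, hs⟩ := hu
  have hsC : s ∈ cz (Subgroup.zpowers u) := mem_cz_zpowers.mpr hc.symm.eq
  have h1 := char_eq_sum_ct hMp hB hup (C := cz (Subgroup.zpowers u)) (centralizer_zpowers u) hχ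
    ⟨s, hsC⟩ (by rwa [Subgroup.orderOf_mk])
  have h2 : (χ : G → ℂ) (u * ((⟨s, hsC⟩ : cz (Subgroup.zpowers u)) : G)) ≠ 0 := by
    change (χ : G → ℂ) (u * s) ≠ 0
    rw [hus]; exact hg
  rw [h1] at h2
  obtain ⟨b, hb, -⟩ := Finset.exists_ne_zero_of_sum_ne_zero h2
  rw [mem_indS, isInducedBlock_cz_iff (isPGroup_zpowers hup)] at hb
  have h3 : br (Subgroup.zpowers u) (EG M B) ≠ 0 := hb.2.2.br_ne_zero
  obtain ⟨h, -, h4⟩ := hD.2.2.2 (Subgroup.zpowers u) le_top (isPGroup_zpowers hup) h3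
  exact ⟨h, h4 ⟨u, Subgroup.mem_zpowers u, rfl⟩⟩

variable {G : Type u} [Group G] [Fintype G] {p : ℕ} [hp : Fact p.Prime] {M : Ideal AlgInt}
  [hM : M.IsPrime] [hch : CharP (KF M) p]

theorem exists_CyL (hMp : IsPModular p M) {B : Set (IrrCharacter G)} (hB : IsPBlock M B)
    {P : Subgroup G} (hP : IsDefectGroup p M B P) (hcyc : IsCyclic P) (hne : P ≠ ⊥) :
    ∃ (z : G) (b : Set (IrrCharacter (cx z))), CyL M p z B b ∧ Nat.card b = Nat.card P := by
  classical
  have hD := (isDefectGroup_iff_EG hB).mp hP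
  have hPp : IsPGroup p P := hD.2.1
  obtain ⟨e, he⟩ := hD.exists_inB (isBlk_EG hB)
  have hm := he.maxB_of_isDef hD
  -- the element of order `p`
  have hpd : p ∣ Nat.card P := by
    obtain ⟨n, hn⟩ := IsPGroup.iff_card.mp hPp
    rcases Nat.eq_zero_or_pos n with h0 | h0
    · exfalso
      apply hne
      rw [h0, pow_zero] at hn
      exact Subgroup.card_eq_one.mp hn
    · rw [hn]; exact dvd_pow_self p h0.ne'
  obtain ⟨⟨z, hzP⟩, hzo⟩ := exists_prime_orderOf_dvd_card' p hpd
  rw [Subgroup.orderOf_mk] at hzo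
  have hzp : ∃ k : ℕ, orderOf z = p ^ k := ⟨1, by rw [hzo, pow_one]⟩
  have hzle : Subgroup.zpowers z ≤ P := by rwa [Subgroup.zpowers_le]
  have hab : ∀ x ∈ P, ∀ y ∈ P, x * y = y * x := by
    intro x hx y hy
    have := hcyc.commGroup.mul_comm (⟨x, hx⟩ : P) ⟨y, hy⟩
    exact congrArg Subtype.val this
  have hPC : P ≤ cx z := by
    intro x hx
    rw [mem_cx]
    exact hab x hx z hzP
  obtain ⟨f, hf⟩ := exists_ple he.2.1 (Subgroup.zpowers z) hzle
  have hfI : InB p (EG M B) (Subgroup.zpowers z) f := he.of_ple' hf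
  obtain ⟨b, hb, rfl⟩ := exists_EH hfI.2.1.2
  have hdef : IsDef p (cx z) (EH M (cx z) b) P :=
    hm.isDef_mid hf le_rfl (cz_le_stab hfI.2.1.2) hPC
  have hdefC : IsDefectGroup p M b (P.subgroupOf (cx z)) :=
    (isDefectGroup_iff_EH hb hPC).mpr hdef
  have hfC : Fintype (cx z) := Fintype.ofFinite _
  -- the block `b` is nilpotent
  have hcycC : IsCyclic (P.subgroupOf (cx z)) := by
    have e1 : P.subgroupOf (cx z) ≃* P := Subgroup.subgroupOfEquivOfLe hPC
    exact isCyclic_of_surjective e1.symm e1.symm.surjective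
  set z' : cx z := ⟨z, hPC hzP⟩ with hz'
  have hz'o : orderOf z' = p := by rw [hz', Subgroup.orderOf_mk]; exact hzo
  have hz'P : z' ∈ P.subgroupOf (cx z) := hzP
  have hz'c : ∀ x : cx z, x * z' = z' * x := fun x => Subtype.ext (mem_cx.mp x.2)
  have hdefC' := (isDefectGroup_iff_EG hb).mp hdefC
  have hnil : IsNilpotentBlock p M b := by
    rw [isNilpotentBlock_iff]
    refine ⟨hb, ?_⟩
    rw [isNilK_top_iff (isBlk_EG hb)]
    intro Q f' hf' x hx _ hxo
    by_cases hQ : Q = ⊥
    · rw [hQ, cz_bot]; exact Subgroup.mem_top x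
    · have hQp : IsPGroup p Q := hf'.2.1.1
      obtain ⟨k, -, hk⟩ := hdefC'.2.2.2 Q le_top hQp hf'.br_ne_zero
      -- `Q` is cyclic and contains `z'`
      have hQc : IsCyclic Q := by
        have e1 : Q ≃* cg Q k := Q.equivMapOfInjective _ (MulAut.conj k).injective
        have e2 : IsCyclic (cg Q k) := by
          have := hcycC
          exact isCyclic_of_injective (Subgroup.inclusion hk) (Subgroup.inclusion_injective hk)
        exact isCyclic_of_surjective e1.symm e1.symm.surjective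
      obtain ⟨v, hv, hv1⟩ : ∃ v : cx z, v ∈ Q ∧ v ≠ 1 := by
        by_contra hcon
        push Not at hcon
        exact hQ ((Subgroup.eq_bot_iff_forall Q).mpr hcon)
      have h1 : k * v * k⁻¹ ∈ P.subgroupOf (cx z) := hk ⟨v, hv, rfl⟩
      have h2 : k * v * k⁻¹ ≠ 1 := by
        intro h
        apply hv1
        have : v = k⁻¹ * (k * v * k⁻¹) * k := by group
        rw [this, h]; group
      have h3 := cyc_above hdefC'.2.1 hcycC hz'P hz'o h1 h2
      have h4 : z' ∈ Q := by
        obtain ⟨n, hn⟩ := Subgroup.mem_zpowers_iff.mp h3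
        have h5 : z' = v ^ n := by
          have : z' = k⁻¹ * z' * k := by
            rw [mul_assoc, ← hz'c k, ← mul_assoc, inv_mul_cancel, one_mul]
          rw [this, ← hn, conj_zpow]; group
        rw [h5]
        exact Subgroup.zpow_mem _ hv n
      exact cyc_centralize hQp hQc h4 hz'o hx hxo (hz'c x)
  have habC : ∀ x ∈ P.subgroupOf (cx z), ∀ y ∈ P.subgroupOf (cx z), x * y = y * x :=
    fun x hx y hy => Subtype.ext (hab x hx y hy)
  obtain ⟨hcard, hrank⟩ := nilpotent_abelian p M hMp hnil hdefC habC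
  have hcardP : Nat.card (P.subgroupOf (cx z)) = Nat.card P :=
    Nat.card_congr (Subgroup.subgroupOfEquivOfLe hPC).toEquiv
  have hcd := H11.card_defect hMp hb hdefC
  refine ⟨z, b, ⟨hzo, hB, hb, hfI, ?_, ?_, hrank, ?_, ?_⟩, hcard.trans hcardP⟩
  · -- singular values
    intro ψ hψ c hc hψc
    have hpp := pp_spec p c
    obtain ⟨k, hk⟩ := conj_into_defect hMp hb hdefC hψ hψc hpp
    have hu1 : pp p c ≠ 1 := by
      intro h
      obtain ⟨y, hy1, -, -, hy4⟩ := hpp
      rw [h, one_mul] at hy1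
      rw [hy1] at hy4
      exact hy4 hc
    have h2 : k * pp p c * k⁻¹ ≠ 1 := by
      intro h
      apply hu1
      have : pp p c = k⁻¹ * (k * pp p c * k⁻¹) * k := by group
      rw [this, h]; group
    have h3 := cyc_above hdefC'.2.1 hcycC hz'P hz'o hk h2
    obtain ⟨n, hn⟩ := Subgroup.mem_zpowers_iff.mp h3
    have h5 : z' = (pp p c) ^ n := by
      have : z' = k⁻¹ * z' * k := by
        rw [mul_assoc, ← hz'c k, ← mul_assoc, inv_mul_cancel, one_mul]
      rw [this, ← hn, conj_zpow]; group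
    obtain ⟨s, hs⟩ := isPPart_mem_zpowers hp.out hpp
    have h6 : z' ∈ Subgroup.zpowers c := by
      rw [h5, hs]
      exact Subgroup.zpow_mem _ (Subgroup.pow_mem _ (Subgroup.mem_zpowers c) _) _
    obtain ⟨m, hm'⟩ := Subgroup.mem_zpowers_iff.mp h6
    exact Subgroup.mem_zpowers_iff.mpr ⟨m, by
      have := congrArg Subtype.val hm'
      simpa using this⟩
  · -- regular values
    intro ψ hψ ψ' hψ' c hc
    exact reg_of_rank_one hMp hb hrank (by rw [hcard, hcd]) hψ hψ' hc
  · -- conjugacy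
    intro f' hf'
    obtain ⟨x, hx⟩ := hm.exists_conj hf'
    have h1 : cg (Subgroup.zpowers z) x = Subgroup.zpowers (x * z * x⁻¹) := cg_zpowers z x
    have h2 : x * z * x⁻¹ ∈ P := by
      apply hx.le
      rw [h1]; exact Subgroup.mem_zpowers _
    have h3 : orderOf (x * z * x⁻¹) = p := by rw [orderOf_cj]; exact hzo
    have h4 := cyc_unique hcyc h2 hzP h3 hzo
    have h5 : cg (Subgroup.zpowers z) x = Subgroup.zpowers z := h1.trans h4
    have h6 : x ∈ nz (Subgroup.zpowers z) := mem_nz_of_cg_eq h5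
    rw [h5] at hx
    have h7 : cj x f' = EH M (cx z) b := ple_unique he.2.1 _ hx hf
    refine ⟨x⁻¹, Subgroup.inv_mem _ h6, ?_⟩
    rw [← h7, ← cj_mul_apply, inv_mul_cancel, cj_one_apply]
  · -- vanishing
    intro χ hχ g hg hχg
    have hpp := pp_spec p g
    obtain ⟨k, hk⟩ := conj_into_defect hMp hB hP hχ hχg hpp
    have hu1 : pp p g ≠ 1 := by
      intro h
      obtain ⟨y, hy1, -, -, hy4⟩ := hpp
      rw [h, one_mul] at hy1
      rw [hy1] at hy4
      exact hy4 hg
    have h2 : k * pp p g * k⁻¹ ≠ 1 := by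
      intro h
      apply hu1
      have : pp p g = k⁻¹ * (k * pp p g * k⁻¹) * k := by group
      rw [this, h]; group
    have h3 := cyc_above hPp hcyc hzP hzo hk h2
    obtain ⟨s, hs⟩ := isPPart_mem_zpowers hp.out hpp
    refine ⟨k, ?_⟩
    have h4 : k * pp p g * k⁻¹ ∈ Subgroup.zpowers (k * g * k⁻¹) := by
      rw [hs, ← conj_pow]
      exact Subgroup.pow_mem _ (Subgroup.mem_zpowers _) _
    rw [← Subgroup.zpowers_le] at h3 h4 ⊢
    exact h3.trans h4

end Ex

end Cfsg.Agent.H26
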