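import Mathlib
import Cfsg.Agent.H26.Cy9
import Cfsg.Agent.H26.PB4
import Cfsg.Agent.H26.Gd5

set_option autoImplicit false

/-!
# The number of characters when the dominated block of a major subsection has a cyclic
defect group
-/

namespace Cfsg.Agent.H26

open Cfsg Cfsg.Agent.H3 Cfsg.Agent.H11 Cfsg.Agent.H27 Finset
open scoped ComplexConjugate

universe u

section Forms

variable {G : Type u} [Group G] [Fintype G] {p : ℕ} [hp : Fact p.Prime] {M : Ideal AlgInt}

/-- In a block of positive defect no character vanishes on all `p`-singular elements. -/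
theorem exists_sing_ne (hM : IsPModular p M) {B : Set (IrrCharacter G)} (hB : IsPBlock M B)
    (hd : blockDefect p B ≠ 0) {χ : IrrCharacter G} (hχ : χ ∈ B) :
    ∃ g, p ∣ orderOf g ∧ (χ : G → ℂ) g ≠ 0 := by
  classical
  have hfI : Fintype (IrrCharacter G) := Fintype.ofFinite _
  by_contra hcon
  push Not at hcon
  obtain ⟨c, c1, c2, c3, c4, c5, c6⟩ := exists_cmat hM hB
  have h1 : pRegularPart p (χ : G → ℂ) = (χ : G → ℂ) := by
    funext g
    by_cases hg : p ∣ orderOf g
    · rw [pr_sing hg, hcon g hg]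
    · rw [pr_reg hg]
  have h2 : ∀ ψ : IrrCharacter G, mm p (χ : G → ℂ) (ψ : G → ℂ) = if χ = ψ then 1 else 0 := by
    intro ψ
    unfold mm
    rw [h1, classInner_irr']
  obtain ⟨ψ, hψ, hψ0⟩ := exists_height_zero hM hB
  have h3 := c5 ψ χ hψ hχ hψ0
  have h4 : c χ ψ = c ψ χ := c3 χ ψ hχ hψ
  by_cases hχψ : χ = ψ
  · rw [← hχψ] at h3 hψ0
    rw [hψ0, zero_add, pow_one] at h3
    apply h3
    have h5 := c1 χ χ hχ hχ
    rw [h2 χ, if_pos rfl, mul_one] at h5
    have h6 : c χ χ = (p : ℤ) ^ blockDefect p B := by exact_mod_cast h5.symm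
    rw [h6]
    exact dvd_pow_self _ hd
  · have h5 := c1 χ ψ hχ hψ
    rw [h2 ψ, if_neg hχψ, mul_zero] at h5
    have h6 : c χ ψ = 0 := by exact_mod_cast h5.symm
    rw [← h4, h6] at h3
    exact h3 (dvd_zero _)

/-- The forms of a block with a cyclic defect group. -/
theorem cyc_forms (hM : IsPModular p M) {B : Set (IrrCharacter G)} (hB : IsPBlock M B)
    {P : Subgroup G} (hP : IsDefectGroup p M B P) (hcyc : IsCyclic P) (hne : P ≠ ⊥) :
    ∃ (K : Type u) (_ : Fintype K) (h : K → K → G → ℂ) (N : K → K → ℤ),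
      (∀ k l, IsPr p B (h k l)) ∧ (∀ k l, classInner (h k l) (h k l) = N k l) ∧
      (∑ k, ∑ l, N k l ≤ 2 * ((Fintype.card K : ℤ) - 1) * Nat.card P) ∧
      ∀ A : (G → ℂ) →+ ℂ, (∃ Φ, IsPr p B Φ ∧ A Φ ≠ 0) → 2 ≤ Fintype.card K ∧
        2 * ((Fintype.card K : ℤ) - 1) ≤
          ∑ k, ∑ l, (open Classical in if A (h k l) ≠ 0 then (1 : ℤ) else 0) := by
  have hpr : M.IsPrime := hM.2.1.isPrime
  have hch : CharP (KF M) p := charP_KF hM
  obtain ⟨z, b, L, hcard⟩ := exists_CyL hM hB hP hcyc hne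
  obtain ⟨I, e, hIe, h1, h2, h3⟩ := L.exists_I hM
  have hL : Lat p B I e :=
    { gen := fun γ hγ => (h1 γ hγ).1
      out := fun γ hγ => (h1 γ hγ).2.1
      reg := fun γ hγ => (h1 γ hγ).2.2
      gram1 := fun γ hγ => (h2 γ hγ γ hγ).1 rfl
      gram2 := fun γ hγ γ' hγ' h => (h2 γ hγ γ' hγ').2 h
      van := h3 }
  have hPc : 1 < Nat.card P := by
    by_contra hc
    apply hne
    apply Subgroup.card_eq_one.mp
    have := Nat.card_pos (α := P)
    omega
  have hI : I.Nonempty := by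
    rw [Finset.nonempty_iff_ne_empty]
    rintro rfl
    rw [Finset.card_empty, mul_zero, zero_add, hcard] at hIe
    omega
  have hcd := H11.card_defect hM hB hP
  have hd : blockDefect p B ≠ 0 := by
    intro h0
    rw [h0, pow_zero] at hcd
    omega
  obtain ⟨K, hKf, h, N, g1, g2, g3, g4⟩ := hL.exists_forms hI
    (fun χ hχ => exists_sing_ne hM hB hd hχ)
  refine ⟨K, hKf, h, N, g1, g2, ?_, g4⟩
  have e1 : (1 + (e : ℤ) * I.card) = Nat.card P := by
    rw [← hcard, ← hIe]; push_cast; ring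
  rwa [e1] at g3

end Forms

section Lift

variable {C : Type u} [Group C] [Fintype C] {p : ℕ} [hp : Fact p.Prime] {M : Ideal AlgInt}
  {Z : Subgroup C} [hZn : Z.Normal]

theorem isPr_lf' [Fintype (C ⧸ Z)] (hM : IsPModular p M) (hZ : Z ≤ Subgroup.center C)
    (hZp : IsPGroup p Z) {b : Set (IrrCharacter C)} (hb : IsPBlock M b)
    {b' : Set (IrrCharacter (C ⧸ Z))} (hbb : ∀ η, η ∈ b' ↔ infl Z η ∈ b) {Ψ : C ⧸ Z → ℂ}
    (hΨ : IsPr p b' Ψ) : IsPr p b (lf p Z Ψ) := by
  classical
  have hpr := hM.2.1.isPrime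
  have := Fintype.ofFinite (IrrCharacter (C ⧸ Z))
  obtain ⟨k, hk⟩ := exists_isPE p C
  have hcl : IsClassFunction C (lf p Z Ψ) := by
    intro g h
    have h1 : orderOf (h * g * h⁻¹) = orderOf g := by
      have := MulEquiv.orderOf_eq (MulAut.conj h) g
      rwa [MulAut.conj_apply] at this
    unfold lf
    rw [h1]
    split_ifs
    · rfl
    · congr 1
      exact (isGen_classFun hΨ.1) (QuotientGroup.mk g) (QuotientGroup.mk h)
  refine ⟨isGen_iff.mpr ⟨hcl, ?_⟩, ?_, ?_⟩
  · intro ξ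
    obtain ⟨n, hn⟩ := classInner_gen_int (isGen_dn hk hZ hZp (irr_isChar ξ.2)) hΨ.1
    refine ⟨n, ?_⟩
    rw [← classInner_conj_symm, inner_lf hk hZ hZp _ hΨ.2.1, hn, map_intCast]
  · intro g hg
    unfold lf
    rw [if_pos hg]
  · intro ξ hξ
    have h1 : lf p Z Ψ = fun y => ∑ η : IrrCharacter (C ⧸ Z) with η ∈ b',
        ((Nat.card Z : ℂ) * classInner Ψ (η : C ⧸ Z → ℂ)) *
          pRegularPart p (infl Z η : C → ℂ) y := by
      funext y
      unfold lf
      by_cases hy : p ∣ orderOf y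
      · rw [if_pos hy]
        simp only [pr_sing hy, mul_zero, Finset.sum_const_zero]
      · rw [if_neg hy]
        have h2 := congrFun hΨ.eq_sum (QuotientGroup.mk y)
        rw [h2, Finset.sum_apply, Finset.mul_sum]
        apply Finset.sum_congr rfl
        intro η _
        rw [pr_reg hy, infl_apply, Pi.smul_apply, smul_eq_mul]; ring
    have h3 : lf p Z Ψ = ∑ η : IrrCharacter (C ⧸ Z) with η ∈ b',
        ((Nat.card Z : ℂ) * classInner Ψ (η : C ⧸ Z → ℂ)) •
          pRegularPart p (infl Z η : C → ℂ) := by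
      rw [h1]; funext y; rw [Finset.sum_apply]; rfl
    rw [h3, classInner_sum_left]
    apply Finset.sum_eq_zero
    intro η hη
    have hη' := (hbb η).mp (Finset.mem_filter.mp hη).2
    rw [classInner_smul_left]
    have h4 := mm_eq_zero (p := p) hM (χ := infl Z η) (ψ := ξ) (fun hs => hξ (by
      have h5 : b = blockOf M (infl Z η : C → ℂ) :=
        isPBlock_eq_blockOf hb hη'
      rw [h5]; exact hs))
    unfold mm at h4
    rw [h4, mul_zero]

end Lift

section Core

variable {G : Type u} [Group G] [Fintype G] {p : ℕ} [hp : Fact p.Prime] {M : Ideal AlgInt}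

theorem maj_core (hM : IsPModular p M) {B : Set (IrrCharacter G)} (hB : IsPBlock M B) {x : G}
    (hx : ∃ k : ℕ, orderOf x = p ^ k)
    {C : Subgroup G} [Fintype C] (hC : C = Subgroup.centralizer ({x} : Set G))
    {b : Set (IrrCharacter C)} (hind : IsInducedBlock M C b B)
    (hd : blockDefect p b = blockDefect p B)
    {Z : Subgroup C} [Z.Normal] (hZ : Z ≤ Subgroup.center C) (hZp : IsPGroup p Z)
    [Fintype (C ⧸ Z)] {b' : Set (IrrCharacter (C ⧸ Z))} (hb' : IsPBlock M b')
    (hbb : ∀ η, η ∈ b' ↔ infl Z η ∈ b)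
    {K : Type u} [Fintype K] (h : K → K → (C ⧸ Z) → ℂ) (N : K → K → ℤ) (D : ℤ)
    (g1 : ∀ k l, IsPr p b' (h k l)) (g2 : ∀ k l, classInner (h k l) (h k l) = N k l)
    (g3 : ∑ k, ∑ l, N k l ≤ 2 * ((Fintype.card K : ℤ) - 1) * D)
    (g4 : ∀ A : ((C ⧸ Z) → ℂ) →+ ℂ, (∃ Φ, IsPr p b' Φ ∧ A Φ ≠ 0) → 2 ≤ Fintype.card K ∧
        2 * ((Fintype.card K : ℤ) - 1) ≤
          ∑ k, ∑ l, (open Classical in if A (h k l) ≠ 0 then (1 : ℤ) else 0)) :
    (Nat.card B : ℤ) ≤ Nat.card Z * D := by
  classical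
  have := Fintype.ofFinite (IrrCharacter G)
  have hpr := hM.2.1.isPrime
  obtain ⟨k, hk⟩ := exists_isPE p C
  set S : Finset (IrrCharacter G) := univ.filter (fun χ => χ ∈ B) with hS
  have hSc : Nat.card B = S.card := by
    rw [Nat.card_eq_fintype_card, Fintype.card_subtype]
  rw [hSc]
  have hlfadd : ∀ Φ Ψ : (C ⧸ Z) → ℂ, lf p Z (Φ + Ψ) = lf p Z Φ + lf p Z Ψ := by
    intro Φ Ψ
    funext y
    rw [Pi.add_apply]
    unfold lf
    by_cases hy : p ∣ orderOf y
    · rw [if_pos hy, if_pos hy, if_pos hy, add_zero]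
    · rw [if_neg hy, if_neg hy, if_neg hy, Pi.add_apply]; ring
  have hlf0 : lf p Z (0 : (C ⧸ Z) → ℂ) = 0 := by
    funext y
    unfold lf
    by_cases hy : p ∣ orderOf y
    · rw [if_pos hy]; rfl
    · rw [if_neg hy]; simp
  let A : IrrCharacter G → (((C ⧸ Z) → ℂ) →+ ℂ) := fun χ =>
    { toFun := fun Φ => ac C x (χ : G → ℂ) (lf p Z Φ)
      map_zero' := by
        rw [hlf0]
        unfold ac
        exact classInner_zero_right _
      map_add' := fun Φ Ψ => by
        rw [hlfadd]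
        unfold ac
        exact classInner_add_right _ _ _ }
  have hlfPr : ∀ {Φ : (C ⧸ Z) → ℂ}, IsPr p b' Φ → IsPr p b (lf p Z Φ) := fun hΦ =>
    isPr_lf' hM hZ hZp hind.1 hbb hΦ
  -- upper bound
  have hup : ∀ i j, ∑ χ ∈ S, (if A χ (h i j) ≠ 0 then (1 : ℤ) else 0) ≤ Nat.card Z * N i j := by
    intro i j
    have h1 : classInner (lf p Z (h i j)) (lf p Z (h i j)) =
        ((Nat.card Z * N i j : ℤ) : ℂ) := by
      rw [norm_lf hk hZ hZp _ (g1 i j).2.1, g2]
      push_cast; rfl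
    have h2 := card_ac_le0 hM hB hx hC hind (hlfPr (g1 i j)) h1
      (S.filter (fun χ : IrrCharacter G => A χ (h i j) ≠ 0))
      (fun χ h => (Finset.mem_filter.mp (Finset.mem_filter.mp h).1).2)
      (fun χ h => (Finset.mem_filter.mp h).2)
    rw [Finset.card_filter] at h2
    push_cast at h2
    exact h2
  -- non-vanishing
  have hnv : ∀ χ ∈ S, ∃ Φ, IsPr p b' Φ ∧ A χ Φ ≠ 0 := by
    intro χ hχ
    have hχB := (Finset.mem_filter.mp hχ).2
    by_contra hcon
    push Not at hcon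
    set f : C → ℂ := pRegularPart p (ct C x b (χ : G → ℂ)) with hf
    have hfsing : ∀ y, p ∣ orderOf y → f y = 0 := fun y hy => pr_sing hy
    have hfcl : IsClassFunction C f := by
      intro y z
      have h1 : orderOf (z * y * z⁻¹) = orderOf y := orderOf_conj' _ _
      by_cases hy : p ∣ orderOf y
      · rw [hfsing y hy, hfsing _ (h1 ▸ hy)]
      · rw [hf, pr_reg hy, pr_reg (h1 ▸ hy)]
        exact ct_classFun x (χ : G → ℂ) _ _
    have hFcl : IsClassFunction (C ⧸ Z) (pRegularPart p (dn k Z f)) := by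
      intro s t
      have h1 : orderOf (t * s * t⁻¹) = orderOf s := orderOf_conj' _ _
      by_cases hs : p ∣ orderOf s
      · rw [pr_sing hs, pr_sing (h1 ▸ hs)]
      · rw [pr_reg hs, pr_reg (h1 ▸ hs)]
        exact dn_classFun hk hZ hZp hfcl _ _
    have hF0 : pRegularPart p (dn k Z f) = 0 := by
      apply classFun_ext_inner hFcl classFun_zero
      intro η
      rw [classInner_zero_left]
      by_cases hη : η ∈ b'
      · have h1 := hcon _ (isPr_reg hM hb' hη)
        change ac C x (χ : G → ℂ) (lf p Z (((p : ℂ) ^ blockDefect p b') •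
          pRegularPart p (η : C ⧸ Z → ℂ))) = 0 at h1
        rw [ac_ct x (χ : G → ℂ) (hlfPr (isPr_reg hM hb' hη)), ← hf,
          inner_lf hk hZ hZp f (isPr_reg hM hb' hη).2.1, classInner_smul_right] at h1
        have hp0 : conj ((p : ℂ) ^ blockDefect p b') ≠ 0 := by
          rw [map_pow, Complex.conj_natCast]
          exact pow_ne_zero _ (by exact_mod_cast hp.out.ne_zero)
        rcases mul_eq_zero.mp h1 with h2 | h2
        · exact absurd h2 hp0
        · rw [classInner_pr_comm]; exact h2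
      · rw [← inner_infl hk hZ hZp f hfsing η]
        have h1 : classInner f (infl Z η : C → ℂ) = 0 := by
          have h2 : infl Z η ∉ b := fun h => hη ((hbb η).mpr h)
          have := Fintype.ofFinite (IrrCharacter C)
          rw [hf, ct_eq_sum, pr_sum, classInner_sum_left]
          apply Finset.sum_eq_zero
          intro θ hθ
          have hθ' := (Finset.mem_filter.mp hθ).2
          rw [pr_smul, classInner_smul_left]
          have h4 := mm_eq_zero (p := p) hM (χ := θ) (ψ := infl Z η) (fun hs => h2 (by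
            have h5 : b = blockOf M (θ : C → ℂ) :=
              isPBlock_eq_blockOf hind.1 hθ'
            rw [h5]; exact hs))
          unfold mm at h4
          rw [h4, mul_zero]
        rw [h1, mul_zero]
    -- contradiction
    apply cn_self_ne_zero hM hx hC hB hind hd hχB
    have hf0 : f = 0 := by
      funext y
      by_cases hy : p ∣ orderOf y
      · exact hfsing y hy
      · have h2 := congrFun hF0 (QuotientGroup.mk y)
        rw [pr_reg (reg_map hy)] at h2
        unfold dn at h2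
        rw [rl_mk hk hZ hZp hy] at h2
        exact h2
    unfold cn
    rw [← hf, hf0, classInner_zero_left]
  have hS0 : S.Nonempty := by
    obtain ⟨χ, hχ⟩ := hB
    exact ⟨χ, Finset.mem_filter.mpr ⟨Finset.mem_univ _, by rw [hχ]; exact mem_blockOf_self χ⟩⟩
  have hlow : ∀ χ ∈ S, 2 * ((Fintype.card K : ℤ) - 1) ≤
      ∑ i, ∑ j, if A χ (h i j) ≠ 0 then (1 : ℤ) else 0 := by
    intro χ hχ
    refine (g4 (A χ) (hnv χ hχ)).2.trans (le_of_eq ?_)
    apply Finset.sum_congr rfl
    intro i _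
    apply Finset.sum_congr rfl
    intro j _
    by_cases hc : A χ (h i j) ≠ 0
    · rw [if_pos hc]
    · rw [if_neg hc]
  have hK2 : 2 ≤ Fintype.card K := by
    obtain ⟨χ, hχ⟩ := hS0
    exact (g4 (A χ) (hnv χ hχ)).1
  have h1 : (S.card : ℤ) * (2 * ((Fintype.card K : ℤ) - 1)) ≤
      ∑ i, ∑ j, (Nat.card Z * N i j : ℤ) := by
    calc (S.card : ℤ) * (2 * ((Fintype.card K : ℤ) - 1))
        = ∑ χ ∈ S, (2 * ((Fintype.card K : ℤ) - 1)) := by
          rw [Finset.sum_const, nsmul_eq_mul]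
      _ ≤ ∑ χ ∈ S, ∑ i, ∑ j, (if A χ (h i j) ≠ 0 then (1 : ℤ) else 0) := Finset.sum_le_sum hlow
      _ = ∑ i, ∑ j, ∑ χ ∈ S, (if A χ (h i j) ≠ 0 then (1 : ℤ) else 0) := by
          rw [Finset.sum_comm]
          apply Finset.sum_congr rfl
          intro i _
          rw [Finset.sum_comm]
      _ ≤ _ := Finset.sum_le_sum fun i _ => Finset.sum_le_sum fun j _ => hup i j
  have h2 : ∑ i, ∑ j, (Nat.card Z * N i j : ℤ) = Nat.card Z * ∑ i, ∑ j, N i j := by
    rw [Finset.mul_sum]
    apply Finset.sum_congr rfl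
    intro i _
    rw [Finset.mul_sum]
  rw [h2] at h1
  have h3 : (0 : ℤ) ≤ Nat.card Z := by positivity
  have h4 : (Nat.card Z : ℤ) * ∑ i, ∑ j, N i j ≤
      Nat.card Z * (2 * ((Fintype.card K : ℤ) - 1) * D) := mul_le_mul_of_nonneg_left g3 h3
  have h5 : (0 : ℤ) < 2 * ((Fintype.card K : ℤ) - 1) := by
    have : (2 : ℤ) ≤ Fintype.card K := by exact_mod_cast hK2
    linarith
  have h6 : (2 * ((Fintype.card K : ℤ) - 1)) * (S.card : ℤ) ≤
      (2 * ((Fintype.card K : ℤ) - 1)) * (Nat.card Z * D) := by linarith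
  exact le_of_mul_le_mul_left h6 h5

end Core

end Cfsg.Agent.H26
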