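import Mathlib
import Cfsg.Agent.H26.Cy10
import Cfsg.Agent.H26.Cor3
import Cfsg.Agent.H26.BFeit
import Cfsg.Agent.H26.Coef3
import Cfsg.Agent.H26.InfBlk4

set_option autoImplicit false

/-!
# Bounds for the number of characters in a block
-/

namespace Cfsg.Agent.H26

open Cfsg Cfsg.Agent.H3 Cfsg.Agent.H11 Cfsg.Agent.H27 Finset
open scoped ComplexConjugate

universe u

section Dom

variable {C : Type u} [Group C] {p : ℕ} [hp : Fact p.Prime] {M : Ideal AlgInt}

theorem centr_index {Z : Subgroup C} (hZ : Z ≤ Subgroup.center C) :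
    ∃ k : ℕ, (Subgroup.centralizer (Z : Set C)).index = p ^ k := by
  refine ⟨0, ?_⟩
  have : Subgroup.centralizer (Z : Set C) = ⊤ := by
    rw [Subgroup.centralizer_eq_top_iff_subset]; exact hZ
  rw [this, Subgroup.index_top, pow_zero]

variable [Finite C]

theorem exists_dom (hM : IsPModular p M) {b : Set (IrrCharacter C)} (hb : IsPBlock M b)
    {P : Subgroup C} (hP : IsDefectGroup p M b P) {Z : Subgroup C} [Z.Normal]
    (hZ : Z ≤ Subgroup.center C) (hZp : IsPGroup p Z) :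
    ∃ b' : Set (IrrCharacter (C ⧸ Z)), IsPBlock M b' ∧ (∀ η, η ∈ b' ↔ infl Z η ∈ b) ∧
      IsDefectGroup p M b' (P.map (QuotientGroup.mk' Z)) ∧ blockRank p b = blockRank p b' := by
  have hfC : Fintype C := Fintype.ofFinite _
  have hfQ : Fintype (C ⧸ Z) := Fintype.ofFinite _
  obtain ⟨b', hb', hsub, hdef⟩ := st4434 p M hM Z hZp b hb
  have hbb : ∀ η, η ∈ b' ↔ infl Z η ∈ b := by
    intro η
    constructor
    · intro h; exact hsub η h _ rfl
    · intro h
      have hpr := hM.2.1.isPrime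
      obtain ⟨η₀, h0⟩ := exists_mem_block hb'
      have h1 := hsub η₀ h0 (infl Z η₀) rfl
      rw [isPBlock_eq_blockOf hb' h0]
      show SameBlock M _ _
      rw [sameBlock_infl_iff hM hZp (centr_index hZ)]
      have h2 := isPBlock_eq_blockOf hb h1
      rw [h2] at h
      exact h
  exact ⟨b', hb', hbb, (hdef _).mpr ⟨P, hP, rfl⟩, blockRank_infl hM hZp (centr_index hZ) hb hbb⟩

theorem rank_le_card {b : Set (IrrCharacter C)} : blockRank p b ≤ Nat.card b := by
  classical
  have := Fintype.ofFinite (IrrCharacter C)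
  unfold blockRank
  refine (finrank_span_le_card (R := ℂ)
    ((fun χ : IrrCharacter C => pRegularPart p (χ : C → ℂ)) '' b)).trans ?_
  rw [← Nat.card_eq_card_toFinset]
  exact Nat.card_image_le (Set.toFinite b)

end Dom

section Step

variable {G : Type u} [Group G] [Fintype G] {p : ℕ} [hp : Fact p.Prime] {M : Ideal AlgInt}

theorem exists_maj (hMp : IsPModular p M) {B : Set (IrrCharacter G)} (hB : IsPBlock M B)
    {P : Subgroup G} (hP : IsDefectGroup p M B P) {z : G} (hzP : z ∈ P)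
    (hzc : ∀ y ∈ P, y * z = z * y) (C : Subgroup G)
    (hC : C = Subgroup.centralizer ({z} : Set G)) :
    ∃ b : Set (IrrCharacter C), IsInducedBlock M C b B ∧
      blockDefect p b = blockDefect p B ∧ P ≤ C ∧ IsDefectGroup p M b (P.subgroupOf C) := by
  classical
  have hM : M.IsPrime := hMp.2.1.isPrime
  have hch : CharP (KF M) p := charP_KF hMp
  have hD := (isDefectGroup_iff_EG hB).mp hP
  have hPp : IsPGroup p P := hD.2.1
  obtain ⟨e, he⟩ := hD.exists_inB (isBlk_EG hB)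
  have hm := he.maxB_of_isDef hD
  have hzp : ∃ k : ℕ, orderOf z = p ^ k := by
    obtain ⟨k, hk⟩ := IsPGroup.iff_orderOf.mp hPp ⟨z, hzP⟩
    exact ⟨k, by rwa [Subgroup.orderOf_mk] at hk⟩
  have hzle : Subgroup.zpowers z ≤ P := by rwa [Subgroup.zpowers_le]
  have hPC : P ≤ cz (Subgroup.zpowers z) := by
    intro x hx
    rw [mem_cz_zpowers]
    exact hzc x hx
  obtain ⟨f, hf⟩ := exists_ple he.2.1 (Subgroup.zpowers z) hzle
  have hfI : InB p (EG M B) (Subgroup.zpowers z) f := he.of_ple' hf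
  obtain ⟨b, hb, rfl⟩ := exists_EH hfI.2.1.2
  have hdef : IsDef p (cz (Subgroup.zpowers z)) (EH M (cz (Subgroup.zpowers z)) b) P :=
    hm.isDef_mid hf le_rfl (cz_le_stab hfI.2.1.2) hPC
  have hdefC : IsDefectGroup p M b (P.subgroupOf (cz (Subgroup.zpowers z))) :=
    (isDefectGroup_iff_EH hb hPC).mpr hdef
  have hind : IsInducedBlock M (cz (Subgroup.zpowers z)) b B :=
    (isInducedBlock_cz_iff (isPGroup_zpowers hzp)).mpr ⟨hb, hB, hfI⟩
  have hfC : Fintype (cz (Subgroup.zpowers z)) := Fintype.ofFinite _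
  have hbd : blockDefect p b = blockDefect p B := by
    have h1 := H11.card_defect hMp hb hdefC
    have h2 := H11.card_defect hMp hB hP
    have h3 : Nat.card (P.subgroupOf (cz (Subgroup.zpowers z))) = Nat.card P :=
      Nat.card_congr (Subgroup.subgroupOfEquivOfLe hPC).toEquiv
    rw [h3, h2] at h1
    exact (Nat.pow_right_injective hp.out.two_le h1).symm
  have key : ∀ C : Subgroup G, C = cz (Subgroup.zpowers z) →
      ∃ b : Set (IrrCharacter C), IsInducedBlock M C b B ∧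
      blockDefect p b = blockDefect p B ∧ P ≤ C ∧ IsDefectGroup p M b (P.subgroupOf C) := by
    rintro C rfl
    exact ⟨b, hind, hbd, hPC, hdefC⟩
  exact key C (hC.trans (centralizer_zpowers z).symm)

/-- The quotient step. -/
theorem exists_step (hM : IsPModular p M) {B : Set (IrrCharacter G)} (hB : IsPBlock M B)
    {P : Subgroup G} (hP : IsDefectGroup p M B P) {z : G} (hzP : z ∈ P)
    (hzc : ∀ y ∈ P, y * z = z * y) :
    ∃ (C : Subgroup G) (b : Set (IrrCharacter C)) (Z : Subgroup C) (_ : Z.Normal)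
      (b' : Set (IrrCharacter (C ⧸ Z))) (P' : Subgroup (C ⧸ Z)) (f : P →* P'),
      C = Subgroup.centralizer ({z} : Set G) ∧ IsInducedBlock M C b B ∧
      blockDefect p b = blockDefect p B ∧ Z ≤ Subgroup.center C ∧ IsPGroup p Z ∧
      Nat.card Z = orderOf z ∧
      IsPBlock M b' ∧ (∀ η, η ∈ b' ↔ infl Z η ∈ b) ∧ blockRank p b = blockRank p b' ∧
      IsDefectGroup p M b' P' ∧ Function.Surjective f ∧
      f.ker = Subgroup.zpowers ⟨z, hzP⟩ ∧ Nat.card P = Nat.card Z * Nat.card P' := by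
  classical
  obtain ⟨C, hC⟩ : ∃ C, C = Subgroup.centralizer ({z} : Set G) := ⟨_, rfl⟩
  obtain ⟨b, hind, hbd, hPC, hdefC⟩ := exists_maj hM hB hP hzP hzc C hC
  have hpr := hM.2.1.isPrime
  have hch : CharP (KF M) p := charP_KF hM
  have hPp : IsPGroup p P := ((isDefectGroup_iff_EG hB).mp hP).2.1
  have hzC : z ∈ C := hPC hzP
  have hZc : Subgroup.zpowers (⟨z, hzC⟩ : C) ≤ Subgroup.center C := by
    rw [Subgroup.zpowers_le, Subgroup.mem_center_iff]
    intro c
    have hc : (c : G) ∈ Subgroup.centralizer ({z} : Set G) := hC ▸ c.2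
    rw [Subgroup.mem_centralizer_singleton_iff] at hc
    exact Subtype.ext hc
  obtain ⟨Z, hZ⟩ : ∃ Z, Z = Subgroup.zpowers (⟨z, hzC⟩ : C) := ⟨_, rfl⟩
  rw [← hZ] at hZc
  have hZn : Z.Normal := ⟨fun n hn g => by
    have h1 := Subgroup.mem_center_iff.mp (hZc hn) g
    rw [h1, mul_assoc, mul_inv_cancel, mul_one]; exact hn⟩
  have hZcard : Nat.card Z = orderOf z := by
    rw [hZ, Nat.card_zpowers, Subgroup.orderOf_mk]
  have hZp : IsPGroup p Z := by
    obtain ⟨k, hk⟩ := IsPGroup.iff_orderOf.mp hPp ⟨z, hzP⟩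
    rw [Subgroup.orderOf_mk] at hk
    exact IsPGroup.of_card (hZcard.trans hk)
  obtain ⟨b', hb', hbb, hdef', hrk⟩ := exists_dom hM hind.1 hdefC hZc hZp
  obtain ⟨P', hP'⟩ : ∃ P', P' = (P.subgroupOf C).map (QuotientGroup.mk' Z) := ⟨_, rfl⟩
  rw [← hP'] at hdef'
  have hmem : ∀ y : P, (QuotientGroup.mk' Z) ⟨y, hPC y.2⟩ ∈ P' := by
    intro y
    rw [hP']
    exact ⟨⟨y, hPC y.2⟩, y.2, rfl⟩
  let f : P →* P' :=
    { toFun := fun y => ⟨(QuotientGroup.mk' Z) ⟨y, hPC y.2⟩, hmem y⟩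
      map_one' := rfl
      map_mul' := fun _ _ => rfl }
  have hsurj : Function.Surjective f := by
    rintro ⟨t, ht⟩
    rw [hP'] at ht
    obtain ⟨c, hc, rfl⟩ := ht
    exact ⟨⟨c, hc⟩, rfl⟩
  have hker : f.ker = Subgroup.zpowers ⟨z, hzP⟩ := by
    ext y
    rw [MonoidHom.mem_ker]
    have h1 : f y = 1 ↔ (⟨y, hPC y.2⟩ : C) ∈ Z := by
      rw [← QuotientGroup.eq_one_iff]
      exact Subtype.ext_iff
    rw [h1, hZ, Subgroup.mem_zpowers_iff, Subgroup.mem_zpowers_iff]
    constructor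
    · rintro ⟨k, hk⟩
      exact ⟨k, Subtype.ext (by have := congrArg Subtype.val hk; simpa using this)⟩
    · rintro ⟨k, hk⟩
      exact ⟨k, Subtype.ext (by have := congrArg Subtype.val hk; simpa using this)⟩
  refine ⟨C, b, Z, hZn, b', P', f, hC, hind, hbd, hZc, hZp, hZcard, hb', hbb, hrk, hdef', hsurj,
    hker, ?_⟩
  have h1 := Subgroup.card_mul_index f.ker
  rw [Subgroup.index_ker, MonoidHom.range_eq_top.mpr hsurj, Subgroup.card_top, hker,
    Nat.card_zpowers, Subgroup.orderOf_mk] at h1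
  rw [← h1, hZcard]

end Step

end Cfsg.Agent.H26
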