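import Mathlib
import Cfsg.Agent.H26.Cy11

set_option autoImplicit false

/-!
# Bounds for the number of characters in a block, II
-/

namespace Cfsg.Agent.H26

open Cfsg Cfsg.Agent.H3 Cfsg.Agent.H11 Cfsg.Agent.H27 Finset
open scoped ComplexConjugate

universe u

section Main

variable {G : Type u} [Group G] [Fintype G] {p : ℕ} [hp : Fact p.Prime] {M : Ideal AlgInt}

/-- If `D / ⟨x⟩` is cyclic for some central `x` of the defect group `D`, then `k(B) ≤ |D|`. -/
theorem card_le_of_cyc_quot (hM : IsPModular p M) {B : Set (IrrCharacter G)} (hB : IsPBlock M B)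
    {P : Subgroup G} (hP : IsDefectGroup p M B P) {z : G} (hzP : z ∈ P)
    (hzc : ∀ y ∈ P, y * z = z * y)
    (hcyc : ∀ (P' : Type u) [Group P'] (f : P →* P'), Function.Surjective f →
      f.ker = Subgroup.zpowers ⟨z, hzP⟩ → IsCyclic P') :
    Nat.card B ≤ Nat.card P := by
  classical
  have hpr := hM.2.1.isPrime
  have hch : CharP (KF M) p := charP_KF hM
  have hPp : IsPGroup p P := ((isDefectGroup_iff_EG hB).mp hP).2.1
  have hzp : ∃ k : ℕ, orderOf z = p ^ k := by
    obtain ⟨k, hk⟩ := IsPGroup.iff_orderOf.mp hPp ⟨z, hzP⟩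
    exact ⟨k, by rwa [Subgroup.orderOf_mk] at hk⟩
  obtain ⟨C, b, Z, hZn, b', P', f, hC, hind, hbd, hZc, hZp, hZcard, hb', hbb, hrk, hdef', hsurj,
    hker, hcard⟩ := exists_step hM hB hP hzP hzc
  have hfC : Fintype C := Fintype.ofFinite _
  have hfQ : Fintype (C ⧸ Z) := Fintype.ofFinite _
  have hc' : IsCyclic P' := hcyc P' f hsurj hker
  have hcd := H11.card_defect hM hB hP
  by_cases hP'1 : P' = ⊥
  · have h1 : blockRank p b' = 1 := by
      apply st4669 p M hM b' hb' P' hdef'
      rw [hP'1]; exact bot_le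
    have h2 := card_le_rank hM hB hzp hC hind hbd
    rw [hrk, h1, Nat.cast_one, mul_one] at h2
    rw [hcd]
    exact_mod_cast h2
  · obtain ⟨K, hK, h, N, g1, g2, g3, g4⟩ := cyc_forms hM hb' hdef' hc' hP'1
    have h3 := maj_core hM hB hzp hC hind hbd hZc hZp hb' hbb h N (Nat.card P') g1 g2 g3 g4
    rw [hcard]
    exact_mod_cast h3

theorem defect_of_card (hM : IsPModular p M) {B : Set (IrrCharacter G)} (hB : IsPBlock M B)
    {P : Subgroup G} (hP : IsDefectGroup p M B P) {n : ℕ} (h : Nat.card P = p ^ n) :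
    blockDefect p B = n := by
  rw [H11.card_defect hM hB hP] at h
  exact Nat.pow_right_injective hp.out.two_le h

/-- a central element of a nontrivial `p`-subgroup, of order `p` -/
theorem exists_central_order_p {P : Subgroup G} (hPp : IsPGroup p P) (hne : P ≠ ⊥) :
    ∃ z ∈ P, orderOf z = p ∧ ∀ y ∈ P, y * z = z * y := by
  classical
  have hnt : Nontrivial P := (Subgroup.nontrivial_iff_ne_bot P).mpr hne
  have h1 := hPp.center_nontrivial
  have h2 : IsPGroup p (Subgroup.center P) := hPp.to_subgroup _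
  obtain ⟨n, hn⟩ := IsPGroup.iff_card.mp h2
  have h3 : p ∣ Nat.card (Subgroup.center P) := by
    rcases Nat.eq_zero_or_pos n with h0 | h0
    · exfalso
      rw [h0, pow_zero] at hn
      exact (Finite.one_lt_card (α := Subgroup.center P)).ne' hn
    · rw [hn]; exact dvd_pow_self p h0.ne'
  obtain ⟨⟨⟨z, hzP⟩, hzc⟩, hzo⟩ := exists_prime_orderOf_dvd_card' p h3
  refine ⟨z, hzP, ?_, ?_⟩
  · rwa [Subgroup.orderOf_mk, Subgroup.orderOf_mk] at hzo
  · intro y hy
    have := Subgroup.mem_center_iff.mp hzc ⟨y, hy⟩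
    exact congrArg Subtype.val this

/-- small defect -/
theorem card_le_of_defect_le_two (hM : IsPModular p M) {B : Set (IrrCharacter G)}
    (hB : IsPBlock M B) (hd : blockDefect p B ≤ 2) : Nat.card B ≤ p ^ blockDefect p B := by
  classical
  have hpr := hM.2.1.isPrime
  have hch : CharP (KF M) p := charP_KF hM
  obtain ⟨P, hP⟩ := exists_isDefectGroup hM hB
  have hPp : IsPGroup p P := ((isDefectGroup_iff_EG hB).mp hP).2.1
  have hcd := H11.card_defect hM hB hP
  rw [← hcd]
  by_cases hne : P = ⊥
  · apply card_le_of_cyc_quot hM hB hP (one_mem P) (fun y _ => by rw [mul_one, one_mul])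
    intro P' _ f hf _
    have h1 : Subsingleton P' := by
      have : Subsingleton P := by rw [hne]; infer_instance
      exact hf.subsingleton
    infer_instance
  · obtain ⟨z, hzP, hzo, hzc⟩ := exists_central_order_p hPp hne
    apply card_le_of_cyc_quot hM hB hP hzP hzc
    intro P' _ f hf hker
    have h1 := Subgroup.card_mul_index f.ker
    rw [Subgroup.index_ker, MonoidHom.range_eq_top.mpr hf, Subgroup.card_top, hker,
      Nat.card_zpowers, Subgroup.orderOf_mk, hzo, hcd] at h1
    have h2 : p * Nat.card P' ∣ p ^ 2 := h1 ▸ pow_dvd_pow p hd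
    rw [pow_two] at h2
    have h3 := (Nat.mul_dvd_mul_iff_left hp.out.pos).mp h2
    rcases (Nat.dvd_prime hp.out).mp h3 with h4 | h4
    · have h5 : Subsingleton P' := (Nat.card_eq_one_iff_unique.mp h4).1
      infer_instance
    · exact isCyclic_of_prime_card h4

end Main

/-- **S4698** -/
theorem st4698 (p : ℕ) [hp : Fact p.Prime] (M : Ideal AlgInt) (hM : IsPModular p M) (d : ℕ) :
    ∀ (G : Type u) [Group G] [Fintype G] (B : Set (IrrCharacter G)), IsPBlock M B →
      blockDefect p B = d → (d ≤ 2 → Nat.card B ≤ p ^ d) ∧ (3 ≤ d → Nat.card B ≤ p ^ (2 * d - 2)) := by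
  induction d with
  | zero =>
    intro G _ _ B hB hd
    refine ⟨fun _ => ?_, fun h => absurd h (by norm_num)⟩
    have := card_le_of_defect_le_two hM hB (by omega)
    rwa [hd] at this
  | succ d ih =>
    intro G _ _ B hB hd
    refine ⟨fun h => ?_, fun h => ?_⟩
    · have := card_le_of_defect_le_two hM hB (by omega)
      rwa [hd] at this
    classical
    have hpr := hM.2.1.isPrime
    have hch : CharP (KF M) p := charP_KF hM
    by_cases hh : ∃ χ ∈ B, 0 < blockHeight p B (χ : G → ℂ)
    · have := (st4710 hM B hB (d + 1) hd).1 hh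
      omega
    · have hh' : ∀ χ ∈ B, blockHeight p B (χ : G → ℂ) = 0 := by
        intro χ hχ
        by_contra hc
        exact hh ⟨χ, hχ, Nat.pos_of_ne_zero hc⟩
      obtain ⟨P, hP⟩ := exists_isDefectGroup hM hB
      have hPp : IsPGroup p P := ((isDefectGroup_iff_EG hB).mp hP).2.1
      have hcd := H11.card_defect hM hB hP
      have hne : P ≠ ⊥ := by
        rintro rfl
        rw [Subgroup.card_bot, hd] at hcd
        have := Nat.pow_right_injective hp.out.two_le (show p ^ 0 = p ^ (d + 1) by rw [pow_zero]; exact hcd)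
        omega
      obtain ⟨z, hzP, hzo, hzc⟩ := exists_central_order_p hPp hne
      have hzp : ∃ k : ℕ, orderOf z = p ^ k := ⟨1, by rw [hzo, pow_one]⟩
      obtain ⟨C, b, Z, hZn, b', P', f, hC, hind, hbd, hZc, hZp, hZcard, hb', hbb, hrk, hdef',
        hsurj, hker, hcard⟩ := exists_step hM hB hP hzP hzc
      have hfC : Fintype C := Fintype.ofFinite _
      have hfQ : Fintype (C ⧸ Z) := Fintype.ofFinite _
      have h1 : Nat.card P' = p ^ d := by
        rw [hcd, hZcard, hzo, hd, pow_succ'] at hcard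
        exact (Nat.eq_of_mul_eq_mul_left hp.out.pos hcard).symm
      have h2 := defect_of_card hM hb' hdef' h1
      have h3 := ih (C ⧸ Z) b' hb' h2
      have h4 : Nat.card b' ≤ p ^ (2 * d - 2) := by
        rcases (show d = 2 ∨ 3 ≤ d by omega) with h5 | h5
        · subst h5
          exact h3.1 le_rfl
        · exact h3.2 h5
      have h5 := st4716 hM B hB (d + 1) hh' z hzp C hC b hind (hbd.trans hd)
      have h6 : blockRank p b ≤ p ^ (2 * d - 2) := by
        rw [hrk]; exact (rank_le_card).trans h4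
      have h7 : Nat.card B ^ 2 ≤ (p ^ (2 * (d + 1) - 2)) ^ 2 := by
        refine h5.trans ((Nat.mul_le_mul_left _ h6).trans (le_of_eq ?_))
        rw [← pow_add, ← pow_mul]
        congr 1
        omega
      exact (Nat.pow_le_pow_iff_left two_ne_zero).mp h7

end Cfsg.Agent.H26
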