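import Mathlib
import Cfsg.Agent.H26.Cy12

set_option autoImplicit false

/-!
# Abelian defect groups of rank two or three
-/

namespace Cfsg.Agent.H26

open Cfsg Cfsg.Agent.H3 Cfsg.Agent.H11 Cfsg.Agent.H27 Finset
open scoped ComplexConjugate

universe u

section Grp

variable {P : Type u} [Group P]

theorem closure_insert_one' {S : Set P} : Subgroup.closure (insert 1 S) = Subgroup.closure S := by
  apply le_antisymm
  · rw [Subgroup.closure_le]
    rintro x (rfl | hx)
    · exact one_mem _
    · exact Subgroup.subset_closure hx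
  · exact Subgroup.closure_mono (Set.subset_insert _ _)

theorem closure_map_surj {P' : Type u} [Group P'] {f : P →* P'} (hf : Function.Surjective f)
    {S : Set P} (h : Subgroup.closure S = ⊤) : Subgroup.closure (f '' S) = ⊤ := by
  rw [← MonoidHom.map_closure, h, ← MonoidHom.range_eq_map, MonoidHom.range_eq_top.mpr hf]

theorem cyc_of_pair {P' : Type u} [Group P'] {f : P →* P'} (hf : Function.Surjective f)
    {x y : P} (h : Subgroup.closure {x, y} = (⊤ : Subgroup P)) (hx : f x = 1) : IsCyclic P' := by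
  have h1 := closure_map_surj hf h
  rw [Set.image_pair, hx, closure_insert_one'] at h1
  rw [← Subgroup.zpowers_eq_closure] at h1
  exact ⟨f y, fun z => by
    have : z ∈ (⊤ : Subgroup P') := Subgroup.mem_top z
    rwa [← h1] at this⟩

end Grp

section Main

variable {G : Type u} [Group G] [Fintype G] {p : ℕ} [hp : Fact p.Prime] {M : Ideal AlgInt}

/-- two generators -/
theorem card_le_of_two_gen (hM : IsPModular p M) {B : Set (IrrCharacter G)} (hB : IsPBlock M B)
    {P : Subgroup G} (hP : IsDefectGroup p M B P) (hab : ∀ x y : P, x * y = y * x) {x y : P}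
    (h : Subgroup.closure {x, y} = (⊤ : Subgroup P)) : Nat.card B ≤ Nat.card P := by
  apply card_le_of_cyc_quot hM hB hP x.2 (fun y hy => congrArg Subtype.val (hab ⟨y, hy⟩ x))
  intro P' _ f hf hker
  apply cyc_of_pair hf h
  rw [← MonoidHom.mem_ker, hker]
  exact Subgroup.mem_zpowers _

/-- three generators, the first one of the largest order -/
theorem card_le_of_three_gen (hM : IsPModular p M) {B : Set (IrrCharacter G)}
    (hB : IsPBlock M B)
    {P : Subgroup G} (hP : IsDefectGroup p M B P) (hab : ∀ x y : P, x * y = y * x) {x y z : P}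
    (h : Subgroup.closure {x, y, z} = (⊤ : Subgroup P)) :
    Nat.card B * orderOf x ≤ Nat.card P * Nat.card P := by
  classical
  have hpr := hM.2.1.isPrime
  have hch : CharP (KF M) p := charP_KF hM
  have hPp : IsPGroup p P := ((isDefectGroup_iff_EG hB).mp hP).2.1
  have hxp : ∃ k : ℕ, orderOf (x : G) = p ^ k := by
    obtain ⟨k, hk⟩ := IsPGroup.iff_orderOf.mp hPp x
    exact ⟨k, by rwa [Subgroup.orderOf_coe]⟩
  obtain ⟨C, b, Z, hZn, b', P', f, hC, hind, hbd, hZc, hZp, hZcard, hb', hbb, hrk, hdef',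
    hsurj, hker, hcard⟩ := exists_step hM hB hP x.2
      (fun y hy => congrArg Subtype.val (hab ⟨y, hy⟩ x))
  have hfC : Fintype C := Fintype.ofFinite _
  have hfQ : Fintype (C ⧸ Z) := Fintype.ofFinite _
  have hab' : ∀ s t : P', s * t = t * s := by
    intro s t
    obtain ⟨s, rfl⟩ := hsurj s
    obtain ⟨t, rfl⟩ := hsurj t
    rw [← map_mul, hab, map_mul]
  have hfx : f x = 1 := by
    rw [← MonoidHom.mem_ker, hker]
    exact Subgroup.mem_zpowers _
  have h1 : Subgroup.closure {f y, f z} = (⊤ : Subgroup P') := by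
    have := closure_map_surj hsurj h
    rw [Set.image_insert_eq, Set.image_pair, hfx, closure_insert_one'] at this
    exact this
  have h2 := card_le_of_two_gen hM hb' hdef' hab' h1
  have h3 := card_le_rank hM hB hxp hC hind hbd
  have h4 : Nat.card B ≤ Nat.card P * blockRank p b := by
    rw [H11.card_defect hM hB hP]
    exact_mod_cast h3
  have h5 : blockRank p b ≤ Nat.card P' := by
    rw [hrk]; exact rank_le_card.trans h2
  rw [hZcard] at hcard
  rw [Subgroup.orderOf_coe] at hcard
  calc Nat.card B * orderOf x ≤ (Nat.card P * Nat.card P') * orderOf x :=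
        Nat.mul_le_mul_right _ (h4.trans (Nat.mul_le_mul_left _ h5))
    _ = Nat.card P * (orderOf x * Nat.card P') := by ring
    _ = _ := by rw [← hcard]

theorem card_le_prod {P : Type u} [Group P] [Finite P] (hab : ∀ x y : P, x * y = y * x)
    {x y z : P}
    (h : Subgroup.closure {x, y, z} = (⊤ : Subgroup P)) :
    Nat.card P ≤ orderOf x * orderOf y * orderOf z := by
  classical
  let _ : CommGroup P := { (inferInstance : Group P) with mul_comm := hab }
  let g : (Subgroup.zpowers x × Subgroup.zpowers y) × Subgroup.zpowers z → P :=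
    fun t => (t.1.1 : P) * t.1.2 * t.2
  have hg : Function.Surjective g := by
    intro w
    have hw : w ∈ Subgroup.closure {x, y, z} := by rw [h]; exact Subgroup.mem_top w
    induction hw using Subgroup.closure_induction with
    | mem w hw =>
      rcases hw with rfl | rfl | rfl
      · exact ⟨((⟨w, Subgroup.mem_zpowers _⟩, 1), 1), by simp [g]⟩
      · exact ⟨((1, ⟨w, Subgroup.mem_zpowers _⟩), 1), by simp [g]⟩
      · exact ⟨((1, 1), ⟨w, Subgroup.mem_zpowers _⟩), by simp [g]⟩
    | one => exact ⟨((1, 1), 1), by simp [g]⟩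
    | mul a b _ _ ha hb =>
      obtain ⟨⟨⟨a1, a2⟩, a3⟩, rfl⟩ := ha
      obtain ⟨⟨⟨b1, b2⟩, b3⟩, rfl⟩ := hb
      refine ⟨((a1 * b1, a2 * b2), a3 * b3), ?_⟩
      simp only [g, Subgroup.coe_mul]
      have e1 := hab
      calc (a1 : P) * b1 * (a2 * b2) * (a3 * b3) = a1 * (b1 * a2) * (b2 * a3) * b3 := by
            simp only [mul_assoc]
        _ = a1 * (a2 * b1) * (a3 * b2) * b3 := by rw [e1 b1 a2, e1 b2 a3]
        _ = a1 * a2 * (b1 * a3) * b2 * b3 := by simp only [mul_assoc]
        _ = a1 * a2 * (a3 * b1) * b2 * b3 := by rw [e1 b1 a3]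
        _ = _ := by simp only [mul_assoc]
    | inv a _ ha =>
      obtain ⟨⟨⟨a1, a2⟩, a3⟩, rfl⟩ := ha
      refine ⟨((a1⁻¹, a2⁻¹), a3⁻¹), ?_⟩
      simp only [g, Subgroup.coe_inv]
      rw [mul_inv, mul_inv]
  have h1 := Nat.card_le_card_of_surjective g hg
  rwa [Nat.card_prod, Nat.card_prod, Nat.card_zpowers, Nat.card_zpowers, Nat.card_zpowers] at h1

theorem cube_bound {k D o : ℕ} (hD : 0 < D) (h : k * o ≤ D * D) (h2 : D ≤ o * o * o) :
    k ^ 3 ≤ D ^ 5 := by
  have h3 : k ^ 3 * D ≤ D ^ 5 * D := by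
    calc k ^ 3 * D ≤ k ^ 3 * (o * o * o) := Nat.mul_le_mul_left _ h2
      _ = (k * o) ^ 3 := by ring
      _ ≤ (D * D) ^ 3 := Nat.pow_le_pow_left h 3
      _ = D ^ 5 * D := by ring
  exact Nat.le_of_mul_le_mul_right h3 hD

/-- **S4697** -/
theorem st4697 (p : ℕ) [hp : Fact p.Prime] (M : Ideal AlgInt) (hM : IsPModular p M)
    (B : Set (IrrCharacter G)) (hB : IsPBlock M B) (D : Subgroup G)
    (hBD : IsDefectGroup p M B D) (hab : ∀ x y : D, x * y = y * x) (d : ℕ)
    (hDd : Nat.card D = p ^ d) :
    (Group.rank D = 2 → Nat.card B ≤ p ^ d) ∧ (Group.rank D = 3 → Nat.card B ^ 3 ≤ p ^ (5 * d)) := by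
  classical
  constructor
  · intro hr
    obtain ⟨S, hS, hc⟩ := Group.rank_spec D
    rw [hr, Finset.card_eq_two] at hS
    obtain ⟨x, y, -, rfl⟩ := hS
    rw [← hDd]
    apply card_le_of_two_gen hM hB hBD hab (x := x) (y := y)
    rw [← hc]; simp
  · intro hr
    obtain ⟨S, hS, hc⟩ := Group.rank_spec D
    rw [hr, Finset.card_eq_three] at hS
    obtain ⟨x, y, z, -, -, -, rfl⟩ := hS
    have hc' : Subgroup.closure {x, y, z} = (⊤ : Subgroup D) := by rw [← hc]; simp
    have h0 := card_le_prod hab hc'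
    have hD0 : 0 < Nat.card D := Nat.card_pos
    have e1 : p ^ (5 * d) = Nat.card D ^ 5 := by rw [hDd, ← pow_mul, mul_comm]
    rw [e1]
    rcases le_total (orderOf x) (orderOf y) with h1 | h1
    · rcases le_total (orderOf y) (orderOf z) with h2 | h2
      · apply cube_bound hD0 (card_le_of_three_gen hM hB hBD hab (x := z) (y := y) (z := x) ?_)
        · exact h0.trans (Nat.mul_le_mul (Nat.mul_le_mul (h1.trans h2) h2) le_rfl)
        · rw [← hc']; congr 1; ext w; simp only [Set.mem_insert_iff, Set.mem_singleton_iff]; tauto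
      · apply cube_bound hD0 (card_le_of_three_gen hM hB hBD hab (x := y) (y := x) (z := z) ?_)
        · exact h0.trans (Nat.mul_le_mul (Nat.mul_le_mul h1 le_rfl) h2)
        · rw [← hc']; congr 1; ext w; simp only [Set.mem_insert_iff, Set.mem_singleton_iff]; tauto
    · rcases le_total (orderOf x) (orderOf z) with h2 | h2
      · apply cube_bound hD0 (card_le_of_three_gen hM hB hBD hab (x := z) (y := y) (z := x) ?_)
        · exact h0.trans (Nat.mul_le_mul (Nat.mul_le_mul h2 (h1.trans h2)) le_rfl)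
        · rw [← hc']; congr 1; ext w; simp only [Set.mem_insert_iff, Set.mem_singleton_iff]; tauto
      · apply cube_bound hD0 (card_le_of_three_gen hM hB hBD hab (x := x) (y := y) (z := z) hc')
        exact h0.trans (Nat.mul_le_mul (Nat.mul_le_mul le_rfl h1) h2)

end Main

end Cfsg.Agent.H26
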