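import Mathlib
import Cfsg.Agent.H26.Dih6
import Cfsg.Agent.H3.FrobSchur
import Cfsg.Agent.H11.Third

set_option autoImplicit false

/-!
# Order formulas: the four-group case
-/

namespace Cfsg.Agent.H26

open Cfsg Cfsg.Agent.H3 Finset
open scoped ComplexConjugate

universe u

section Klein

variable {G : Type u} [Group G] [Finite G]

/-- A Sylow `2`-subgroup of order four without normal complement. -/
theorem klein_setup {g₀ : ℕ} (hG : Nat.card G = 4 * g₀) (hg₀ : Odd g₀)
    (hnc : ¬ ∃ N : Subgroup G, N.Normal ∧ Nat.card N = g₀) (P : Sylow 2 G) :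
    Nat.card (P : Subgroup G) = 4 ∧ IsKleinFour (P : Subgroup G) ∧
    ∀ x ∈ P, ∀ y ∈ P, x ≠ 1 → y ≠ 1 → IsConj x y := by
  have hp2 : Fact (Nat.Prime 2) := ⟨Nat.prime_two⟩
  have hg0 : g₀ ≠ 0 := by rintro rfl; exact absurd hg₀ (by decide)
  have hcard : Nat.card (P : Subgroup G) = 4 := by
    have h1 : Nat.card (P : Subgroup G) = 2 ^ (Nat.card G).factorization 2 := P.card_eq_multiplicity
    rw [h1, hG, Nat.factorization_mul (by norm_num) hg0, Finsupp.add_apply]
    have h2 : Nat.factorization 4 2 = 2 := by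
      rw [show (4 : ℕ) = 2 ^ 2 by norm_num, Nat.factorization_pow]
      simp [Nat.Prime.factorization_self Nat.prime_two]
    have h3 : Nat.factorization g₀ 2 = 0 :=
      Nat.factorization_eq_zero_of_not_dvd (by
        rw [← even_iff_two_dvd, Nat.not_even_iff_odd]; exact hg₀)
    rw [h2, h3]
    norm_num
  have hnot : ¬ (Subgroup.normalizer ((P : Subgroup G) : Set G) ≤
      Subgroup.centralizer ((P : Subgroup G) : Set G)) := by
    intro h1
    apply hnc
    refine ⟨(MonoidHom.transferSylow P h1).ker, inferInstance, ?_⟩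
    have h2 := (MonoidHom.ker_transferSylow_isComplement' P h1).card_mul
    rw [hcard, hG, mul_comm] at h2
    exact Nat.eq_of_mul_eq_mul_left (by norm_num) h2
  have hV : IsKleinFour (P : Subgroup G) := by
    refine ⟨hcard, ?_⟩
    by_contra hexp
    have hcyc : IsCyclic (P : Subgroup G) := by
      have h1 : ∃ x : (P : Subgroup G), x * x ≠ 1 := by
        by_contra hcon
        push Not at hcon
        apply hexp
        have h1 : Monoid.exponent (P : Subgroup G) ∣ 2 := by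
          apply Monoid.exponent_dvd_of_forall_pow_eq_one
          intro g
          rw [sq]; exact hcon g
        rcases (Nat.dvd_prime Nat.prime_two).mp h1 with h | h
        · exfalso
          have h2 := Monoid.exp_eq_one_iff.mp h
          have h3 : Nat.card (P : Subgroup G) = 1 := Nat.card_unique
          omega
        · exact h
      obtain ⟨x, hx⟩ := h1
      apply isCyclic_of_orderOf_eq_card x
      have h2 : orderOf x ∣ 4 := by rw [← hcard]; exact orderOf_dvd_natCard x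
      rw [hcard]
      have h3 : orderOf x ∣ 2 ^ 2 := h2
      obtain ⟨k, hk, hk2⟩ := (Nat.dvd_prime_pow Nat.prime_two).mp h3
      have h4 : k = 2 := by
        by_contra h5
        apply hx
        rw [← sq, ← orderOf_dvd_iff_pow_eq_one, hk2]
        exact (pow_dvd_pow 2 (by omega : k ≤ 1)).trans (by norm_num)
      rw [hk2, h4]; norm_num
    apply hnot
    have hmin : (Nat.card G).minFac = 2 := by
      rw [Nat.minFac_eq_two_iff, hG]
      exact ⟨2 * g₀, by ring⟩
    exact IsCyclic.normalizer_le_centralizer hmin hcyc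
  refine ⟨hcard, hV, ?_⟩
  rcases H4.klein_cases P hV with h1 | h1
  · exfalso
    apply hnot
    intro n hn
    rw [Subgroup.mem_centralizer_iff]
    intro x hx
    exact (h1 n hn x hx).eq.symm
  · exact h1

/-- the data in the four-group case -/
theorem klein_ddata (P : Sylow 2 G) (hV : IsKleinFour (P : Subgroup G)) {J : G}
    (hJ : J ∈ (P : Subgroup G)) (hJ2 : orderOf J = 2) :
    ∃ τ : G, DData (P : Subgroup G) J τ 0 := by
  have hcard := hV.card_four
  have hJ1 : J ≠ 1 := by rintro rfl; rw [orderOf_one] at hJ2; norm_num at hJ2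
  obtain ⟨τ, hτ, hτJ⟩ : ∃ τ ∈ (P : Subgroup G), τ ∉ Subgroup.zpowers J := by
    by_contra hcon
    push Not at hcon
    have h1 : (P : Subgroup G) ≤ Subgroup.zpowers J := hcon
    have h2 := Subgroup.card_le_of_le h1
    rw [hcard, Nat.card_zpowers, hJ2] at h2
    omega
  have hab := H4.klein_comm hV
  have hJJ := H4.klein_mul_self hV hJ
  refine ⟨τ, hJ, hτ, by rw [hJ2]; norm_num, H4.klein_mul_self hV hτ, hτJ, ?_, ?_⟩
  · rw [hab τ hτ J hJ, mul_inv_cancel_right, inv_eq_of_mul_eq_one_left hJJ]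
  · apply le_antisymm
    · rw [Subgroup.closure_le]
      rintro x (rfl | hx)
      · exact hJ
      · rw [Set.mem_singleton_iff.mp hx]; exact hτ
    · intro x hx
      by_cases hx1 : x = 1
      · rw [hx1]; exact one_mem _
      by_cases hxJ : x = J
      · rw [hxJ]; exact Subgroup.subset_closure (by simp)
      by_cases hxτ : x = τ
      · rw [hxτ]; exact Subgroup.subset_closure (by simp)
      have hτ1 : τ ≠ 1 := by rintro rfl; exact hτJ (one_mem _)
      have hJτ : J ≠ τ := by rintro rfl; exact hτJ (Subgroup.mem_zpowers J)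
      have := H4.klein_third hV hJ hτ hx hJ1 hτ1 hJτ hx1 hxJ hxτ
      rw [this]
      exact mul_mem (Subgroup.subset_closure (by simp)) (Subgroup.subset_closure (by simp))

end Klein

section Conj

variable {G : Type u} [Group G] [Fintype G] {M : Ideal AlgInt}

theorem conj_mem_principal {χ : IrrCharacter G} (hχ : χ ∈ principalBlock M G) :
    (⟨fun g => conj ((χ : G → ℂ) g), isIrr_conj χ.2⟩ : IrrCharacter G) ∈ principalBlock M G := by
  rw [H11.mem_principalBlock_iff] at hχ ⊢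
  intro g
  have h1 := hχ g⁻¹
  have h2 : centralChar (fun g => conj ((χ : G → ℂ) g)) g = centralChar (χ : G → ℂ) g⁻¹ := by
    unfold centralChar
    have h3 : Subgroup.centralizer ({g⁻¹} : Set G) = Subgroup.centralizer ({g} : Set G) := by
      rw [← H11.centralizer_zpowers, ← H11.centralizer_zpowers, Subgroup.zpowers_inv]
    have h4 : conj ((χ : G → ℂ) 1) = (χ : G → ℂ) 1 := by
      rw [← char_inv (irr_isChar χ.2), inv_one]
    rw [h3, char_inv (irr_isChar χ.2) g]
    change _ * conj ((χ : G → ℂ) g) / conj ((χ : G → ℂ) 1) = _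
    rw [h4]
  have h5 : centralChar (fun _ : G => (1 : ℂ)) g = centralChar (fun _ : G => (1 : ℂ)) g⁻¹ := by
    unfold centralChar
    rw [← H11.centralizer_zpowers g, ← H11.centralizer_zpowers g⁻¹, Subgroup.zpowers_inv]
  rw [h5]
  change MemLocalIdeal M (_ - centralChar (fun g => conj ((χ : G → ℂ) g)) g)
  rw [h2]
  exact h1

end Conj

section Main

variable {G : Type u} [Group G] [Fintype G]

/-- The generalized character of the principal block in the four-group case. -/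
theorem klein_main (M : Ideal AlgInt) (hM : IsPModular 2 M) (g₀ : ℕ) (hg₀ : Odd g₀)
    (hG : Nat.card G = 4 * g₀) (hnc : ¬ ∃ N : Subgroup G, N.Normal ∧ Nat.card N = g₀)
    (P : Sylow 2 G) (J : G) (hJ : J ∈ (P : Subgroup G)) (hJ2 : orderOf J = 2)
    (χ₁ χ₂ χ₃ : IrrCharacter G) (ε₁ ε₂ ε₃ : ℤ)
    (hB : principalBlock M G = {χ : IrrCharacter G | (χ : G → ℂ) = (fun _ => 1) ∨ χ = χ₁ ∨
      χ = χ₂ ∨ χ = χ₃})
    (hdist : (χ₁ : G → ℂ) ≠ (fun _ => 1) ∧ (χ₂ : G → ℂ) ≠ (fun _ => 1) ∧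
      (χ₃ : G → ℂ) ≠ (fun _ => 1) ∧ χ₁ ≠ χ₂ ∧ χ₁ ≠ χ₃ ∧ χ₂ ≠ χ₃)
    (hε : (ε₁ = 1 ∨ ε₁ = -1) ∧ (ε₂ = 1 ∨ ε₂ = -1) ∧ (ε₃ = 1 ∨ ε₃ = -1))
    (hval : (χ₁ : G → ℂ) J = ε₁ ∧ (χ₂ : G → ℂ) J = ε₂ ∧ (χ₃ : G → ℂ) J = ε₃) :
    (∀ g y : G, IsPPart 2 g y → ¬ IsConj J y →
      1 + (ε₁ : ℂ) * (χ₁ : G → ℂ) g + ε₂ * (χ₂ : G → ℂ) g + ε₃ * (χ₃ : G → ℂ) g = 0) ∧
    (Nat.card G : ℂ) * (1 + ε₁ / (χ₁ : G → ℂ) 1 + ε₂ / (χ₂ : G → ℂ) 1 + ε₃ / (χ₃ : G → ℂ) 1) *
      (Nat.card (Subgroup.centralizer ((P : Subgroup G) : Set G)) : ℂ) ^ 2 =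
      8 * (Nat.card (Subgroup.centralizer ({J} : Set G)) : ℂ) ^ 3 := by
  classical
  have := Fintype.ofFinite (IrrCharacter G)
  have hp2 : Fact (Nat.Prime 2) := ⟨Nat.prime_two⟩
  obtain ⟨hcard, hV, hfus⟩ := klein_setup hG hg₀ hnc P
  obtain ⟨τ, hd⟩ := klein_ddata P hV hJ hJ2
  obtain ⟨hd1, hd2, hd3, hd12, hd13, hd23⟩ := hdist
  have hJpow : J ^ (2 ^ 0) = J := by rw [pow_zero, pow_one]
  obtain ⟨H, μ, hJH, hD, hμo, hμz, hτC, hτH⟩ := exists_DS hd
  have hI := Iset_eq hd hD hJH hτC hτH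
  have hdis := clC_disjoint hD hJH hμo hμz hτC hτH hd.ht
  rw [hJpow] at hD hτC hI hdis
  let one : IrrCharacter G := ⟨fun _ => 1, isIrr_one⟩
  have hone : ((one : IrrCharacter G) : G → ℂ) = fun _ => 1 := rfl
  -- sum over the block
  have hsumB : ∀ F : IrrCharacter G → ℂ, ∑ᶠ χ ∈ principalBlock M G, F χ =
      F one + F χ₁ + F χ₂ + F χ₃ := by
    intro F
    have h1 : principalBlock M G = ((({one, χ₁, χ₂, χ₃} : Finset (IrrCharacter G))) :
        Set (IrrCharacter G)) := by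
      rw [hB]
      ext χ
      simp only [Set.mem_setOf_eq, Finset.coe_insert, Finset.coe_singleton,
        Set.mem_insert_iff, Set.mem_singleton_iff]
      constructor
      · rintro (h | h | h | h)
        · exact Or.inl (Subtype.ext h)
        · exact Or.inr (Or.inl h)
        · exact Or.inr (Or.inr (Or.inl h))
        · exact Or.inr (Or.inr (Or.inr h))
      · rintro (h | h | h | h)
        · exact Or.inl (by rw [h])
        · exact Or.inr (Or.inl h)
        · exact Or.inr (Or.inr (Or.inl h))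
        · exact Or.inr (Or.inr (Or.inr h))
    rw [h1, finsum_mem_coe_finset]
    have n1 : one ≠ χ₁ := fun h => hd1 (by rw [← h])
    have n2 : one ≠ χ₂ := fun h => hd2 (by rw [← h])
    have n3 : one ≠ χ₃ := fun h => hd3 (by rw [← h])
    rw [Finset.sum_insert (by simp [n1, n2, n3]), Finset.sum_insert (by simp [hd12, hd13]),
      Finset.sum_insert (by simp [hd23]), Finset.sum_singleton]
    ring
  have hmemB : χ₁ ∈ principalBlock M G ∧ χ₂ ∈ principalBlock M G ∧ χ₃ ∈ principalBlock M G := by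
    rw [hB]
    exact ⟨Or.inr (Or.inl rfl), Or.inr (Or.inr (Or.inl rfl)), Or.inr (Or.inr (Or.inr rfl))⟩
  have hJinv : J⁻¹ = J := inv_eq_of_mul_eq_one_left (H4.klein_mul_self hV hJ)
  have hJpp : IsPPart 2 J J := H11.isPPart_self Nat.prime_two (k := 1) (by rw [hJ2, pow_one])
  have hzero : ∀ g y : G, IsPPart 2 g y → ¬ IsConj J y →
      1 + (ε₁ : ℂ) * (χ₁ : G → ℂ) g + ε₂ * (χ₂ : G → ℂ) g + ε₃ * (χ₃ : G → ℂ) g = 0 := by
    intro g y hg hy
    have h1 := H11.block_orthogonality hM hg hJpp (fun h => hy h.symm)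
      (H11.principalBlock_isPBlock (M := M) (G := G))
    rw [hsumB, hJinv, hval.1, hval.2.1, hval.2.2, hone] at h1
    linear_combination h1
  refine ⟨hzero, ?_⟩
  -- values of mu
  have hμsq : ∀ x : H, μ x * μ x = 1 := by
    intro x
    obtain ⟨k, hk⟩ := hμz x
    have hk' : (μ ⟨J, hJH⟩) ^ k = μ x := hk
    have h2 : μ ⟨J, hJH⟩ * μ ⟨J, hJH⟩ = 1 := by
      have := pow_orderOf_eq_one (μ ⟨J, hJH⟩)
      rwa [hμo, zero_add, pow_one, sq] at this
    rw [← hk', ← mul_zpow, h2, one_zpow]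
  have hμneg : ∀ x : H, μ x ≠ 1 → μ x = -1 := fun x hx => units_eq_neg_one hx (hμsq x)
  -- constancy
  have hconst : ∀ (χ : IrrCharacter G), χ ∈ principalBlock M G → ∀ x : H, μ x ≠ 1 →
      (χ : G → ℂ) x = (χ : G → ℂ) J := by
    intro χ hχ x hx
    obtain ⟨u, hu, ⟨k, hk⟩, hxu⟩ := hD.const hM hχ hx
    rw [hxu]
    have h1 : μ (u * u) = 1 := by rw [map_mul, hμsq]
    have h2 := odd_of_mem_ker hD h1
    have h3 : u * u = 1 := by
      have h4 : orderOf (u * u) ∣ 2 ^ k := by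
        rw [← hk, ← sq]
        exact orderOf_pow_dvd 2
      obtain ⟨j, -, hj⟩ := (Nat.dvd_prime_pow Nat.prime_two).mp h4
      rw [hj] at h2
      rcases Nat.eq_zero_or_pos j with h0 | h0
      · rw [h0, pow_zero] at hj
        exact orderOf_eq_one_iff.mp hj
      · exact absurd h2 (by
          rw [Nat.not_odd_iff_even]; exact (Nat.even_pow.mpr ⟨even_two, h0.ne'⟩))
    rw [hD.eq_J h3 (fun h0 => hu (by rw [h0, map_one]))]
  have hf : ∀ g, indFun H (fun z => 1 - (μ z : ℂ)) g =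
      1 + (ε₁ : ℂ) * (χ₁ : G → ℂ) g + ε₂ * (χ₂ : G → ℂ) g + ε₃ * (χ₃ : G → ℂ) g := by
    intro g
    have hε1 : (ε₁ : ℂ) * ε₁ = 1 := by rcases hε.1 with h | h <;> rw [h] <;> norm_num
    have hε2 : (ε₂ : ℂ) * ε₂ = 1 := by rcases hε.2.1 with h | h <;> rw [h] <;> norm_num
    have hε3 : (ε₃ : ℂ) * ε₃ = 1 := by rcases hε.2.2 with h | h <;> rw [h] <;> norm_num
    by_cases hg : ∃ c : G, ∃ x : H, μ x ≠ 1 ∧ c * (x : G) * c⁻¹ = g
    · obtain ⟨c, x, hx, rfl⟩ := hg
      rw [indFun_classFun H _ (x : G) c, irr_classFun χ₁.2 (x : G) c, irr_classFun χ₂.2 (x : G) c,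
        irr_classFun χ₃.2 (x : G) c, hconst χ₁ hmemB.1 x hx, hconst χ₂ hmemB.2.1 x hx,
        hconst χ₃ hmemB.2.2 x hx, hval.1, hval.2.1, hval.2.2,
        hD.ind_apply (fun c => 1 - (c : ℂ)) (by rw [Units.val_one, sub_self]) x, hμneg x hx]
      have hneg : ((-1 : ℂˣ))⁻¹ = -1 := by rw [inv_neg, inv_one]
      rw [hneg, Units.val_neg, Units.val_one]
      linear_combination - hε1 - hε2 - hε3
    · push Not at hg
      have h1 : indFun H (fun z => 1 - (μ z : ℂ)) g = 0 := by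
        unfold indFun
        rw [Finset.sum_eq_zero, mul_zero]
        intro c _
        by_cases hm : c⁻¹ * g * c ∈ H
        · rw [extendByZero_mem _ _ hm]
          by_cases h2 : μ ⟨_, hm⟩ = 1
          · rw [h2, Units.val_one, sub_self]
          · exact absurd (by change c * (c⁻¹ * g * c) * c⁻¹ = g; group) (hg c ⟨_, hm⟩ h2)
        · rw [extendByZero_not_mem _ _ hm]
      rw [h1]
      symm
      obtain ⟨y, hy⟩ := H11.exists_isPPart Nat.prime_two g
      apply hzero g y hy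
      intro hcj
      obtain ⟨c, hc⟩ := isConj_iff.mp hcj
      obtain ⟨v, hv1, hv2, -, hv4⟩ := hy
      -- g = y v, y = c J c⁻¹
      have hvC : c⁻¹ * v * c ∈ Subgroup.centralizer ({J} : Set G) := by
        rw [Subgroup.mem_centralizer_singleton_iff]
        have h3 : J = c⁻¹ * y * c := by rw [← hc]; group
        rw [h3]
        calc c⁻¹ * v * c * (c⁻¹ * y * c) = c⁻¹ * (v * y) * c := by group
          _ = c⁻¹ * (y * v) * c := by rw [hv2.eq]
          _ = c⁻¹ * y * c * (c⁻¹ * v * c) := by group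
      have hvo : Odd (orderOf (c⁻¹ * v * c)) := by
        have h3 : c⁻¹ * v * c = c⁻¹ * v * (c⁻¹)⁻¹ := by rw [inv_inv]
        have h4 : orderOf (c⁻¹ * v * (c⁻¹)⁻¹) = orderOf v :=
          orderOf_injective (MulAut.conj c⁻¹).toMonoidHom (MulAut.conj c⁻¹).injective v
        rw [h3, h4, ← Nat.not_even_iff_odd, even_iff_two_dvd]
        exact hv4
      have hvH : c⁻¹ * v * c ∈ H := by
        have h3 : (c⁻¹ * v * c) * (c⁻¹ * v * c) ∈ H := by
          rw [hD.mul_mem_iff hvC hvC]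
        obtain ⟨r, hr⟩ := hvo
        have h4 : c⁻¹ * v * c = (((c⁻¹ * v * c) * (c⁻¹ * v * c)) ^ r)⁻¹ := by
          rw [eq_comm, inv_eq_iff_mul_eq_one, ← sq, ← pow_mul, ← pow_succ, ← hr, pow_orderOf_eq_one]
        rw [h4]
        exact inv_mem (pow_mem h3 r)
      have hμv : μ ⟨_, hvH⟩ = 1 := hD.pp (by
        rw [← Subgroup.orderOf_coe]; exact hvo)
      have hx : μ (⟨J, hJH⟩ * ⟨_, hvH⟩) ≠ 1 := by
        rw [map_mul, hμv, mul_one]
        intro h0
        rw [h0, orderOf_one] at hμo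
        norm_num at hμo
      apply hg c _ hx
      change c * (J * (c⁻¹ * v * c)) * c⁻¹ = g
      rw [← hv1, ← hc]
      group
  -- the second sum vanishes
  have hJτ : J * τ ∉ H := by
    rw [hD.mul_mem_iff (hD.HC hJH) hτC]
    exact fun h0 => hτH (h0.mp hJH)
  have hJJ : J * J = 1 := hD.J2
  have hcomm : τ * J = J * τ := hD.comm hτC
  have hJτJτ : J * τ * (J * τ) = 1 := by
    calc J * τ * (J * τ) = J * (τ * J) * τ := by group
      _ = (J * J) * (τ * τ) := by rw [hcomm]; group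
      _ = 1 := by rw [hJJ, hd.ht, one_mul]
  have hJτC : J * τ ∈ Subgroup.centralizer ({J} : Set G) := mul_mem (hD.HC hJH) hτC
  have hcen1 : Subgroup.centralizer ({J, τ} : Set G) =
      Subgroup.centralizer ((P : Subgroup G) : Set G) := by
    rw [← hd.hgen, Subgroup.centralizer_closure]
  have hcen2 : Subgroup.centralizer ({J, J * τ} : Set G) =
      Subgroup.centralizer ((P : Subgroup G) : Set G) := by
    rw [← hcen1]
    ext x
    rw [Subgroup.mem_centralizer_iff, Subgroup.mem_centralizer_iff]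
    constructor
    · intro h y hy
      have h1 := h J (by simp)
      have h2 := h (J * τ) (by simp)
      rcases hy with rfl | hy
      · exact h1
      · rw [Set.mem_singleton_iff.mp hy]
        have h3 : τ = J * (J * τ) := by rw [← mul_assoc, hJJ, one_mul]
        rw [h3, mul_assoc, h2, ← mul_assoc, h1, mul_assoc]
    · intro h y hy
      have h1 := h J (by simp)
      have h2 := h τ (by simp)
      rcases hy with rfl | hy
      · exact h1
      · rw [Set.mem_singleton_iff.mp hy, mul_assoc, h2, ← mul_assoc, h1, mul_assoc]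
  have hca := card_clC hτC
  have hcb := card_clC hJτC
  rw [hcen1] at hca
  rw [hcen2] at hcb
  have hPpos : 0 < Nat.card (Subgroup.centralizer ((P : Subgroup G) : Set G)) := Nat.card_pos
  have hab : (clC (Subgroup.centralizer ({J} : Set G)) τ).card =
      (clC (Subgroup.centralizer ({J} : Set G)) (J * τ)).card :=
    Nat.eq_of_mul_eq_mul_right hPpos (hca.trans hcb.symm)
  have hJ1 : J ≠ 1 := hD.J1
  have hτ1 : τ ≠ 1 := by rintro rfl; exact hτH (one_mem H)
  have hJτ1 : J * τ ≠ 1 := fun h0 => hJτ (h0 ▸ one_mem H)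
  have hI' := hI (hfus J hJ τ hd.hτ hJ1 hτ1)
    (hfus J hJ (J * τ) (mul_mem hJ hd.hτ) hJ1 hJτ1)
    (by
      intro x hx
      rw [Subgroup.mem_centralizer_singleton_iff]
      exact H4.klein_comm hV x hx J hJ)
  have hν1 : ∀ x ∈ clC (Subgroup.centralizer ({J} : Set G)) τ,
      extendByZero H (fun z => (μ z : ℂ)) (x * τ) = 1 := by
    intro x hx
    obtain ⟨e, hm, he⟩ := hD.clC_offset hτC hτH hd.ht hx
    rw [extendByZero_mem _ _ hm, he, hμsq, Units.val_one]
  have hν2 : ∀ x ∈ clC (Subgroup.centralizer ({J} : Set G)) (J * τ),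
      extendByZero H (fun z => (μ z : ℂ)) (x * τ) = -1 := by
    intro x hx
    obtain ⟨e, hm, he⟩ := hD.clC_offset hJτC hJτ hJτJτ hx
    have h1 : x * τ = x * (J * τ) * J := by
      rw [← hcomm, mul_assoc x, mul_assoc τ, hJJ, mul_one]
    have hm' : x * τ ∈ H := by rw [h1]; exact mul_mem hm hJH
    have h2 : (⟨x * τ, hm'⟩ : H) = ⟨x * (J * τ), hm⟩ * ⟨J, hJH⟩ := Subtype.ext h1
    have h3 : μ ⟨J, hJH⟩ = -1 := hD.mu_J
    rw [extendByZero_mem _ _ hm', h2, map_mul, he, hμsq, one_mul, h3, Units.val_neg, Units.val_one]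
  have hprod : ∀ x ∈ Iset J H, ∀ y ∈ Iset J H, extendByZero H (fun z => (μ z : ℂ)) (x * y) =
      extendByZero H (fun z => (μ z : ℂ)) (x * τ) * extendByZero H (fun z => (μ z : ℂ)) (y * τ) := by
    intro x hx y hy
    have hxτ : x * τ ∈ H := by
      rw [hD.mul_mem_iff (mem_Iset.mp hx).2.1 hτC]
      exact ⟨fun h0 => absurd h0 (mem_Iset.mp hx).2.2, fun h0 => absurd h0 hτH⟩
    have hyτ : y * τ ∈ H := by
      rw [hD.mul_mem_iff (mem_Iset.mp hy).2.1 hτC]
      exact ⟨fun h0 => absurd h0 (mem_Iset.mp hy).2.2, fun h0 => absurd h0 hτH⟩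
    have hxy := hD.prod_mem hx hy
    have hτy : τ⁻¹ * (y * τ) * τ ∈ H := hD.conj_mem hτC hyτ
    have h1 : μ ⟨τ⁻¹ * (y * τ) * τ, hτy⟩ = (μ ⟨y * τ, hyτ⟩)⁻¹ :=
      hD.inv τ hτC hτH ⟨y * τ, hyτ⟩ _ rfl
    have h2 : (⟨x * y, hxy⟩ : H) = ⟨x * τ, hxτ⟩ * ⟨τ⁻¹ * (y * τ) * τ, hτy⟩ := by
      apply Subtype.ext
      change x * y = x * τ * (τ⁻¹ * (y * τ) * τ)
      calc x * y = x * y * (τ * τ) := by rw [hd.ht, mul_one]
        _ = x * τ * (τ⁻¹ * (y * τ) * τ) := by group
    have h3 : (μ ⟨y * τ, hyτ⟩)⁻¹ = μ ⟨y * τ, hyτ⟩ := inv_eq_of_mul_eq_one_left (hμsq _)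
    rw [extendByZero_mem _ _ hxy, extendByZero_mem _ _ hxτ, extendByZero_mem _ _ hyτ, h2, map_mul,
      h1, h3, Units.val_mul]
  have hνsum : ∑ x ∈ Iset J H, extendByZero H (fun z => (μ z : ℂ)) (x * τ) = 0 := by
    rw [hI', Finset.sum_union hdis, Finset.sum_congr rfl hν1, Finset.sum_congr rfl hν2,
      Finset.sum_const, Finset.sum_const, hab]
    simp
  have hS : ∑ x ∈ Iset J H, ∑ y ∈ Iset J H, extendByZero H (fun z => (μ z : ℂ)) (x * y) = 0 := by
    rw [Finset.sum_congr rfl fun x hx => Finset.sum_congr rfl fun y hy => hprod x hx y hy]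
    simp only [← Finset.mul_sum, hνsum, mul_zero, Finset.sum_const_zero]
  have hform := hD.order_formula hS ![one, χ₁, χ₂, χ₃] ![1, (ε₁ : ℂ), (ε₂ : ℂ), (ε₃ : ℂ)] (by
    intro g
    rw [hf g, Fin.sum_univ_four]
    simp only [Matrix.cons_val_zero, Matrix.cons_val_one, Matrix.cons_val_two, Matrix.head_cons,
      Matrix.tail_cons, Matrix.cons_val]
    change 1 + (ε₁ : ℂ) * _ + _ + _ = 1 * 1 + _ + _ + _
    ring)
  rw [Fin.sum_univ_four] at hform
  simp only [Matrix.cons_val_zero, Matrix.cons_val_one, Matrix.cons_val_two, Matrix.head_cons,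
    Matrix.tail_cons, Matrix.cons_val] at hform
  rw [hval.1, hval.2.1, hval.2.2, hone] at hform
  have hε1 : (ε₁ : ℂ) ^ 2 = 1 := by rcases hε.1 with h | h <;> rw [h] <;> norm_num
  have hε2 : (ε₂ : ℂ) ^ 2 = 1 := by rcases hε.2.1 with h | h <;> rw [h] <;> norm_num
  have hε3 : (ε₃ : ℂ) ^ 2 = 1 := by rcases hε.2.2 with h | h <;> rw [h] <;> norm_num
  rw [hε1, hε2, hε3] at hform
  have hIc : ((Iset J H).card : ℂ) * Nat.card (Subgroup.centralizer ((P : Subgroup G) : Set G)) =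
      2 * Nat.card (Subgroup.centralizer ({J} : Set G)) := by
    rw [hI', Finset.card_union_of_disjoint hdis, ← hab]
    have : (((clC (Subgroup.centralizer ({J} : Set G)) τ).card : ℕ) : ℂ) *
        Nat.card (Subgroup.centralizer ((P : Subgroup G) : Set G)) =
        Nat.card (Subgroup.centralizer ({J} : Set G)) := by exact_mod_cast hca
    push_cast
    linear_combination 2 * this
  have h1 : (Nat.card G : ℂ) * (1 + ε₁ / (χ₁ : G → ℂ) 1 + ε₂ / (χ₂ : G → ℂ) 1 +
      ε₃ / (χ₃ : G → ℂ) 1) = 2 * (Nat.card (Subgroup.centralizer ({J} : Set G)) : ℂ) *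
        ((Iset J H).card : ℂ) ^ 2 := by
    rw [← hform]
    ring
  rw [h1]
  calc 2 * (Nat.card (Subgroup.centralizer ({J} : Set G)) : ℂ) * ((Iset J H).card : ℂ) ^ 2 *
      (Nat.card (Subgroup.centralizer ((P : Subgroup G) : Set G)) : ℂ) ^ 2 =
      2 * (Nat.card (Subgroup.centralizer ({J} : Set G)) : ℂ) *
        (((Iset J H).card : ℂ) *
          Nat.card (Subgroup.centralizer ((P : Subgroup G) : Set G))) ^ 2 := by ring
    _ = 8 * (Nat.card (Subgroup.centralizer ({J} : Set G)) : ℂ) ^ 3 := by rw [hIc]; ring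

end Main

end Cfsg.Agent.H26
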