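import Mathlib
import Cfsg.Agent.H26.Dih7

set_option autoImplicit false

/-!
# Order formulas: the four-group case, conclusions
-/

namespace Cfsg.Agent.H26

open Cfsg Cfsg.Agent.H3 Finset
open scoped ComplexConjugate

universe u

section Main

variable {G : Type u} [Group G] [Finite G]

theorem st4479 (M : Ideal AlgInt) (hM : IsPModular 2 M) (g₀ : ℕ) (hg₀ : Odd g₀)
    (hG : Nat.card G = 4 * g₀) (hnc : ¬ ∃ N : Subgroup G, N.Normal ∧ Nat.card N = g₀)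
    (P : Sylow 2 G) (J : G) (hJ : J ∈ (P : Subgroup G)) (hJ2 : orderOf J = 2)
    (χ₁ χ₂ χ₃ : IrrCharacter G) (ε₁ ε₂ ε₃ : ℤ)
    (hB : principalBlock M G = {χ : IrrCharacter G | (χ : G → ℂ) = (fun _ => 1) ∨ χ = χ₁ ∨
      χ = χ₂ ∨ χ = χ₃})
    (hdist : (χ₁ : G → ℂ) ≠ (fun _ => 1) ∧ (χ₂ : G → ℂ) ≠ (fun _ => 1) ∧
      (χ₃ : G → ℂ) ≠ (fun _ => 1) ∧ χ₁ ≠ χ₂ ∧ χ₁ ≠ χ₃ ∧ χ₂ ≠ χ₃)
    (hε : (ε₁ = 1 ∨ ε₁ = -1) ∧ (ε₂ = 1 ∨ ε₂ = -1) ∧ (ε₃ = 1 ∨ ε₃ = -1))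
    (hval : (χ₁ : G → ℂ) J = ε₁ ∧ (χ₂ : G → ℂ) J = ε₂ ∧ (χ₃ : G → ℂ) J = ε₃) :
    (Nat.card G : ℚ) = 8 * (((charDegree (χ₁ : G → ℂ) : ℚ) * charDegree (χ₂ : G → ℂ) *
      charDegree (χ₃ : G → ℂ)) / ((charDegree (χ₁ : G → ℂ) + ε₁) *
      (charDegree (χ₂ : G → ℂ) + ε₂) * (charDegree (χ₃ : G → ℂ) + ε₃))) *
      (Nat.card (Subgroup.centralizer ({J} : Set G)) : ℚ) ^ 3 /
      (Nat.card (Subgroup.centralizer ((P : Subgroup G) : Set G)) : ℚ) ^ 2 := by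
  classical
  have := Fintype.ofFinite G
  obtain ⟨h1, h2⟩ := klein_main M hM g₀ hg₀ hG hnc P J hJ hJ2 χ₁ χ₂ χ₃ ε₁ ε₂ ε₃ hB hdist hε hval
  have hJ1 : J ≠ 1 := by rintro rfl; rw [orderOf_one] at hJ2; norm_num at hJ2
  have h3 := h1 1 1 (H11.isPPart_self Nat.prime_two (k := 0) (by rw [orderOf_one, pow_zero]))
    (fun h => hJ1 (by
      obtain ⟨c, hc⟩ := isConj_iff.mp h
      calc J = c⁻¹ * (c * J * c⁻¹) * c := by group
        _ = 1 := by rw [hc]; group))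
  obtain ⟨hx1, hx10⟩ := H11.charDegree_spec χ₁.2
  obtain ⟨hx2, hx20⟩ := H11.charDegree_spec χ₂.2
  obtain ⟨hx3, hx30⟩ := H11.charDegree_spec χ₃.2
  rw [hx1, hx2, hx3] at h3 h2
  have h3Q : 1 + (ε₁ : ℚ) * (charDegree (χ₁ : G → ℂ) : ℚ) + ε₂ * (charDegree (χ₂ : G → ℂ) : ℚ) +
      ε₃ * (charDegree (χ₃ : G → ℂ) : ℚ) = 0 := by exact_mod_cast h3
  have h2Q : (Nat.card G : ℚ) * (1 + ε₁ / (charDegree (χ₁ : G → ℂ) : ℚ) +
      ε₂ / (charDegree (χ₂ : G → ℂ) : ℚ) + ε₃ / (charDegree (χ₃ : G → ℂ) : ℚ)) *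
      (Nat.card (Subgroup.centralizer ((P : Subgroup G) : Set G)) : ℚ) ^ 2 =
      8 * (Nat.card (Subgroup.centralizer ({J} : Set G)) : ℚ) ^ 3 := by exact_mod_cast h2
  have hX1 : (charDegree (χ₁ : G → ℂ) : ℚ) ≠ 0 := by exact_mod_cast hx10
  have hX2 : (charDegree (χ₂ : G → ℂ) : ℚ) ≠ 0 := by exact_mod_cast hx20
  have hX3 : (charDegree (χ₃ : G → ℂ) : ℚ) ≠ 0 := by exact_mod_cast hx30
  have hc1 : (Nat.card (Subgroup.centralizer ({J} : Set G)) : ℚ) ≠ 0 := by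
    exact_mod_cast Nat.card_pos.ne'
  have hc2 : (Nat.card (Subgroup.centralizer ((P : Subgroup G) : Set G)) : ℚ) ≠ 0 := by
    exact_mod_cast Nat.card_pos.ne'
  have e1 : (ε₁ : ℚ) ^ 2 = 1 := by rcases hε.1 with h | h <;> rw [h] <;> norm_num
  have e2 : (ε₂ : ℚ) ^ 2 = 1 := by rcases hε.2.1 with h | h <;> rw [h] <;> norm_num
  have e3 : (ε₃ : ℚ) ^ 2 = 1 := by rcases hε.2.2 with h | h <;> rw [h] <;> norm_num
  generalize (charDegree (χ₁ : G → ℂ) : ℚ) = X1 at *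
  generalize (charDegree (χ₂ : G → ℂ) : ℚ) = X2 at *
  generalize (charDegree (χ₃ : G → ℂ) : ℚ) = X3 at *
  generalize (Nat.card (Subgroup.centralizer ({J} : Set G)) : ℚ) = c at *
  generalize (Nat.card (Subgroup.centralizer ((P : Subgroup G) : Set G)) : ℚ) = d at *
  generalize (Nat.card G : ℚ) = g at *
  have hAN : (1 + ε₁ / X1 + ε₂ / X2 + ε₃ / X3) * (X1 * X2 * X3) =
      (X1 + ε₁) * (X2 + ε₂) * (X3 + ε₃) := by
    have : (1 + ε₁ / X1 + ε₂ / X2 + ε₃ / X3) * (X1 * X2 * X3) =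
        X1 * X2 * X3 + ε₁ * X2 * X3 + ε₂ * X1 * X3 + ε₃ * X1 * X2 := by field_simp
    rw [this]
    linear_combination (-(ε₁ * ε₂ * ε₃ : ℚ)) * h3Q + (ε₂ * ε₃ * X1 : ℚ) * e1 +
      (ε₁ * ε₃ * X2 : ℚ) * e2 + (ε₁ * ε₂ * X3 : ℚ) * e3
  have hA : (1 + ε₁ / X1 + ε₂ / X2 + ε₃ / X3) ≠ 0 := by
    intro h0
    rw [h0, mul_zero, zero_mul] at h2Q
    exact hc1 (pow_eq_zero_iff (three_ne_zero) |>.mp (by linarith))
  have hD : (X1 + ε₁) * (X2 + ε₂) * (X3 + ε₃) ≠ 0 := by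
    rw [← hAN]
    exact mul_ne_zero hA (mul_ne_zero (mul_ne_zero hX1 hX2) hX3)
  rw [eq_div_iff (pow_ne_zero 2 hc2), mul_div_assoc', div_mul_eq_mul_div, eq_div_iff hD, ← hAN]
  linear_combination (X1 * X2 * X3) * h2Q

theorem st4480 (M : Ideal AlgInt) (hM : IsPModular 2 M) (g₀ : ℕ) (hg₀ : Odd g₀)
    (hG : Nat.card G = 4 * g₀) (hnc : ¬ ∃ N : Subgroup G, N.Normal ∧ Nat.card N = g₀)
    (P : Sylow 2 G) (J : G) (hJ : J ∈ (P : Subgroup G)) (hJ2 : orderOf J = 2)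
    (χ₁ χ₂ χ₃ : IrrCharacter G) (ε₁ ε₂ ε₃ : ℤ)
    (hB : principalBlock M G = {χ : IrrCharacter G | (χ : G → ℂ) = (fun _ => 1) ∨ χ = χ₁ ∨
      χ = χ₂ ∨ χ = χ₃})
    (hdist : (χ₁ : G → ℂ) ≠ (fun _ => 1) ∧ (χ₂ : G → ℂ) ≠ (fun _ => 1) ∧
      (χ₃ : G → ℂ) ≠ (fun _ => 1) ∧ χ₁ ≠ χ₂ ∧ χ₁ ≠ χ₃ ∧ χ₂ ≠ χ₃)
    (hε : (ε₁ = 1 ∨ ε₁ = -1) ∧ (ε₂ = 1 ∨ ε₂ = -1) ∧ (ε₃ = 1 ∨ ε₃ = -1))
    (hval : (χ₁ : G → ℂ) J = ε₁ ∧ (χ₂ : G → ℂ) J = ε₂ ∧ (χ₃ : G → ℂ) J = ε₃)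
    (hprod : ε₁ * ε₂ * ε₃ = -1) (hε₃ : ε₃ = -1) :
    ∃ m : ℕ, 4 * Nat.card (Subgroup.centralizer ({J} : Set G)) =
      m * Nat.card (Subgroup.centralizer ((P : Subgroup G) : Set G)) *
        (charDegree (χ₃ : G → ℂ) + 1) ∧
      8 * Nat.card G = m ^ 3 * Nat.card (Subgroup.centralizer ((P : Subgroup G) : Set G)) *
        (charDegree (χ₃ : G → ℂ) ^ 3 - charDegree (χ₃ : G → ℂ)) := by
  classical
  have := Fintype.ofFinite G
  have hp2 : Fact (Nat.Prime 2) := ⟨Nat.prime_two⟩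
  have hM1 := hM.2.1.isPrime
  obtain ⟨h1, h2⟩ := klein_main M hM g₀ hg₀ hG hnc P J hJ hJ2 χ₁ χ₂ χ₃ ε₁ ε₂ ε₃ hB hdist hε hval
  obtain ⟨-, hV, -⟩ := klein_setup hG hg₀ hnc P
  have hJ1 : J ≠ 1 := by rintro rfl; rw [orderOf_one] at hJ2; norm_num at hJ2
  have hJn1 : ¬ IsConj J 1 := fun h => hJ1 (by
      obtain ⟨c, hc⟩ := isConj_iff.mp h
      calc J = c⁻¹ * (c * J * c⁻¹) * c := by group
        _ = 1 := by rw [hc]; group)
  have h3 := h1 1 1 (H11.isPPart_self Nat.prime_two (k := 0) (by rw [orderOf_one, pow_zero])) hJn1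
  obtain ⟨hx1, hx10⟩ := H11.charDegree_spec χ₁.2
  obtain ⟨hx2, hx20⟩ := H11.charDegree_spec χ₂.2
  obtain ⟨hx3, hx30⟩ := H11.charDegree_spec χ₃.2
  rw [hx1, hx2, hx3] at h3 h2
  have h3Z : 1 + (ε₁ : ℤ) * (charDegree (χ₁ : G → ℂ) : ℤ) + ε₂ * (charDegree (χ₂ : G → ℂ) : ℤ) +
      ε₃ * (charDegree (χ₃ : G → ℂ) : ℤ) = 0 := by exact_mod_cast h3
  -- signs
  have hsgn : ε₁ = 1 ∧ ε₂ = 1 := by
    rw [hε₃] at hprod h3Z
    rcases hε.1 with ha | ha <;> rcases hε.2.1 with hb | hb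
    · exact ⟨ha, hb⟩
    · exfalso; rw [ha, hb] at hprod; omega
    · exfalso; rw [ha, hb] at hprod; omega
    · exfalso
      rw [ha, hb] at h3Z
      omega
  obtain ⟨ha, hb⟩ := hsgn
  subst ha hb hε₃
  -- oddness
  have hodd : ∀ χ : IrrCharacter G, (χ : G → ℂ) J = 1 → Odd (charDegree (χ : G → ℂ)) := by
    intro χ hχ
    have e1 := H11.li_char_mul_sub hM (irr_isChar χ.2) (x := J) (y := 1) (Commute.one_right J)
      ⟨1, by rw [hJ2, pow_one]⟩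
    rw [mul_one, hχ, (H11.charDegree_spec χ.2).1] at e1
    have e2 : MemLocalIdeal M (((1 - (charDegree (χ : G → ℂ) : ℤ) : ℤ)) : ℂ) := by
      push_cast; exact e1
    rw [H11.li_intCast_iff hM] at e2
    rw [Nat.odd_iff]
    omega
  have hval1 : (χ₁ : G → ℂ) J = 1 := by rw [hval.1]; norm_num
  have hval2 : (χ₂ : G → ℂ) J = 1 := by rw [hval.2.1]; norm_num
  have hval3 : (χ₃ : G → ℂ) J = -1 := by rw [hval.2.2]; norm_num
  -- indicator sum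
  have hind : 1 + fsInd (χ₁ : G → ℂ) + fsInd (χ₂ : G → ℂ) - fsInd (χ₃ : G → ℂ) = 0 := by
    have hsq : ∀ s : G, 1 + (χ₁ : G → ℂ) (s * s) + (χ₂ : G → ℂ) (s * s) -
        (χ₃ : G → ℂ) (s * s) = 0 := by
      intro s
      obtain ⟨u, v, huv, hc, ⟨k, hk⟩, hv⟩ := H11.exists_isPPart Nat.prime_two s
      have huu : u * u = 1 := by
        obtain ⟨x, hxP, hux⟩ := H4.exists_conj_mem_sylow P (t := u) (k := k)
          (by rw [← hk, pow_orderOf_eq_one])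
        obtain ⟨c, hcx⟩ := isConj_iff.mp hux
        have hxx := H4.klein_mul_self hV hxP
        calc u * u = c⁻¹ * ((c * u * c⁻¹) * (c * u * c⁻¹)) * c := by group
          _ = 1 := by rw [hcx, hxx]; group
      have hpp : IsPPart 2 (s * s) 1 := by
        refine ⟨v * v, ?_, Commute.one_left _, ⟨0, by rw [orderOf_one, pow_zero]⟩, ?_⟩
        · rw [one_mul, ← huv]
          calc v * v = (u * u) * (v * v) := by rw [huu, one_mul]
            _ = u * (u * v) * v := by group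
            _ = u * (v * u) * v := by rw [hc.eq]
            _ = u * v * (u * v) := by group
        · intro h0
          apply hv
          have : orderOf (v * v) ∣ orderOf v := by rw [← sq]; exact orderOf_pow_dvd 2
          exact h0.trans this
      have := h1 (s * s) 1 hpp hJn1
      push_cast at this
      linear_combination this
    have hcard : (Nat.card G : ℂ) ≠ 0 := by exact_mod_cast Nat.card_pos.ne'
    have hs := Finset.sum_eq_zero (s := (Finset.univ : Finset G)) fun s _ => hsq s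
    rw [Finset.sum_sub_distrib, Finset.sum_add_distrib, Finset.sum_add_distrib,
      Finset.sum_const, Finset.card_univ, nsmul_eq_mul, mul_one, ← Nat.card_eq_fintype_card] at hs
    unfold fsInd
    have e1 : (Nat.card G : ℂ)⁻¹ * Nat.card G = 1 := inv_mul_cancel₀ hcard
    linear_combination (Nat.card G : ℂ)⁻¹ * hs - e1
  -- conjugates
  have hmemB : ∀ χ ∈ principalBlock M G, χ ≠ χ₁ → χ ≠ χ₂ → χ ≠ χ₃ → (χ : G → ℂ) = fun _ => 1 := by
    intro χ hχ e1 e2 e3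
    rw [hB] at hχ
    rcases hχ with h | h | h | h
    · exact h
    · exact absurd h e1
    · exact absurd h e2
    · exact absurd h e3
  have hmB1 : χ₁ ∈ principalBlock M G := by rw [hB]; exact Or.inr (Or.inl rfl)
  have hmB2 : χ₂ ∈ principalBlock M G := by rw [hB]; exact Or.inr (Or.inr (Or.inl rfl))
  let cj₁ : IrrCharacter G := ⟨fun g => conj ((χ₁ : G → ℂ) g), isIrr_conj χ₁.2⟩
  let cj₂ : IrrCharacter G := ⟨fun g => conj ((χ₂ : G → ℂ) g), isIrr_conj χ₂.2⟩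
  have hcj₁ : cj₁ ∈ principalBlock M G := conj_mem_principal hmB1
  have hcj₂ : cj₂ ∈ principalBlock M G := conj_mem_principal hmB2
  have hne3 : ∀ χ : IrrCharacter G, (χ : G → ℂ) J = 1 → χ ≠ χ₃ := by
    rintro χ h rfl
    rw [hval3] at h
    norm_num at h
  have hcjJ₁ : (cj₁ : G → ℂ) J = 1 := by
    change conj ((χ₁ : G → ℂ) J) = 1
    rw [hval1, map_one]
  have hcjJ₂ : (cj₂ : G → ℂ) J = 1 := by
    change conj ((χ₂ : G → ℂ) J) = 1
    rw [hval2, map_one]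
  have hcjne₁ : (cj₁ : G → ℂ) ≠ fun _ => 1 := by
    intro h
    apply hdist.1
    funext g
    have := congrFun h g
    have h4 : conj ((χ₁ : G → ℂ) g) = 1 := this
    rw [← Complex.conj_conj ((χ₁ : G → ℂ) g), h4, map_one]
  have hcjne₂ : (cj₂ : G → ℂ) ≠ fun _ => 1 := by
    intro h
    apply hdist.2.1
    funext g
    have := congrFun h g
    have h4 : conj ((χ₂ : G → ℂ) g) = 1 := this
    rw [← Complex.conj_conj ((χ₂ : G → ℂ) g), h4, map_one]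
  have hreal : ∀ χ : IrrCharacter G, (χ : G → ℂ) J = 1 →
      (fun g => conj ((χ : G → ℂ) g)) = (χ : G → ℂ) → fsInd (χ : G → ℂ) = 1 := by
    intro χ hχ hr
    apply fsInd_eq_one_of_odd χ.2 _ _ (H11.charDegree_spec χ.2).1 (hodd χ hχ)
    intro g
    exact Complex.conj_eq_iff_im.mp (congrFun hr g)
  have hcj12 : cj₁ = χ₂ := by
    by_contra hne
    have h4 : cj₁ = χ₁ := by
      by_contra h5
      exact hcjne₁ (hmemB cj₁ hcj₁ h5 hne (hne3 _ hcjJ₁))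
    have h5 : cj₂ = χ₂ := by
      by_contra h6
      by_cases h7 : cj₂ = χ₁
      · apply h6
        have h8 : ∀ g, (χ₂ : G → ℂ) g = conj ((χ₁ : G → ℂ) g) := by
          intro g
          have h9 : conj ((χ₂ : G → ℂ) g) = (χ₁ : G → ℂ) g := by
            have := congrArg (fun χ : IrrCharacter G => (χ : G → ℂ) g) h7
            exact this
          rw [← h9, Complex.conj_conj]
        have h10 : χ₂ = cj₁ := Subtype.ext (funext h8)
        rw [h7, h10, h4]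
      · exact hcjne₂ (hmemB cj₂ hcj₂ h7 h6 (hne3 _ hcjJ₂))
    have h6 := hreal χ₁ hval1 (congrArg Subtype.val h4)
    have h7 := hreal χ₂ hval2 (congrArg Subtype.val h5)
    rw [h6, h7] at hind
    have h8 : fsInd (χ₃ : G → ℂ) = 3 := by linear_combination -hind
    rcases eq_or_ne (χ₃ : G → ℂ) (fun g => conj ((χ₃ : G → ℂ) g)) with h9 | h9
    · rcases (frobenius_schur χ₃.2).2 h9 with h10 | h10 <;> rw [h10] at h8 <;> norm_num at h8
    · rw [(frobenius_schur χ₃.2).1 h9] at h8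
      norm_num at h8
  have hx12 : charDegree (χ₂ : G → ℂ) = charDegree (χ₁ : G → ℂ) := by
    have h4 : (χ₂ : G → ℂ) 1 = (χ₁ : G → ℂ) 1 := by
      rw [← hcj12]
      change conj ((χ₁ : G → ℂ) 1) = _
      rw [hx1, Complex.conj_natCast]
    unfold charDegree
    rw [h4]
  -- the arithmetic
  obtain ⟨r, hr⟩ : Nat.card (Subgroup.centralizer ((P : Subgroup G) : Set G)) ∣
      Nat.card (Subgroup.centralizer ({J} : Set G)) := by
    apply Subgroup.card_dvd_of_le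
    exact Subgroup.centralizer_le (Set.singleton_subset_iff.mpr hJ)
  have hidx : Nat.card (Subgroup.centralizer ({J} : Set G)) *
      (Subgroup.centralizer ({J} : Set G)).index = Nat.card G := Subgroup.card_mul_index _
  obtain ⟨k, hk⟩ : charDegree (χ₁ : G → ℂ) ∣ (Subgroup.centralizer ({J} : Set G)).index := by
    apply nat_dvd_of_isIntegral hx10
    have h4 := H27.centralChar_isIntegral χ₁.2 J
    unfold centralChar at h4
    rw [hval1, hx1, mul_one] at h4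
    exact h4
  rw [hx12] at h3Z h2
  obtain ⟨x, hx⟩ : ∃ x, charDegree (χ₁ : G → ℂ) = x := ⟨_, rfl⟩
  obtain ⟨q, hq⟩ : ∃ q, charDegree (χ₃ : G → ℂ) = q := ⟨_, rfl⟩
  obtain ⟨c, hc⟩ : ∃ c, Nat.card (Subgroup.centralizer ({J} : Set G)) = c := ⟨_, rfl⟩
  obtain ⟨d, hd⟩ : ∃ d, Nat.card (Subgroup.centralizer ((P : Subgroup G) : Set G)) = d := ⟨_, rfl⟩
  have hc0 : c ≠ 0 := by rw [← hc]; exact Nat.card_pos.ne'
  have hd0 : d ≠ 0 := by rw [← hd]; exact Nat.card_pos.ne'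
  rw [hx] at h3Z h2 hk hx10
  rw [hq] at h3Z h2 hx30 ⊢
  rw [hc, hd] at hr h2 ⊢
  rw [hc, hk] at hidx
  rw [← hidx] at h2 ⊢
  have hqx : q = 2 * x + 1 := by omega
  -- h2 : c * (x * k) * (1 + 1/x + 1/x - 1/q) * d^2 = 8 c^3
  have hxC : (x : ℂ) ≠ 0 := by exact_mod_cast hx10
  have hqC : (q : ℂ) ≠ 0 := by exact_mod_cast hx30
  have hcC : (c : ℂ) ≠ 0 := by exact_mod_cast hc0
  have hdC : (d : ℂ) ≠ 0 := by exact_mod_cast hd0
  have hqxC : (q : ℂ) = 2 * x + 1 := by exact_mod_cast hqx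
  have hrC : (c : ℂ) = d * r := by exact_mod_cast hr
  have h4 : (k : ℂ) * (q + 1) ^ 2 = 16 * r ^ 2 * q := by
    have h5 : (c : ℂ) * d ^ 2 * ((k : ℂ) * (q + 1) ^ 2) = c * d ^ 2 * (16 * r ^ 2 * q) := by
      have h6 : ((c * (x * k) : ℕ) : ℂ) * (1 + ((1 : ℤ) : ℂ) / x + ((1 : ℤ) : ℂ) / x +
          ((-1 : ℤ) : ℂ) / q) = c * k * ((x + 2) * q - x) / q := by
        push_cast
        field_simp
        ring
      rw [h6, div_mul_eq_mul_div, div_eq_iff hqC] at h2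
      have h7 : ((x : ℂ) + 2) * q - x = (q + 1) ^ 2 / 2 := by
        rw [hqxC]; ring
      rw [h7] at h2
      have h8 : (c : ℂ) ^ 3 = c * (d * r) ^ 2 := by rw [← hrC]; ring
      rw [h8] at h2
      linear_combination 2 * h2
    exact mul_left_cancel₀ (mul_ne_zero hcC (pow_ne_zero 2 hdC)) h5
  have h4N : k * (q + 1) ^ 2 = 16 * r ^ 2 * q := by exact_mod_cast h4
  have h5 : (q + 1) ∣ 4 * r := by
    have h6 : (q + 1) ^ 2 ∣ (4 * r) ^ 2 := by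
      have h7 : (q + 1) ^ 2 ∣ (4 * r) ^ 2 * q := ⟨k, by rw [mul_comm ((q + 1) ^ 2) k, h4N]; ring⟩
      have h8 : Nat.Coprime ((q + 1) ^ 2) q := by
        apply Nat.Coprime.pow_left
        rw [Nat.coprime_comm, Nat.coprime_self_add_right]
        exact Nat.coprime_one_right q
      exact h8.dvd_of_dvd_mul_right h7
    exact (Nat.pow_dvd_pow_iff two_ne_zero).mp h6
  obtain ⟨m, hm⟩ := h5
  have hmC : (4 : ℂ) * r = (q + 1) * m := by exact_mod_cast hm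
  refine ⟨m, ?_, ?_⟩
  · rw [hr]
    calc 4 * (d * r) = d * (4 * r) := by ring
      _ = m * d * (q + 1) := by rw [hm]; ring
  · have h6 : q ≤ q ^ 3 := Nat.le_self_pow (by norm_num) q
    have h7 : ((q : ℂ) + 1) ≠ 0 := by exact_mod_cast Nat.succ_ne_zero q
    have h8 : (k : ℂ) = m ^ 2 * q := by
      have h9 : ((q : ℂ) + 1) ^ 2 * k = (q + 1) ^ 2 * (m ^ 2 * q) := by
        linear_combination h4 + q * (4 * r + (q + 1) * m) * hmC
      exact mul_left_cancel₀ (pow_ne_zero 2 h7) h9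
    have h9 : (8 : ℂ) * (c * (x * k)) = m ^ 3 * d * (q ^ 3 - q) := by
      rw [h8, hrC]
      have h10 : (2 : ℂ) * x = q - 1 := by rw [hqxC]; ring
      linear_combination (d * m ^ 2 * q * (q - 1)) * hmC + (4 * d * r * m ^ 2 * q) * h10
    have h10 : ((8 * (c * (x * k)) : ℕ) : ℂ) = ((m ^ 3 * d * (q ^ 3 - q) : ℕ) : ℂ) := by
      rw [Nat.cast_mul _ (q ^ 3 - q), Nat.cast_sub h6]
      push_cast
      exact h9
    exact_mod_cast h10

end Main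

end Cfsg.Agent.H26
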