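import Mathlib
import Cfsg.Agent.H26.Fong1

set_option autoImplicit false

/-!
# Fong's bound for the heights in `p`-solvable groups
-/

namespace Cfsg.Agent.H26

open MonoidAlgebra MulAction Cfsg Cfsg.Agent.H11 Cfsg.Agent.H3

universe u

theorem center_index_equiv {A B : Type*} [Group A] [Group B] (e : A ≃* B) :
    (Subgroup.center A).index = (Subgroup.center B).index := by
  have h : (Subgroup.center B).comap (e : A →* B) = Subgroup.center A := by
    ext x
    rw [Subgroup.mem_comap, Subgroup.mem_center_iff, Subgroup.mem_center_iff]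
    constructor
    · intro h y
      apply e.injective
      rw [map_mul, map_mul]
      exact h (e y)
    · intro h y
      obtain ⟨z, rfl⟩ := e.surjective y
      show e z * e x = e x * e z
      rw [← map_mul, ← map_mul, h z]
  rw [← h, Subgroup.index_comap_of_surjective _ e.surjective]

/-- Fong's bound. -/
theorem fong_height (p : ℕ) [Fact p.Prime] : ∀ (n : ℕ) (G : Type u) [Group G] [Finite G],
    Nat.card G = n → ∀ (M : Ideal AlgInt), IsPModular p M → IsPSolvable p G →
    ∀ (B : Set (IrrCharacter G)), IsPBlock M B → ∀ (P : Subgroup G), IsDefectGroup p M B P →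
    ∀ χ ∈ B, blockHeight p B (χ : G → ℂ) ≤ ((Subgroup.center P).index).factorization p := by
  intro n
  induction n using Nat.strong_induction_on with
  | _ n ih =>
  intro G _ _ hcard M hM hsolv B hB P hP χ hχ
  classical
  have hpr : M.IsPrime := hM.2.1.isPrime
  have hch : CharP (KF M) p := charP_KF hM
  have hfG : Fintype G := Fintype.ofFinite G
  obtain ⟨K, hKdef⟩ : ∃ K, K = pPrimeCore p G := ⟨_, rfl⟩
  have hK : K.Normal := by rw [hKdef]; exact H1.pPrimeCore_normal p G
  have hfK : Fintype K := Fintype.ofFinite K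
  have hcop : ¬ p ∣ Nat.card K := by rw [hKdef]; exact cop_pPrimeCore
  obtain ⟨θ, hθ⟩ := exists_constituent_restrict (N := K) χ
  have hb : IsPBlock M ({θ} : Set (IrrCharacter K)) := isPBlock_single hM hcop θ
  have hbe := isBlk_EH hb
  have hcov : EG M B * EH M K {θ} ≠ 0 :=
    (covB_iff hB hb).mp ⟨χ, hχ, θ, rfl, hθ⟩
  have hT : ∀ g : G, g ∈ stab ⊤ (EH M K ({θ} : Set (IrrCharacter K))) ↔
      ∀ θ₁ ∈ ({θ} : Set (IrrCharacter K)), ∀ θ' : IrrCharacter K,
      (∀ n : K, (θ' : K → ℂ) n = (θ₁ : K → ℂ) ⟨g * n * g⁻¹, hK.conj_mem n n.2 g⟩) →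
        θ' ∈ ({θ} : Set (IrrCharacter K)) := by
    intro g
    constructor
    · rintro hg θ₁ hθ₁ θ' h
      have e1 := eq_irrMap_of_conj h
      rw [e1]
      rw [irrMap_mem_iff hb hθ₁]
      exact mem_stab_top.mp (inv_mem hg)
    · intro h
      rw [← inv_inv g]
      refine inv_mem (mem_stab_top.mpr ?_)
      rw [← irrMap_mem_iff hb (θ := θ) rfl]
      apply h θ rfl
      intro n
      rw [irrMap_apply]
      apply congrArg (θ : K → ℂ)
      apply Subtype.ext
      show g⁻¹⁻¹ * (n : G) * g⁻¹ = _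
      rw [inv_inv]
  by_cases htop : stab ⊤ (EH M K ({θ} : Set (IrrCharacter K))) = ⊤
  · -- the invariant case
    have hinv : ∀ (g : G) (n : K),
        (θ : K → ℂ) ⟨g * n * g⁻¹, hK.conj_mem n n.2 g⟩ = (θ : K → ℂ) n := by
      intro g n
      have h1 := (hT g).mp (by rw [htop]; exact Subgroup.mem_top g) θ rfl
        (irrMap (normConj K (mem_nz_normal g⁻¹)) θ) (by
          intro n
          rw [irrMap_apply]
          apply congrArg (θ : K → ℂ)
          apply Subtype.ext
          show g⁻¹⁻¹ * (n : G) * g⁻¹ = _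
          rw [inv_inv])
      rw [Set.mem_singleton_iff] at h1
      have h2 := congrArg (fun ψ : IrrCharacter K => (ψ : K → ℂ) n) h1
      simp only [irrMap_apply] at h2
      rw [← h2]
      apply congrArg (θ : K → ℂ)
      apply Subtype.ext
      show _ = g⁻¹⁻¹ * (n : G) * g⁻¹
      rw [inv_inv]
    obtain ⟨B', hB', hmem, -, hsyl⟩ := st4492 p M hM hsolv K hKdef θ hinv
    have hχB' : χ ∈ B' := (hmem χ).mpr hθ
    have hBB : B = B' := by
      rw [isPBlock_eq_blockOf hB hχ, isPBlock_eq_blockOf hB' hχB']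
    subst hBB
    obtain ⟨S, rfl⟩ := hsyl P hP
    have h1 := degree_le_of_pSolvable hsolv hKdef hinv χ hθ S.2 S.not_dvd_index
    exact (Nat.sub_le _ _).trans h1
  · -- Fong reduction
    set T := stab ⊤ (EH M K ({θ} : Set (IrrCharacter K))) with hTdef
    have hKT : K ≤ T := le_stab_top hbe
    have hn : (K.subgroupOf T).Normal := hK.subgroupOf _
    obtain ⟨E', hE', hne, hsum⟩ := exists_FR hbe (isBlk_EG hB) hcov
    obtain ⟨B', hB', rfl⟩ := exists_EH hE'
    obtain ⟨B₀, hB₀, hE₀, hind, -⟩ := FR_block hb hB' hne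
    have hBB : B₀ = B := EG_injective hB₀ hB (by rw [hE₀, hsum])
    subst hBB
    have hfT : Fintype T := Fintype.ofFinite T
    obtain ⟨ψ, hψ, hψχ⟩ := FR_surj hb hB' hne hB hsum.symm hχ
    have hcov' := (cov_sub_iff hKT hn hB' hb).mpr hne
    obtain ⟨hdef, hht⟩ := st4436 p M hM K {θ} hb T hT hKT B' hB' hcov' B₀ hind
    obtain ⟨χ', hχ', hχ'i, hht'⟩ := hht ψ hψ
    have hχχ : (χ : G → ℂ) = (χ' : G → ℂ) := by
      rw [hψχ, hχ'i]
    rw [hχχ, hht']
    obtain ⟨D, hD⟩ := exists_isDefectGroup hM hB'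
    have hlt : Nat.card T < n := by
      rw [← hcard]
      exact Nat.lt_of_le_of_ne (Nat.card_le_card_of_injective _ T.subtype_injective) fun h =>
        htop (Subgroup.eq_top_of_card_eq T h)
    have hmain := ih _ hlt T rfl M hM (H23.isPSolvable_subgroup T hsolv) B' hB' D hD ψ hψ
    refine hmain.trans (le_of_eq ?_)
    congr 1
    have hD2 := hdef D hD
    have h3 := (isDefectGroup_iff_EG hB).mp hD2
    have h4 := (isDefectGroup_iff_EG hB).mp hP
    obtain ⟨g, -, hg⟩ := h3.unique h4
    have e1 : D ≃* (D.map T.subtype : Subgroup G) :=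
      D.equivMapOfInjective T.subtype T.subtype_injective
    have e2 : (D.map T.subtype : Subgroup G) ≃* P := by
      rw [← hg]
      exact Subgroup.equivMapOfInjective _ _ (MulAut.conj g).injective
    exact congrArg _ (center_index_equiv (e1.trans e2))

theorem st4439 {G : Type u} [Group G] [Finite G] (p : ℕ) [Fact p.Prime] (M : Ideal AlgInt)
    (hM : IsPModular p M) (hsolv : IsPSolvable p G) (B : Set (IrrCharacter G))
    (hB : IsPBlock M B) (P : Subgroup G) (hP : IsDefectGroup p M B P) (χ : IrrCharacter G)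
    (hχ : χ ∈ B) :
    blockHeight p B (χ : G → ℂ) ≤ ((Subgroup.center P).index).factorization p :=
  fong_height p _ G rfl M hM hsolv B hB P hP χ hχ

end Cfsg.Agent.H26
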