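import Mathlib
import Cfsg.Agent.H26.FM
import Cfsg.Agent.H23.Coprime4

set_option autoImplicit false

/-!
# Knörr–Robinson, I: toggling chains
-/

namespace Cfsg.Agent.H26

open Finset
open scoped commutatorElement

universe u

section Lat

variable {L : Type*} [Lattice L] [OrderBot L]

/-- chains as finsets -/
def IsCh (s : Finset L) : Prop := ∀ Q ∈ s, ∀ R ∈ s, Q ≤ R ∨ R ≤ Q

theorem IsCh.mono {s t : Finset L} (h : IsCh t) (hst : s ⊆ t) : IsCh s :=
  fun Q hQ R hR => h Q (hst hQ) R (hst hR)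

open Classical in
theorem IsCh.sup_mem {s : Finset L} (h : IsCh s) (hne : s.Nonempty) : s.sup id ∈ s := by
  induction s using Finset.induction with
  | empty => exact absurd hne Finset.not_nonempty_empty
  | insert a s ha ih =>
    rcases s.eq_empty_or_nonempty with h0 | h0
    · subst h0; simp
    · have h1 := ih (h.mono (Finset.subset_insert a s)) h0
      rw [Finset.sup_insert]
      rcases h a (Finset.mem_insert_self a s) _ (Finset.mem_insert_of_mem h1) with h2 | h2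
      · rw [id, sup_eq_right.mpr h2]; exact Finset.mem_insert_of_mem h1
      · rw [id, sup_eq_left.mpr h2]; exact Finset.mem_insert_self a s

open Classical in
/-- the largest member not above `Y` -/
noncomputable def P0 (Y : L) (s : Finset L) : L := (s.filter (fun Q => ¬ Y ≤ Q)).sup id

theorem P0_mem_or {Y : L} {s : Finset L} (h : IsCh s) : P0 Y s ∈ s ∨ P0 Y s = ⊥ := by
  classical
  unfold P0
  rcases (s.filter (fun Q => ¬ Y ≤ Q)).eq_empty_or_nonempty with h0 | h0
  · right; rw [h0]; rfl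
  · left
    exact (Finset.mem_filter.mp ((h.mono (Finset.filter_subset _ s)).sup_mem h0)).1

theorem P0_le_of_ge {Y : L} {s : Finset L} (h : IsCh s) {Q : L} (hQ : Q ∈ s) (hY : Y ≤ Q) :
    P0 Y s ≤ Q := by
  classical
  unfold P0
  apply Finset.sup_le
  intro R hR
  rw [Finset.mem_filter] at hR
  rcases h R hR.1 Q hQ with h1 | h1
  · exact h1
  · exact absurd (hY.trans h1) hR.2

theorem le_P0 {Y : L} {s : Finset L} {Q : L} (hQ : Q ∈ s) (hY : ¬ Y ≤ Q) : Q ≤ P0 Y s := by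
  classical
  unfold P0
  exact Finset.le_sup (f := id) (Finset.mem_filter.mpr ⟨hQ, hY⟩)

theorem P0_le_sup {Y : L} {s : Finset L} : P0 Y s ≤ s.sup id := by
  classical
  unfold P0
  exact Finset.sup_mono (Finset.filter_subset _ s)

open Classical in
/-- toggling -/
noncomputable def tg (Y : L) (s : Finset L) : Finset L :=
  if P0 Y s ⊔ Y ∈ s then s.erase (P0 Y s ⊔ Y) else insert (P0 Y s ⊔ Y) s

theorem tg_of_mem {Y : L} {s : Finset L} (h : P0 Y s ⊔ Y ∈ s) [DecidableEq L] :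
    tg Y s = s.erase (P0 Y s ⊔ Y) := by
  unfold tg
  rw [if_pos h]
  congr!

theorem tg_of_notMem {Y : L} {s : Finset L} (h : P0 Y s ⊔ Y ∉ s) [DecidableEq L] :
    tg Y s = insert (P0 Y s ⊔ Y) s := by
  unfold tg
  rw [if_neg h]
  congr!

open Classical in
theorem P0_tg (Y : L) (s : Finset L) : P0 Y (tg Y s) = P0 Y s := by
  have h1 : (tg Y s).filter (fun Q => ¬ Y ≤ Q) = s.filter (fun Q => ¬ Y ≤ Q) := by
    unfold tg
    ext Q
    rw [Finset.mem_filter, Finset.mem_filter]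
    split_ifs with h
    · rw [Finset.mem_erase]
      constructor
      · exact fun h2 => ⟨h2.1.2, h2.2⟩
      · intro h2
        refine ⟨⟨?_, h2.1⟩, h2.2⟩
        rintro rfl
        exact h2.2 le_sup_right
    · rw [Finset.mem_insert]
      constructor
      · rintro ⟨rfl | h2, h3⟩
        · exact absurd le_sup_right h3
        · exact ⟨h2, h3⟩
      · exact fun h2 => ⟨Or.inr h2.1, h2.2⟩
  conv_lhs => unfold P0
  rw [h1]
  rfl

theorem tg_tg (Y : L) (s : Finset L) : tg Y (tg Y s) = s := by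
  classical
  by_cases h : P0 Y s ⊔ Y ∈ s
  · have h1 : P0 Y (tg Y s) ⊔ Y ∉ tg Y s := by
      rw [P0_tg, tg_of_mem h]; exact Finset.notMem_erase _ _
    rw [tg_of_notMem h1, P0_tg, tg_of_mem h, Finset.insert_erase h]
  · have h1 : P0 Y (tg Y s) ⊔ Y ∈ tg Y s := by
      rw [P0_tg, tg_of_notMem h]; exact Finset.mem_insert_self _ _
    rw [tg_of_mem h1, P0_tg, tg_of_notMem h, Finset.erase_insert h]

theorem card_tg (Y : L) (s : Finset L) : (-1 : ℂ) ^ (tg Y s).card = - (-1 : ℂ) ^ s.card := by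
  classical
  unfold tg
  split_ifs with h
  · rw [Finset.card_erase_of_mem h]
    have h1 : s.card = (s.card - 1) + 1 := (Nat.sub_add_cancel (Finset.card_pos.mpr ⟨_, h⟩)).symm
    conv_rhs => rw [h1, pow_succ]
    ring
  · rw [Finset.card_insert_of_notMem h, pow_succ]; ring

theorem tg_ne (Y : L) (s : Finset L) : tg Y s ≠ s := by
  intro h
  have h1 := card_tg Y s
  rw [h] at h1
  have h2 : ((-1 : ℂ) ^ s.card) ≠ 0 := pow_ne_zero _ (by norm_num)
  apply h2
  linear_combination (1 / 2) * h1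

theorem mem_tg {Y : L} {s : Finset L} {Q : L} (h : Q ∈ tg Y s) : Q ∈ s ∨ Q = P0 Y s ⊔ Y := by
  classical
  unfold tg at h
  split_ifs at h with h1
  · exact Or.inl (Finset.mem_of_mem_erase h)
  · rw [Finset.mem_insert] at h
    exact h.symm

theorem isCh_tg {Y : L} {s : Finset L} (h : IsCh s) : IsCh (tg Y s) := by
  have key : ∀ Q ∈ s, Q ≤ P0 Y s ⊔ Y ∨ P0 Y s ⊔ Y ≤ Q := by
    intro Q hQ
    by_cases hY : Y ≤ Q
    · exact Or.inr (sup_le (P0_le_of_ge h hQ hY) hY)
    · exact Or.inl ((le_P0 hQ hY).trans le_sup_left)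
  intro Q hQ R hR
  rcases mem_tg hQ with h1 | h1 <;> rcases mem_tg hR with h2 | h2
  · exact h Q h1 R h2
  · rw [h2]; exact key Q h1
  · rw [h1]; exact (key R h2).symm
  · rw [h1, h2]; exact Or.inl le_rfl

theorem sup_tg_sup (Y : L) {s : Finset L} : (tg Y s).sup id ⊔ Y = s.sup id ⊔ Y := by
  classical
  apply le_antisymm
  · apply sup_le _ le_sup_right
    apply Finset.sup_le
    intro Q hQ
    rcases mem_tg hQ with h1 | h1
    · exact (Finset.le_sup (f := id) h1).trans le_sup_left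
    · rw [h1]; exact sup_le (P0_le_sup.trans le_sup_left) le_sup_right
  · apply sup_le _ le_sup_right
    apply Finset.sup_le
    intro Q hQ
    by_cases h1 : Q ∈ tg Y s
    · exact (Finset.le_sup (f := id) h1).trans le_sup_left
    · have h2 : Q = P0 Y s ⊔ Y := by
        unfold tg at h1
        split_ifs at h1 with h3
        · by_contra h4
          exact h1 (Finset.mem_erase.mpr ⟨h4, hQ⟩)
        · exact absurd (Finset.mem_insert_of_mem hQ) h1
      rw [h2]
      have h3 : P0 Y s ≤ (tg Y s).sup id := by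
        rw [← P0_tg]; exact P0_le_sup
      exact sup_le (h3.trans le_sup_left) le_sup_right

open Classical in
/-- sums over toggled families vanish -/
theorem sum_tg_zero {C : Finset (Finset L)} (Y : Finset L → L)
    (hY : ∀ s ∈ C, Y (tg (Y s) s) = Y s) (hC : ∀ s ∈ C, tg (Y s) s ∈ C)
    (w : Finset L → ℂ) (hw : ∀ s ∈ C, w (tg (Y s) s) = w s) :
    ∑ s ∈ C, (-1 : ℂ) ^ s.card * w s = 0 := by
  apply Finset.sum_involution (fun s _ => tg (Y s) s)
  · intro s hs
    rw [hw s hs, card_tg]; ring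
  · intro s hs _
    exact tg_ne _ _
  · intro s hs
    exact hC s hs
  · intro s hs
    change tg (Y (tg (Y s) s)) (tg (Y s) s) = s
    rw [hY s hs, tg_tg]

end Lat

section Grp

variable {G : Type u} [Group G] {p : ℕ} [hp : Fact p.Prime]

/-- the chains of nontrivial `p`-subgroups normalised by `A` -/
def CA (p : ℕ) (A : Subgroup G) (s : Finset (Subgroup G)) : Prop :=
  IsCh s ∧ ∀ Q ∈ s, Q ≠ ⊥ ∧ IsPGroup p Q ∧ A ≤ nz Q

/-- normality in the largest member -/
def NmC (s : Finset (Subgroup G)) : Prop := ∀ Q ∈ s, s.sup id ≤ nz Q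

omit hp in
theorem nz_sup_le {Q R : Subgroup G} : nz Q ⊓ nz R ≤ nz (Q ⊔ R) := by
  rintro a ⟨h1, h2⟩
  apply mem_nz_of_cg_eq
  have h3 : cg (Q ⊔ R) a = cg Q a ⊔ cg R a := Subgroup.map_sup _ _ _
  rw [h3, cg_eq_of_mem_nz h1, cg_eq_of_mem_nz h2]

omit hp in
theorem le_nz_bot (A : Subgroup G) : A ≤ nz (⊥ : Subgroup G) := by
  intro a _
  apply mem_nz_of_cg_eq
  exact Subgroup.map_bot _

omit hp in
theorem CA.P0_nz {A : Subgroup G} (Y : Subgroup G) {s : Finset (Subgroup G)} (h : CA p A s) :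
    A ≤ nz (P0 Y s) := by
  rcases P0_mem_or (Y := Y) h.1 with h1 | h1
  · exact (h.2 _ h1).2.2
  · rw [h1]; exact le_nz_bot A

theorem CA.P0_pg {A : Subgroup G} (Y : Subgroup G) {s : Finset (Subgroup G)} (h : CA p A s) :
    IsPGroup p (P0 Y s : Subgroup G) := by
  rcases P0_mem_or (Y := Y) h.1 with h1 | h1
  · exact (h.2 _ h1).2.1
  · rw [h1]; exact IsPGroup.of_bot

omit hp in
theorem CA.tg {A Y : Subgroup G} {s : Finset (Subgroup G)} (h : CA p A s) (hY1 : Y ≠ ⊥)
    (hYA : A ≤ nz Y) (hX : IsPGroup p (P0 Y s ⊔ Y : Subgroup G)) : CA p A (tg Y s) := by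
  refine ⟨isCh_tg h.1, ?_⟩
  intro Q hQ
  rcases mem_tg hQ with h1 | h1
  · exact h.2 Q h1
  · rw [h1]
    exact ⟨fun h2 => hY1 (le_bot_iff.mp (h2 ▸ le_sup_right)), hX,
      (le_inf (h.P0_nz Y) hYA).trans nz_sup_le⟩

open Classical in
/-- All chains: toggling with a normalised `p`-subgroup. -/
theorem sum_all_chains [Finite G] [Fintype (Subgroup G)] {A Y : Subgroup G} (hY1 : Y ≠ ⊥)
    (hYp : IsPGroup p Y) (hYA : Y ≤ A) (hAY : A ≤ nz Y) (w : Subgroup G → ℂ)
    (hw : ∀ Q, w (Q ⊔ Y) = w Q) :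
    ∑ s : Finset (Subgroup G) with CA p A s, (-1 : ℂ) ^ s.card * w (s.sup id) = 0 := by
  apply sum_tg_zero (fun _ => Y) (fun _ _ => rfl)
  · intro s hs
    rw [Finset.mem_filter] at hs ⊢
    refine ⟨Finset.mem_univ _, hs.2.tg hY1 hAY ?_⟩
    rw [sup_comm]
    exact isPGroup_sup (hs.2.P0_pg Y) hYp (hYA.trans (hs.2.P0_nz Y))
  · intro s _
    change w ((tg Y s).sup id) = w (s.sup id)
    rw [← hw, sup_tg_sup, hw]

theorem eq_of_sup_commutator [Finite G] {T Q : Subgroup G} (hT : IsPGroup p T) (hQ : Q ≤ T)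
    (h : Q ⊔ ⁅T, T⁆ = T) : Q = T := by
  have h1 : commutator T ≤ frattini T :=
    H23.commutator_le_frattini_of_isNilpotent hT.isNilpotent
  have h2 : (commutator T).map T.subtype = ⁅T, T⁆ := by
    rw [commutator_def, Subgroup.map_commutator, ← MonoidHom.range_eq_map,
      Subgroup.range_subtype]
  have h3 : Q.subgroupOf T ⊔ frattini T = ⊤ := by
    rw [eq_top_iff]
    intro x _
    have h4 : (x : G) ∈ (Q.subgroupOf T ⊔ commutator T).map T.subtype := by
      rw [Subgroup.map_sup, h2, Subgroup.subgroupOf_map_subtype, inf_eq_left.mpr hQ, h]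
      exact x.2
    obtain ⟨y, hy, hyx⟩ := h4
    have : y = x := Subtype.ext hyx
    rw [this] at hy
    exact (sup_le_sup_left h1 _) hy
  have h5 := frattini_nongenerating h3
  exact le_antisymm hQ (Subgroup.subgroupOf_eq_top.mp h5)

theorem le_nz_commutator {A T : Subgroup G} (h : A ≤ nz T) : A ≤ nz ⁅T, T⁆ := by
  intro a ha
  apply mem_nz_of_cg_eq
  have h1 : cg ⁅T, T⁆ a = ⁅cg T a, cg T a⁆ := Subgroup.map_commutator _ _ _
  rw [h1, cg_eq_of_mem_nz (h ha)]

theorem le_nz_of_commutator_eq_bot {T Q : Subgroup G} (h : ⁅T, T⁆ = ⊥) (hQ : Q ≤ T) :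
    T ≤ nz Q := by
  have h1 : T ≤ Subgroup.centralizer (T : Set G) := by
    rwa [← Subgroup.commutator_eq_bot_iff_le_centralizer]
  exact h1.trans ((cz_anti hQ).trans (centralizer_le_normalizer' Q))

open Classical in
/-- Non-normal chains contribute nothing. -/
theorem sum_nonnormal [Finite G] [Fintype (Subgroup G)] {A : Subgroup G} (w : Subgroup G → ℂ) :
    ∑ s : Finset (Subgroup G) with CA p A s ∧ ¬ NmC s, (-1 : ℂ) ^ s.card * w (s.sup id) = 0 := by
  have hkey : ∀ s : Finset (Subgroup G), CA p A s → ¬ NmC s → s.sup id ∈ s ∧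
      ⁅s.sup id, s.sup id⁆ ≠ ⊥ ∧ (tg ⁅s.sup id, s.sup id⁆ s).sup id = s.sup id ∧
      CA p A (tg ⁅s.sup id, s.sup id⁆ s) ∧ ¬ NmC (tg ⁅s.sup id, s.sup id⁆ s) := by
    intro s hs hN
    have hne : s.Nonempty := by
      rw [Finset.nonempty_iff_ne_empty]
      rintro rfl
      exact hN (fun Q hQ => absurd hQ (Finset.notMem_empty Q))
    have hTs := hs.1.sup_mem hne
    set T := s.sup id with hT
    have hTp : IsPGroup p T := (hs.2 T hTs).2.1
    have hle : ∀ Q ∈ s, Q ≤ T := fun Q hQ => Finset.le_sup (f := id) hQ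
    have hYT : ⁅T, T⁆ ≤ T := Subgroup.commutator_le_self T
    have hY1 : ⁅T, T⁆ ≠ ⊥ := by
      intro h
      exact hN (fun Q hQ => le_nz_of_commutator_eq_bot h (hle Q hQ))
    have hP0T : P0 ⁅T, T⁆ s ≤ T := P0_le_sup
    have hXT : P0 ⁅T, T⁆ s ⊔ ⁅T, T⁆ ≤ T := sup_le hP0T hYT
    have hXne : P0 ⁅T, T⁆ s ⊔ ⁅T, T⁆ ≠ T := by
      intro h
      have h1 := eq_of_sup_commutator hTp hP0T h
      rcases P0_mem_or (Y := ⁅T, T⁆) hs.1 with h2 | h2
      · have h3 : (s.filter (fun Q => ¬ ⁅T, T⁆ ≤ Q)).Nonempty := by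
          rw [Finset.nonempty_iff_ne_empty]
          intro h4
          have h5 : P0 ⁅T, T⁆ s = ⊥ := by unfold P0; rw [h4]; rfl
          rw [h5] at h1
          exact (hs.2 T hTs).1 h1.symm
        have h4 := (hs.1.mono (Finset.filter_subset _ s)).sup_mem h3
        have h5 := (Finset.mem_filter.mp h4).2
        apply h5
        change ⁅T, T⁆ ≤ P0 ⁅T, T⁆ s
        rw [h1]; exact hYT
      · rw [h2] at h1
        exact (hs.2 T hTs).1 h1.symm
    have hsup : (tg ⁅T, T⁆ s).sup id = T := by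
      apply le_antisymm
      · apply Finset.sup_le
        intro Q hQ
        rcases mem_tg hQ with h1 | h1
        · exact hle Q h1
        · rw [h1]; exact hXT
      · have h1 : T ∈ tg ⁅T, T⁆ s := by
          by_cases h : P0 ⁅T, T⁆ s ⊔ ⁅T, T⁆ ∈ s
          · rw [tg_of_mem h]
            exact Finset.mem_erase.mpr ⟨Ne.symm hXne, hTs⟩
          · rw [tg_of_notMem h]
            exact Finset.mem_insert_of_mem hTs
        exact Finset.le_sup (f := id) h1
    have hAT : A ≤ nz T := (hs.2 T hTs).2.2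
    refine ⟨hTs, hY1, hsup, hs.tg hY1 (le_nz_commutator hAT) (hTp.to_le hXT), ?_⟩
    intro hN'
    apply hN
    have hT' : ∀ Q ∈ tg ⁅T, T⁆ s, T ≤ nz Q := by
      intro Q hQ
      have := hN' Q hQ
      rwa [hsup] at this
    intro Q hQ
    by_cases h1 : Q ∈ tg ⁅T, T⁆ s
    · exact hT' Q h1
    · have h2 : Q = P0 ⁅T, T⁆ s ⊔ ⁅T, T⁆ := by
        by_cases h3 : P0 ⁅T, T⁆ s ⊔ ⁅T, T⁆ ∈ s
        · rw [tg_of_mem h3] at h1
          by_contra h4
          exact h1 (Finset.mem_erase.mpr ⟨h4, hQ⟩)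
        · rw [tg_of_notMem h3] at h1
          exact absurd (Finset.mem_insert_of_mem hQ) h1
      rw [h2]
      have h4 : T ≤ nz (P0 ⁅T, T⁆ s) := by
        have h5 : P0 ⁅T, T⁆ s = P0 ⁅T, T⁆ (tg ⁅T, T⁆ s) := (P0_tg _ _).symm
        rcases P0_mem_or (Y := ⁅T, T⁆) (isCh_tg (Y := ⁅T, T⁆) hs.1) with h6 | h6
        · rw [h5]; exact hT' _ h6
        · rw [h5, h6]; exact le_nz_bot T
      exact (le_inf h4 (le_nz_commutator (Subgroup.le_normalizer))).trans nz_sup_le
  apply sum_tg_zero (fun s => ⁅s.sup id, s.sup id⁆)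
  · intro s hs
    obtain ⟨h1, h2⟩ := (Finset.mem_filter.mp hs).2
    have h3 := (hkey s h1 h2).2.2.1
    change ⁅(tg ⁅s.sup id, s.sup id⁆ s).sup id, (tg ⁅s.sup id, s.sup id⁆ s).sup id⁆ = _
    rw [h3]
  · intro s hs
    obtain ⟨h1, h2⟩ := (Finset.mem_filter.mp hs).2
    obtain ⟨-, -, -, h3, h4⟩ := hkey s h1 h2
    exact Finset.mem_filter.mpr ⟨Finset.mem_univ _, h3, h4⟩
  · intro s hs
    obtain ⟨h1, h2⟩ := (Finset.mem_filter.mp hs).2
    have h3 := (hkey s h1 h2).2.2.1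
    change w ((tg ⁅s.sup id, s.sup id⁆ s).sup id) = _
    rw [h3]

open Classical in
/-- The sum over normal chains. -/
theorem sum_normal_chains [Finite G] [Fintype (Subgroup G)] {A Y : Subgroup G} (hY1 : Y ≠ ⊥)
    (hYp : IsPGroup p Y) (hYA : Y ≤ A) (hAY : A ≤ nz Y) (w : Subgroup G → ℂ)
    (hw : ∀ Q, w (Q ⊔ Y) = w Q) :
    ∑ s : Finset (Subgroup G) with CA p A s ∧ NmC s, (-1 : ℂ) ^ s.card * w (s.sup id) = 0 := by
  have h1 := sum_all_chains hY1 hYp hYA hAY w hw
  have h2 := sum_nonnormal (p := p) (A := A) w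
  rw [← Finset.sum_filter_add_sum_filter_not _ (fun s => NmC s), Finset.filter_filter,
    Finset.filter_filter, h2, add_zero] at h1
  exact h1

end Grp

end Cfsg.Agent.H26
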