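import Mathlib
import Cfsg.Agent.H26.KR1
import Cfsg.Agent.H26.KR2
import Cfsg.Agent.H26.Star12

set_option autoImplicit false

/-!
# Knörr–Robinson, III: the alternating sum
-/

namespace Cfsg.Agent.H26

open MonoidAlgebra MulAction Cfsg Cfsg.Agent.H11 Cfsg.Agent.H3 Finset
open scoped ComplexConjugate

universe u

section Tr

variable {G : Type u} [Group G] [Fintype G] {p : ℕ} [hp : Fact p.Prime]

/-- The trace formula for unions of blocks. -/
theorem blockRank_trace_of {B : Set (IrrCharacter G)}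
    (hB : ∀ ψ ∈ B, ∀ χ ∉ B, mm p (ψ : G → ℂ) (χ : G → ℂ) = 0) :
    (blockRank p B : ℂ) = ∑ᶠ χ ∈ B, mm p (χ : G → ℂ) (χ : G → ℂ) := by
  classical
  let _ : Fintype (IrrCharacter G) := Fintype.ofFinite _
  let V : Submodule ℂ (G → ℂ) :=
    Submodule.span ℂ ((fun χ : IrrCharacter G => pRegularPart p (χ : G → ℂ)) '' B)
  let φ : IrrCharacter G → (G → ℂ) →ₗ[ℂ] ℂ := fun χ =>
    { toFun := fun f => classInner f (χ : G → ℂ)
      map_add' := fun a b => classInner_add_left a b _
      map_smul' := fun a b => classInner_smul_left a b _ }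
  let P : (G → ℂ) →ₗ[ℂ] (G → ℂ) := ∑ χ ∈ univ.filter (· ∈ B),
    (φ χ).smulRight (pRegularPart p (χ : G → ℂ))
  have hP : ∀ f, P f = ∑ χ ∈ univ.filter (· ∈ B),
      classInner f (χ : G → ℂ) • pRegularPart p (χ : G → ℂ) := by
    intro f
    simp only [P, LinearMap.sum_apply, LinearMap.smulRight_apply]
    rfl
  have hproj : LinearMap.IsProj V P := by
    constructor
    · intro f
      rw [hP]
      refine Submodule.sum_mem _ fun χ hχ => Submodule.smul_mem _ _ ?_
      exact Submodule.subset_span ⟨χ, (Finset.mem_filter.mp hχ).2, rfl⟩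
    · intro f hf
      induction hf using Submodule.span_induction with
      | mem f hf =>
        obtain ⟨ψ, hψ, rfl⟩ := hf
        rw [hP]
        ext g
        change (∑ χ ∈ univ.filter (· ∈ B), mm p (ψ : G → ℂ) (χ : G → ℂ) •
          pRegularPart p (χ : G → ℂ)) g = pRegularPart p (ψ : G → ℂ) g
        rw [Finset.sum_apply]
        simp only [Pi.smul_apply, smul_eq_mul]
        by_cases hg : p ∣ orderOf g
        · rw [pr_sing hg, Finset.sum_eq_zero]
          intro χ _
          rw [pr_sing hg, mul_zero]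
        · rw [mm_expand p (irr_classFun ψ.2) g, Finset.sum_filter]
          apply Finset.sum_congr rfl
          intro χ _
          split_ifs with hχ
          · rw [pr_reg hg]
          · rw [hB ψ hψ χ hχ, zero_mul]
      | zero => exact map_zero _
      | add a b _ _ ha hb => rw [map_add, ha, hb]
      | smul c a _ ha => rw [map_smul, ha]
  have h1 := hproj.trace
  have h2 : (LinearMap.trace ℂ (G → ℂ)) P = ∑ᶠ χ ∈ B, mm p (χ : G → ℂ) (χ : G → ℂ) := by
    rw [finsum_mem_irr, map_sum]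
    apply Finset.sum_congr rfl
    intro χ _
    rw [LinearMap.trace_smulRight]
    rfl
  rw [← h2, h1]
  rfl

open Classical in
/-- `|G| (k - l)` as a sum over the `p`-singular elements. -/
theorem card_sub_rank {B : Set (IrrCharacter G)}
    (hB : ∀ ψ ∈ B, ∀ χ ∉ B, mm p (ψ : G → ℂ) (χ : G → ℂ) = 0) :
    (Nat.card G : ℂ) * ((Nat.card B : ℂ) - (blockRank p B : ℂ)) =
      ∑ x : G with p ∣ orderOf x, kr B x x := by
  let _ : Fintype (IrrCharacter G) := Fintype.ofFinite _
  have hG : (Nat.card G : ℂ) ≠ 0 := by exact_mod_cast Nat.card_pos.ne'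
  have h1 : (Nat.card B : ℂ) = ∑ χ : IrrCharacter G with χ ∈ B, (1 : ℂ) := by
    rw [natCard_block, Finset.sum_const, nsmul_eq_mul, mul_one]
  have h2 : ∀ χ : IrrCharacter G, (Nat.card G : ℂ) * (1 - mm p (χ : G → ℂ) (χ : G → ℂ)) =
      ∑ x : G with p ∣ orderOf x, (χ : G → ℂ) x * conj ((χ : G → ℂ) x) := by
    intro χ
    rw [mm_eq_sum, mul_sub, ← mul_assoc, mul_inv_cancel₀ hG, one_mul, mul_one]
    have h3 : classInner (χ : G → ℂ) (χ : G → ℂ) = 1 := classInner_self_of_irr χ.2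
    unfold classInner at h3
    have h4 : (Nat.card G : ℂ) = ∑ x : G, (χ : G → ℂ) x * conj ((χ : G → ℂ) x) := by
      have h5 := congrArg (fun z => (Nat.card G : ℂ) * z) h3
      simp only [mul_one] at h5
      rw [← mul_assoc, mul_inv_cancel₀ hG, one_mul] at h5
      exact h5.symm
    rw [h4, ← Finset.sum_filter_add_sum_filter_not univ (fun x : G => p ∣ orderOf x)]
    ring
  rw [blockRank_trace_of hB, finsum_mem_irr, h1, ← Finset.sum_sub_distrib, Finset.mul_sum,
    Finset.sum_congr rfl (fun χ _ => h2 χ), Finset.sum_comm]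
  apply Finset.sum_congr rfl
  intro x _
  rw [kr_eq]

end Tr

section Id

variable {M : Ideal AlgInt} [hM : M.IsPrime] {p : ℕ} [hp : Fact p.Prime]
variable {G : Type u} [Group G] [Fintype G]

theorem ub_mm (hMp : IsPModular p M) {H : Subgroup G} [Fintype H] {a : MonoidAlgebra (KF M) G} :
    ∀ ψ ∈ ub H a, ∀ χ ∉ ub H a, mm p (ψ : H → ℂ) (χ : H → ℂ) = 0 := by
  intro ψ hψ χ hχ
  apply mm_eq_zero hMp
  intro h
  apply hχ
  obtain ⟨f, hf, hψf⟩ := hψ
  exact ⟨f, hf, (mem_isPBlock_iff (isPBlock_bs (mem_bf.mp hf).1).1 hψf).mpr h⟩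

open Classical in
/-- `|H| (k - l)` for the characters of an idempotent. -/
theorem card_sub_rank_ub (hMp : IsPModular p M) {H : Subgroup G} {a : MonoidAlgebra (KF M) G} :
    (Nat.card H : ℂ) * ((Nat.card (ub H a) : ℂ) - (blockRank p (ub H a) : ℂ)) =
      ∑ h : G with h ∈ H ∧ p ∣ orderOf h, ∑ c : G with c ∈ H,
        epsl H a (h⁻¹ * c * h * c⁻¹) := by
  have hfH := Fintype.ofFinite H
  rw [card_sub_rank (ub_mm hMp)]
  rw [Finset.sum_filter, Finset.sum_filter]
  rw [← Finset.sum_subset (Finset.subset_univ (univ.filter (· ∈ H))) (fun x _ hx => by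
    rw [if_neg]; intro h; exact hx (Finset.mem_filter.mpr ⟨Finset.mem_univ _, h.1⟩)),
    Finset.sum_subtype (univ.filter (· ∈ H)) (p := (· ∈ H)) (by simp)]
  apply Finset.sum_congr rfl
  intro h _
  have ho : orderOf (h : G) = orderOf h := Subgroup.orderOf_coe h
  by_cases hh : p ∣ orderOf h
  · rw [if_pos hh, if_pos ⟨h.2, by rwa [ho]⟩, kr_ub]
    unfold epsl
    rw [Finset.sum_comm]
    apply Finset.sum_congr rfl
    intro f _
    rw [sum_ec_conj h.2 h.2]
  · rw [if_neg hh, if_neg]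
    rintro ⟨_, h2⟩
    rw [ho] at h2
    exact hh h2

open Classical in
/-- `|G| (k - l)` for a block. -/
theorem card_sub_rank_top (hMp : IsPModular p M) {b : Set (IrrCharacter G)} (hb : IsPBlock M b) :
    (Nat.card G : ℂ) * ((Nat.card b : ℂ) - (blockRank p b : ℂ)) =
      ∑ h : G with h ∈ (⊤ : Subgroup G) ∧ p ∣ orderOf h, ∑ c : G with c ∈ (⊤ : Subgroup G),
        epsl (⊤ : Subgroup G) (EG M b) (h⁻¹ * c * h * c⁻¹) := by
  rw [card_sub_rank (fun ψ hψ χ hχ => mm_eq_zero hMp (fun h => hχ ((mem_isPBlock_iff hb hψ).mpr h)))]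
  have h1 : bf (⊤ : Subgroup G) (EG M b) = {EG M b} := by
    have h2 := bf_top (isBlk_EG (M := M) hb)
    rwa [cz_zpowers_one, Subgroup.zpowers_one_eq_bot, br_bot] at h2
  simp only [Subgroup.mem_top, true_and, Finset.filter_true]
  apply Finset.sum_congr rfl
  intro h _
  rw [← sum_blockCoeff_conj]
  apply Finset.sum_congr rfl
  intro c _
  unfold epsl
  rw [h1, Finset.sum_singleton, ec_top hb]

end Id

section Main

variable {M : Ideal AlgInt} [hM : M.IsPrime] {p : ℕ} [hp : Fact p.Prime] [hch : CharP (KF M) p]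
variable {G : Type u} [Group G] [Fintype G]

/-- the stabiliser of a chain -/
def Ns (s : Finset (Subgroup G)) : Subgroup G := ⨅ Q ∈ s, nz Q

omit [Fintype G] in
theorem mem_Ns {s : Finset (Subgroup G)} {g : G} : g ∈ Ns s ↔ ∀ Q ∈ s, g ∈ nz Q := by
  unfold Ns
  simp only [Subgroup.mem_iInf]

omit [Fintype G] in
theorem sup_le_Ns {s : Finset (Subgroup G)} (h : NmC s) : s.sup id ≤ Ns s := by
  intro x hx
  rw [mem_Ns]
  exact fun Q hQ => h Q hQ hx

omit [Fintype G] in
theorem Ns_le_nz {s : Finset (Subgroup G)} (h : IsCh s) : Ns s ≤ nz (s.sup id) := by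
  classical
  rcases s.eq_empty_or_nonempty with h0 | h0
  · subst h0
    rw [Finset.sup_empty]
    exact le_nz_bot _
  · intro x hx
    exact mem_Ns.mp hx _ (h.sup_mem h0)

omit [Fintype G] in
theorem cz_le_Ns {s : Finset (Subgroup G)} : cz (s.sup id) ≤ Ns s := by
  intro x hx
  rw [mem_Ns]
  intro Q hQ
  exact centralizer_le_normalizer' Q (cz_anti (Finset.le_sup (f := id) hQ) hx)

omit [Fintype G] hp in
theorem isPGroup_chain {s : Finset (Subgroup G)} (h : IsCh s)
    (h2 : ∀ Q ∈ s, Q ≠ ⊥ ∧ IsPGroup p Q) : IsPGroup p (s.sup id : Subgroup G) := by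
  classical
  rcases s.eq_empty_or_nonempty with h0 | h0
  · subst h0
    exact IsPGroup.of_bot
  · exact (h2 _ (h.sup_mem h0)).2

omit [Fintype G] in
theorem ca_iff {h c : G} {s : Finset (Subgroup G)} :
    CA p (Subgroup.closure {h, c}) s ↔ CA p ⊥ s ∧ h ∈ Ns s ∧ c ∈ Ns s := by
  unfold CA
  rw [mem_Ns, mem_Ns]
  constructor
  · rintro ⟨h1, h2⟩
    refine ⟨⟨h1, fun Q hQ => ⟨(h2 Q hQ).1, (h2 Q hQ).2.1, bot_le⟩⟩, fun Q hQ => ?_, fun Q hQ => ?_⟩
    · exact (h2 Q hQ).2.2 (Subgroup.subset_closure (by simp))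
    · exact (h2 Q hQ).2.2 (Subgroup.subset_closure (by simp))
  · rintro ⟨⟨h1, h2⟩, h3, h4⟩
    refine ⟨h1, fun Q hQ => ⟨(h2 Q hQ).1, (h2 Q hQ).2.1, ?_⟩⟩
    rw [Subgroup.closure_le]
    intro x hx
    rcases hx with rfl | hx
    · exact h3 Q hQ
    · rw [Set.mem_singleton_iff] at hx
      rw [hx]
      exact h4 Q hQ

open Classical in
/-- the local expression of the kernel -/
theorem local_expr (hMp : IsPModular p M) {E : MonoidAlgebra (KF M) G}
    (hE : IsBlk (⊤ : Subgroup G) E) {s : Finset (Subgroup G)} (hs : CA p ⊥ s)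
    {h u y : G} (hh : h ∈ Ns s) (huy : u * y = h) (hc : Commute u y)
    (hu : ∃ k : ℕ, orderOf u = p ^ k) (hy : ¬ p ∣ orderOf y)
    (hu' : u ∈ Subgroup.zpowers h) :
    ∑ k : G with k ∈ Ns s, epsl (Ns s) (br (s.sup id) E) (h⁻¹ * k * h * k⁻¹) =
      ∑ c : G with c ∈ cz (Subgroup.zpowers u) ⊓ Ns s,
        epsl (cz (s.sup id ⊔ Subgroup.zpowers u)) (br (s.sup id ⊔ Subgroup.zpowers u) E)
          (y⁻¹ * c * y * c⁻¹) := by
  have hT : IsPGroup p (s.sup id : Subgroup G) :=
    isPGroup_chain hs.1 (fun Q hQ => ⟨(hs.2 Q hQ).1, (hs.2 Q hQ).2.1⟩)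
  have huN : u ∈ Ns s := by
    have : Subgroup.zpowers h ≤ Ns s := by rwa [Subgroup.zpowers_le]
    exact this hu'
  have hyN : y ∈ Ns s := by
    have h1 : y = u⁻¹ * h := by rw [← huy]; group
    rw [h1]
    exact (Ns s).mul_mem ((Ns s).inv_mem huN) hh
  have hfxT : IsFx (s.sup id : Subgroup G) E := hE.isFx.mono le_top
  have hup := isPGroup_zpowers hu
  have ha : br (s.sup id) E ∈ Zc (KF M) (Ns s) :=
    br_mem_Zc cz_le_Ns (Ns_le_nz hs.1) (hE.isFx.mono le_top)
  have haa : br (s.sup id) E * br (s.sup id) E = br (s.sup id) E := by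
    rw [← br_mul hT hfxT hfxT, hE.idem]
  have hyc : y ∈ cz (Subgroup.zpowers u) := by
    rw [Subgroup.mem_centralizer_iff]
    rintro _ ⟨i, rfl⟩
    exact (hc.zpow_left i).eq
  have h1 := epsl_sec hMp huN hyN hu hyc hy ha haa
  rw [huy] at h1
  rw [h1, br_sup, sup_comm (Subgroup.zpowers u)]
  set R := s.sup id ⊔ Subgroup.zpowers u with hR
  have hRp : IsPGroup p R := by
    rw [hR, sup_comm]
    exact isPGroup_sup hT hup ((by
      rw [Subgroup.zpowers_le]
      exact Ns_le_nz hs.1 huN))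
  have hC : cz R ≤ cz (Subgroup.zpowers u) ⊓ Ns s :=
    le_inf (cz_anti le_sup_right) ((cz_anti le_sup_left).trans cz_le_Ns)
  have hL : cz (Subgroup.zpowers u) ⊓ Ns s ≤ nz R := by
    rw [hR]
    refine le_trans (le_inf ?_ ?_) nz_sup_le
    · exact inf_le_right.trans (Ns_le_nz hs.1)
    · exact inf_le_left.trans (centralizer_le_normalizer' _)
  have hfxR : IsFx R E := hE.isFx.mono le_top
  apply Finset.sum_congr rfl
  intro c _
  apply epsl_eq hC (hL.trans (normalizer_le_normalizer_centralizer R))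
  · exact br_mem_Zc_centralizer (hE.isFx.mono le_top)
  · exact br_mem_Zc hC hL (hE.isFx.mono le_top)
  · rw [← br_mul hRp hfxR hfxR, hE.idem]

open Classical in
/-- The alternating sum over all normal chains, the empty one included, vanishes. -/
theorem kr_alternating (hMp : IsPModular p M) {E : MonoidAlgebra (KF M) G}
    (hE : IsBlk (⊤ : Subgroup G) E) [Fintype (Subgroup G)] :
    ∑ s : Finset (Subgroup G) with CA p ⊥ s ∧ NmC s, (-1 : ℂ) ^ s.card *
      ∑ h : G with h ∈ Ns s ∧ p ∣ orderOf h, ∑ k : G with k ∈ Ns s,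
        epsl (Ns s) (br (s.sup id) E) (h⁻¹ * k * h * k⁻¹) = 0 := by
  have hex : ∀ h : G, ∃ y : G, pp p h * y = h ∧ Commute (pp p h) y ∧
      (∃ k : ℕ, orderOf (pp p h) = p ^ k) ∧ ¬ p ∣ orderOf y ∧ pp p h ∈ Subgroup.zpowers h := by
    intro h
    obtain ⟨x, y, h1, h2, h3, h4, ⟨s, h5⟩, -⟩ := exists_isPPart_full (G := G) hp.out h
    have h6 : pp p h = x := pp_eq ⟨y, h1, h2, h3, h4⟩
    rw [h6]
    exact ⟨y, h1, h2, h3, h4, ⟨(s : ℤ), by rw [h5]; exact zpow_natCast h s⟩⟩
  choose y hy1 hy2 hy3 hy4 hy5 using hex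
  set W : G → G → Subgroup G → ℂ := fun h c Q =>
    epsl (cz (Q ⊔ Subgroup.zpowers (pp p h))) (br (Q ⊔ Subgroup.zpowers (pp p h)) E)
      ((y h)⁻¹ * c * (y h) * c⁻¹) with hW
  have h1 : ∀ s : Finset (Subgroup G), CA p ⊥ s ∧ NmC s →
      ∑ h : G with h ∈ Ns s ∧ p ∣ orderOf h, ∑ k : G with k ∈ Ns s,
        epsl (Ns s) (br (s.sup id) E) (h⁻¹ * k * h * k⁻¹) =
      ∑ h : G with p ∣ orderOf h, ∑ c : G with c ∈ cz (Subgroup.zpowers (pp p h)),
        if h ∈ Ns s ∧ c ∈ Ns s then W h c (s.sup id) else 0 := by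
    intro s hs
    rw [← Finset.sum_filter_add_sum_filter_not (univ.filter (fun h : G => p ∣ orderOf h))
      (fun h => h ∈ Ns s)]
    rw [Finset.sum_eq_zero (s := (univ.filter (fun h : G => p ∣ orderOf h)).filter
      (fun h => ¬ h ∈ Ns s)) (fun h hh => Finset.sum_eq_zero fun c _ => if_neg (fun h2 =>
        (Finset.mem_filter.mp hh).2 h2.1)), add_zero, Finset.filter_filter]
    have h2 : (univ.filter (fun h : G => h ∈ Ns s ∧ p ∣ orderOf h)) =
        univ.filter (fun h : G => p ∣ orderOf h ∧ h ∈ Ns s) := by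
      ext h; simp only [Finset.mem_filter]; tauto
    rw [h2]
    apply Finset.sum_congr rfl
    intro h hh
    obtain ⟨-, hh1, hh2⟩ := Finset.mem_filter.mp hh
    rw [local_expr hMp hE hs.1 hh2 (hy1 h) (hy2 h) (hy3 h) (hy4 h) (hy5 h),
      ← Finset.sum_filter, Finset.filter_filter]
    apply Finset.sum_congr _ (fun _ _ => rfl)
    ext c
    simp only [Finset.mem_filter, Finset.mem_univ, true_and, Subgroup.mem_inf]
    tauto
  rw [Finset.sum_congr rfl (fun s hs => by rw [h1 s (Finset.mem_filter.mp hs).2])]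
  simp only [Finset.mul_sum]
  rw [Finset.sum_comm]
  apply Finset.sum_eq_zero
  intro h hh
  rw [Finset.sum_comm]
  apply Finset.sum_eq_zero
  intro c hc
  have hu1 : pp p h ≠ 1 := by
    intro h0
    have h2 := hy1 h
    rw [h0, one_mul] at h2
    apply hy4 h
    rw [h2]
    exact (Finset.mem_filter.mp hh).2
  have hcc := (Finset.mem_filter.mp hc).2
  have h2 := sum_normal_chains (p := p) (A := Subgroup.closure {h, c})
    (Y := Subgroup.zpowers (pp p h)) (by
      intro h3
      rw [Subgroup.zpowers_eq_bot] at h3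
      exact hu1 h3) (isPGroup_zpowers (hy3 h))
    ((by
      rw [Subgroup.zpowers_le]
      have h3 : Subgroup.zpowers h ≤ Subgroup.closure {h, c} := by
        rw [Subgroup.zpowers_le]; exact Subgroup.subset_closure (by simp)
      exact h3 (hy5 h)))
    ((by
      rw [Subgroup.closure_le]
      intro x hx
      rcases hx with rfl | hx
      · apply centralizer_le_normalizer'
        rw [Subgroup.mem_centralizer_iff]
        rintro _ ⟨i, rfl⟩
        have h3 : Commute (pp p x) x := by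
          have := (Commute.refl (pp p x)).mul_right (hy2 x)
          rwa [hy1] at this
        exact (h3.zpow_left i).eq
      · rw [Set.mem_singleton_iff] at hx
        rw [hx]
        exact centralizer_le_normalizer' _ hcc)) (W h c) (by
      intro Q
      simp only [hW]
      rw [sup_assoc, sup_idem])
  refine Eq.trans ?_ h2
  rw [Finset.sum_filter, Finset.sum_filter]
  apply Finset.sum_congr rfl
  intro s _
  rw [ca_iff]
  by_cases h3 : CA p ⊥ s ∧ NmC s
  · rw [if_pos h3]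
    by_cases h4 : h ∈ Ns s ∧ c ∈ Ns s
    · rw [if_pos h4, if_pos ⟨⟨h3.1, h4⟩, h3.2⟩]
    · rw [if_neg h4, if_neg (fun h5 => h4 h5.1.2), mul_zero]
  · rw [if_neg h3, if_neg (fun h5 => h3 ⟨h5.1.1, h5.2⟩)]

end Main

end Cfsg.Agent.H26
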