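import Mathlib
import Cfsg.Agent.H26.KR3

set_option autoImplicit false

/-!
# Knörr–Robinson, IV
-/

namespace Cfsg.Agent.H26

open MonoidAlgebra MulAction Cfsg Cfsg.Agent.H11 Cfsg.Agent.H3 Finset
open scoped ComplexConjugate

universe u

section KRF

variable {M : Ideal AlgInt} [hM : M.IsPrime] {p : ℕ} [hp : Fact p.Prime] [hch : CharP (KF M) p]
variable {G : Type u} [Group G] [Fintype G]

theorem bs_chain {s : Finset (Subgroup G)} (hs : CA p ⊥ s) (hN : NmC s)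
    {b : Set (IrrCharacter G)} (hb : IsPBlock M b) :
    {ψ : IrrCharacter (Ns s) | ∃ β : Set (IrrCharacter (Ns s)), ψ ∈ β ∧
      IsInducedBlock M (Ns s) β b} = ub (Ns s) (br (s.sup id) (EG M b)) := by
  have hT : IsPGroup p (s.sup id : Subgroup G) :=
    isPGroup_chain hs.1 (fun Q hQ => ⟨(hs.2 Q hQ).1, (hs.2 Q hQ).2.1⟩)
  have key : ∀ β : Set (IrrCharacter (Ns s)), IsInducedBlock M (Ns s) β b ↔
      IsPBlock M β ∧ IsPBlock M b ∧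
      br (s.sup id) (EG M b) * EH M (Ns s) β = EH M (Ns s) β := fun β =>
    isInducedBlock_mid_iff hT (sup_le_Ns hN) (Ns_le_nz hs.1) cz_le_Ns
  have := Fintype.ofFinite (Ns s)
  ext ψ
  constructor
  · rintro ⟨β, hψ, hβ⟩
    obtain ⟨h1, -, h2⟩ := (key β).mp hβ
    refine ⟨EH M (Ns s) β, mem_bf.mpr ⟨isBlk_EH h1, h2⟩, ?_⟩
    rwa [bs_EH h1]
  · rintro ⟨f, hf, hψ⟩
    obtain ⟨h1, h2⟩ := mem_bf.mp hf
    refine ⟨bs (Ns s) f, hψ, (key _).mpr ⟨(isPBlock_bs h1).1, hb, ?_⟩⟩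
    rw [(isPBlock_bs h1).2, h2]

open Classical in
theorem knorr_robinson (hMp : IsPModular p M) {b : Set (IrrCharacter G)} (hb : IsPBlock M b) :
    (Nat.card G : ℤ) * ((Nat.card b : ℤ) - (blockRank p b : ℤ)) =
      ∑ᶠ s ∈ {s : Finset (Subgroup G) | s.Nonempty ∧ (∀ Q ∈ s, ∀ R ∈ s, Q ≤ R ∨ R ≤ Q) ∧
        (∀ Q ∈ s, Q ≠ ⊥ ∧ IsPGroup p Q) ∧
        ∃ T ∈ s, ∀ Q ∈ s, Q ≤ T ∧ T ≤ Subgroup.normalizer ((Q : Subgroup G) : Set G)},
      (-1 : ℤ) ^ (s.card - 1) * (Nat.card (Ns s) : ℤ) *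
        ((Nat.card {ψ : IrrCharacter (Ns s) | ∃ β : Set (IrrCharacter (Ns s)), ψ ∈ β ∧
          IsInducedBlock M (Ns s) β b} : ℤ) -
        (blockRank p {ψ : IrrCharacter (Ns s) | ∃ β : Set (IrrCharacter (Ns s)), ψ ∈ β ∧
          IsInducedBlock M (Ns s) β b} : ℤ)) := by
  have := Fintype.ofFinite (Subgroup G)
  have hiff : ∀ s : Finset (Subgroup G), (s.Nonempty ∧ (∀ Q ∈ s, ∀ R ∈ s, Q ≤ R ∨ R ≤ Q) ∧
        (∀ Q ∈ s, Q ≠ ⊥ ∧ IsPGroup p Q) ∧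
        ∃ T ∈ s, ∀ Q ∈ s, Q ≤ T ∧ T ≤ Subgroup.normalizer ((Q : Subgroup G) : Set G)) ↔
      (CA p ⊥ s ∧ NmC s) ∧ s ≠ ∅ := by
    intro s
    constructor
    · rintro ⟨h1, h2, h3, T, hT, h4⟩
      refine ⟨⟨⟨h2, fun Q hQ => ⟨(h3 Q hQ).1, (h3 Q hQ).2, bot_le⟩⟩, ?_⟩, h1.ne_empty⟩
      intro Q hQ
      refine le_trans (Finset.sup_le fun R hR => (h4 R hR).1) (h4 Q hQ).2
    · rintro ⟨⟨⟨h1, h2⟩, h3⟩, h4⟩
      have h5 := Finset.nonempty_iff_ne_empty.mpr h4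
      have h1' : IsCh s := h1
      refine ⟨h5, h1, fun Q hQ => ⟨(h2 Q hQ).1, (h2 Q hQ).2.1⟩, s.sup id, h1'.sup_mem h5,
        fun Q hQ => ⟨Finset.le_sup (f := id) hQ, h3 Q hQ⟩⟩
  have hset : {s : Finset (Subgroup G) | s.Nonempty ∧ (∀ Q ∈ s, ∀ R ∈ s, Q ≤ R ∨ R ≤ Q) ∧
        (∀ Q ∈ s, Q ≠ ⊥ ∧ IsPGroup p Q) ∧
        ∃ T ∈ s, ∀ Q ∈ s, Q ≤ T ∧ T ≤ Subgroup.normalizer ((Q : Subgroup G) : Set G)} =
      ((univ.filter (fun s : Finset (Subgroup G) => CA p ⊥ s ∧ NmC s)).erase ∅ :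
        Finset (Finset (Subgroup G))) := by
    ext s
    rw [Set.mem_ofPred_eq, hiff s]
    simp only [Finset.coe_erase, Finset.coe_filter, Finset.mem_univ, true_and,
      Set.mem_sdiff, Set.mem_ofPred_eq, Set.mem_singleton_iff]
  rw [hset, finsum_mem_coe_finset]
  set F : Finset (Subgroup G) → ℂ := fun s => ∑ h : G with h ∈ Ns s ∧ p ∣ orderOf h,
    ∑ k : G with k ∈ Ns s, epsl (Ns s) (br (s.sup id) (EG M b)) (h⁻¹ * k * h * k⁻¹) with hF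
  have hempty : CA p ⊥ (∅ : Finset (Subgroup G)) ∧ NmC (∅ : Finset (Subgroup G)) :=
    ⟨⟨fun Q hQ => absurd hQ (Finset.notMem_empty Q), fun Q hQ => absurd hQ (Finset.notMem_empty Q)⟩,
      fun Q hQ => absurd hQ (Finset.notMem_empty Q)⟩
  have h1 := kr_alternating hMp (isBlk_EG (M := M) hb)
  have hmem : (∅ : Finset (Subgroup G)) ∈
      univ.filter (fun s : Finset (Subgroup G) => CA p ⊥ s ∧ NmC s) :=
    Finset.mem_filter.mpr ⟨Finset.mem_univ _, hempty⟩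
  rw [← Finset.add_sum_erase _ _ hmem] at h1
  have h2 : F ∅ = (Nat.card G : ℂ) * ((Nat.card b : ℂ) - (blockRank p b : ℂ)) := by
    rw [card_sub_rank_top hMp hb]
    have e1 : Ns (∅ : Finset (Subgroup G)) = ⊤ := by
      unfold Ns; simp
    have e2 : (∅ : Finset (Subgroup G)).sup id = ⊥ := Finset.sup_empty
    simp only [hF]
    rw [e1, e2, br_bot]
  have h3 : ∀ s ∈ (univ.filter (fun s : Finset (Subgroup G) => CA p ⊥ s ∧ NmC s)).erase ∅,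
      (-1 : ℂ) ^ s.card * F s = - (((-1 : ℤ) ^ (s.card - 1) * (Nat.card (Ns s) : ℤ) *
        ((Nat.card {ψ : IrrCharacter (Ns s) | ∃ β : Set (IrrCharacter (Ns s)), ψ ∈ β ∧
          IsInducedBlock M (Ns s) β b} : ℤ) -
        (blockRank p {ψ : IrrCharacter (Ns s) | ∃ β : Set (IrrCharacter (Ns s)), ψ ∈ β ∧
          IsInducedBlock M (Ns s) β b} : ℤ)) : ℤ) : ℂ) := by
    intro s hs
    obtain ⟨hne, hs'⟩ := Finset.mem_erase.mp hs
    obtain ⟨-, hs1, hs2⟩ := Finset.mem_filter.mp hs'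
    rw [bs_chain hs1 hs2 hb]
    push_cast
    rw [mul_assoc, card_sub_rank_ub hMp]
    have h4 : s.card = (s.card - 1) + 1 :=
      (Nat.sub_add_cancel (Finset.card_pos.mpr (Finset.nonempty_iff_ne_empty.mpr hne))).symm
    conv_lhs => rw [h4, pow_succ]
    simp only [hF]
    ring
  have h5 : (-1 : ℂ) ^ (∅ : Finset (Subgroup G)).card * F ∅ +
      ∑ s ∈ (univ.filter (fun s : Finset (Subgroup G) => CA p ⊥ s ∧ NmC s)).erase ∅,
        (-1 : ℂ) ^ s.card * F s = 0 := h1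
  rw [Finset.sum_congr rfl h3, Finset.sum_neg_distrib, Finset.card_empty, pow_zero, one_mul,
    h2, ← sub_eq_add_neg, sub_eq_zero] at h5
  have h6 : (((Nat.card G : ℤ) * ((Nat.card b : ℤ) - (blockRank p b : ℤ)) : ℤ) : ℂ) =
      ((∑ s ∈ (univ.filter (fun s : Finset (Subgroup G) => CA p ⊥ s ∧ NmC s)).erase ∅,
        (-1 : ℤ) ^ (s.card - 1) * (Nat.card (Ns s) : ℤ) *
        ((Nat.card {ψ : IrrCharacter (Ns s) | ∃ β : Set (IrrCharacter (Ns s)), ψ ∈ β ∧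
          IsInducedBlock M (Ns s) β b} : ℤ) -
        (blockRank p {ψ : IrrCharacter (Ns s) | ∃ β : Set (IrrCharacter (Ns s)), ψ ∈ β ∧
          IsInducedBlock M (Ns s) β b} : ℤ)) : ℤ) : ℂ) := by
    rw [Int.cast_sum, ← h5]
    push_cast
    rfl
  exact_mod_cast h6

end KRF

end Cfsg.Agent.H26
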