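import Mathlib
import Cfsg.Agent.H26.Coef
import Cfsg.Agent.H26.InfBlk

set_option autoImplicit false

/-!
# Values of class functions vanishing on `p`-singular elements
-/

namespace Cfsg.Agent.H26

open Cfsg Cfsg.Agent.H3 Cfsg.Agent.H11 Cfsg.Agent.H27 Finset
open scoped ComplexConjugate

universe u

section A

variable {G : Type u} [Group G] [Fintype G] {p : ℕ} [hp : Fact p.Prime] {M : Ideal AlgInt}

omit hp in
theorem lr_avg (hM : IsPModular p M) {χ : G → ℂ} (hχ : IsCharacter G χ) {y : G}
    (S : Subgroup (Subgroup.centralizer ({y} : Set G))) [Fintype S] :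
    MemLocalRing M ((Nat.card S : ℂ)⁻¹ * ∑ u : S,
      χ (y * ((u : Subgroup.centralizer ({y} : Set G)) : G))) := by
  classical
  have hpr := hM.2.1.isPrime
  have hfC : Fintype (Subgroup.centralizer ({y} : Set G)) := Fintype.ofFinite _
  have hfI : Fintype (IrrCharacter (Subgroup.centralizer ({y} : Set G))) := Fintype.ofFinite _
  set yC : Subgroup.centralizer ({y} : Set G) :=
    ⟨y, Subgroup.mem_centralizer_singleton_iff.mpr rfl⟩ with hyC
  have hyc : ∀ c, yC * c = c * yC := fun c => Subtype.ext
    (Subgroup.mem_centralizer_singleton_iff.mp c.2).symm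
  have h1 : ∀ u : S, χ (y * ((u : Subgroup.centralizer ({y} : Set G)) : G)) =
      ∑ θ : IrrCharacter (Subgroup.centralizer ({y} : Set G)),
        classInner (fun c : Subgroup.centralizer ({y} : Set G) => χ c)
          (θ : Subgroup.centralizer ({y} : Set G) → ℂ) *
        lv yC (θ : Subgroup.centralizer ({y} : Set G) → ℂ) *
        (θ : Subgroup.centralizer ({y} : Set G) → ℂ) u := fun u => translate_eq_sum hχ hyc u
  rw [Finset.sum_congr rfl (fun u _ => h1 u), Finset.sum_comm, Finset.mul_sum]
  apply lr_sum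
  intro θ _
  rw [← Finset.mul_sum, mul_left_comm]
  have h2 : (Nat.card S : ℂ)⁻¹ * ∑ u : S, (θ : Subgroup.centralizer ({y} : Set G) → ℂ) u =
      classInner (fun u : S => (θ : Subgroup.centralizer ({y} : Set G) → ℂ) u) (fun _ => 1) := by
    unfold classInner
    simp
  rw [h2]
  obtain ⟨n, hn⟩ := classInner_gen_int (isGen_of_char (isChar_restrict' (C := S)
    (irr_isChar θ.2))) (isGen_of_char isChar_one)
  rw [hn]
  refine lr_mul (lr_mul ?_ (lr_lv θ.2 hyc)) (lr_intCast M _)
  obtain ⟨m, hm⟩ := classInner_gen_int (isGen_of_char (isChar_restrict'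
    (C := Subgroup.centralizer ({y} : Set G)) hχ)) (isGen_of_irr θ.2)
  rw [hm]
  exact lr_intCast M _

/-- Divisibility of the values of class functions vanishing on `p`-singular elements. -/
theorem lr_reg_div (hM : IsPModular p M) [Fintype (IrrCharacter G)] {f : G → ℂ}
    (a : IrrCharacter G → ℂ) (ha : ∀ χ, MemLocalRing M (a χ))
    (hf : ∀ g, f g = ∑ χ : IrrCharacter G, a χ * (χ : G → ℂ) g)
    (hv : ∀ g, p ∣ orderOf g → f g = 0) {y : G} (hy : ¬ p ∣ orderOf y) :
    MemLocalRing M (f y / (Nat.card (Subgroup.centralizer ({y} : Set G)) : ℂ)) := by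
  classical
  have hpr := hM.2.1.isPrime
  obtain ⟨S⟩ : Nonempty (Sylow p (Subgroup.centralizer ({y} : Set G))) := inferInstance
  have hfS : Fintype (S : Subgroup (Subgroup.centralizer ({y} : Set G))) := Fintype.ofFinite _
  have hS0 : (Nat.card (S : Subgroup (Subgroup.centralizer ({y} : Set G))) : ℂ) ≠ 0 := by
    exact_mod_cast Nat.card_pos.ne'
  have h1 : f y / (Nat.card (S : Subgroup (Subgroup.centralizer ({y} : Set G))) : ℂ) =
      ∑ χ : IrrCharacter G, a χ *
        ((Nat.card (S : Subgroup (Subgroup.centralizer ({y} : Set G))) : ℂ)⁻¹ *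
          ∑ u : (S : Subgroup (Subgroup.centralizer ({y} : Set G))),
            (χ : G → ℂ) (y * ((u : Subgroup.centralizer ({y} : Set G)) : G))) := by
    have h2 : ∑ u : (S : Subgroup (Subgroup.centralizer ({y} : Set G))),
        f (y * ((u : Subgroup.centralizer ({y} : Set G)) : G)) = f y := by
      rw [Finset.sum_eq_single (1 : (S : Subgroup (Subgroup.centralizer ({y} : Set G))))]
      · simp
      · intro u _ hu
        apply hv
        by_contra hreg
        apply hu
        have hc : Commute ((u : Subgroup.centralizer ({y} : Set G)) : G) y :=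
          Subgroup.mem_centralizer_singleton_iff.mp (u : Subgroup.centralizer ({y} : Set G)).2
        have h3 : ((u : Subgroup.centralizer ({y} : Set G)) : G) = 1 := by
          apply eq_one_of_comm_reg (p := p) (x := y) _ hc hy
          · rw [hc.eq]; exact hreg
          · obtain ⟨k, hk⟩ := IsPGroup.iff_orderOf.mp S.isPGroup' u
            exact ⟨k, by rw [← hk, Subgroup.orderOf_coe, Subgroup.orderOf_coe]⟩
        exact Subtype.ext (Subtype.ext h3)
      · intro h; exact absurd (Finset.mem_univ _) h
    rw [← h2, div_eq_inv_mul]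
    simp only [hf]
    rw [Finset.sum_comm, Finset.mul_sum]
    apply Finset.sum_congr rfl
    intro χ _
    rw [← Finset.mul_sum]
    ring
  have h2 : MemLocalRing M (f y /
      (Nat.card (S : Subgroup (Subgroup.centralizer ({y} : Set G))) : ℂ)) := by
    rw [h1]
    apply lr_sum
    intro χ _
    exact lr_mul (ha χ) (lr_avg hM (irr_isChar χ.2) _)
  have h3 := Subgroup.card_mul_index (S : Subgroup (Subgroup.centralizer ({y} : Set G)))
  have h4 : ¬ p ∣ (S : Subgroup (Subgroup.centralizer ({y} : Set G))).index := S.not_dvd_index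
  have h5 : f y / (Nat.card (Subgroup.centralizer ({y} : Set G)) : ℂ) =
      (f y / (Nat.card (S : Subgroup (Subgroup.centralizer ({y} : Set G))) : ℂ)) *
        (((S : Subgroup (Subgroup.centralizer ({y} : Set G))).index : ℕ) : ℂ)⁻¹ := by
    rw [← h3]
    push_cast
    rw [div_eq_mul_inv, div_eq_mul_inv, mul_inv, mul_assoc]
  rw [h5]
  exact lr_mul h2 (lr_inv_natCast hM h4)

end A

end Cfsg.Agent.H26
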