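import Mathlib
import Cfsg.Agent.H27.Md5

set_option autoImplicit false

/-!
# Local symmetric corner algebras with a center of dimension at most four
-/

namespace Cfsg.Agent.H26

open Module Cfsg.Agent.H27.Md

section V

variable {K V : Type*} [Field K] [AddCommGroup V] [Module K V]

theorem loc_lin {a b c d : K} {X1 X2 Y1 Y2 : V} (hbc : b - c = 1)
    (e1 : a • X1 = a • X2) (e2 : a • Y1 = b • X2) (e3 : b • X1 = c • X2) (e4 : b • Y1 = d • X2)
    (e5 : c • X1 = a • Y2) (e6 : c • Y1 = b • Y2) (e7 : d • X1 = c • Y2) (e8 : d • Y1 = d • Y2) :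
    X1 = 0 ∧ Y1 = 0 := by
  have hX : X1 = b • X1 - c • X1 := by rw [← sub_smul, hbc, one_smul]
  have hY : Y1 = b • Y1 - c • Y1 := by rw [← sub_smul, hbc, one_smul]
  constructor
  · by_cases ha : a = 0
    · rw [ha, zero_smul] at e2 e5
      by_cases hb : b = 0
      · rw [hX, e5, hb, zero_smul, sub_zero]
      · have h1 : X2 = 0 := by
          rcases smul_eq_zero.mp e2.symm with h | h
          · exact absurd h hb
          · exact h
        rw [hX, e5, e3, h1, smul_zero, sub_zero]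
    · have h1 : X1 = X2 := smul_right_injective V ha e1
      rw [hX, e3, ← h1, sub_self]
  · by_cases hd : d = 0
    · rw [hd, zero_smul] at e4 e7
      by_cases hcz : c = 0
      · rw [hY, e4, hcz, zero_smul, sub_zero]
      · have h1 : Y2 = 0 := by
          rcases smul_eq_zero.mp e7.symm with h | h
          · exact absurd h hcz
          · exact h
        rw [hY, e4, e6, h1, smul_zero, sub_zero]
    · have h1 : Y1 = Y2 := smul_right_injective V hd e8
      rw [hY, e6, ← h1, sub_self]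

end V

section R

variable {K R : Type*} [Field K] [Ring R] [Algebra K R]

theorem nilp_of_le {N : Submodule K R} {m k : ℕ} (hm : N ^ m = ⊥) (h : N ^ k ≤ N ^ (k + 1)) :
    N ^ k = ⊥ := by
  have h1 : ∀ j, N ^ k ≤ N ^ (k + j) := by
    intro j
    induction j with
    | zero => simp
    | succ j ih =>
      refine ih.trans ?_
      rw [pow_add N k j, show k + (j + 1) = (k + 1) + j by ring, pow_add N (k + 1) j]
      exact mul_le_mul' h le_rfl
  have h2 := h1 m
  rw [pow_add, hm, Submodule.mul_bot] at h2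
  exact le_bot_iff.mp h2

theorem pow_anti {N : Submodule K R} (h : N * N ≤ N) {i : ℕ} (hi : 1 ≤ i) :
    N ^ (i + 1) ≤ N ^ i := by
  obtain ⟨j, rfl⟩ : ∃ j, i = j + 1 := ⟨i - 1, by omega⟩
  rw [pow_succ N (j + 1), pow_succ N j, mul_assoc]
  exact mul_le_mul' le_rfl h

theorem pow_anti' {N : Submodule K R} (h : N * N ≤ N) {i j : ℕ} (hi : 1 ≤ i) (hij : i ≤ j) :
    N ^ j ≤ N ^ i := by
  induction j, hij using Nat.le_induction with
  | base => exact le_rfl
  | succ j hj ih => exact (pow_anti h (hi.trans hj)).trans ih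

theorem exists_gen2 [FiniteDimensional K R] {N : Submodule K R} (hmul : N * N ≤ N)
    (hd : finrank K N ≤ finrank K (N * N : Submodule K R) + 2) :
    ∃ x ∈ N, ∃ y ∈ N, N ≤ Submodule.span K {x} ⊔ Submodule.span K {y} ⊔ N * N := by
  have step : ∀ W : Submodule K R, W ≤ N → ∃ x ∈ N, Submodule.span K {x} ⊔ W ≤ N ∧
      (N ≤ Submodule.span K {x} ⊔ W ∨
        finrank K W + 1 ≤ finrank K (Submodule.span K {x} ⊔ W : Submodule K R)) := by
    intro W hW
    by_cases h : N ≤ W
    · exact ⟨0, zero_mem _, by simpa using hW, Or.inl (le_sup_of_le_right h)⟩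
    · obtain ⟨x, hx, hx2⟩ := Set.not_subset.mp h
      refine ⟨x, hx, ?_, Or.inr ?_⟩
      · refine sup_le ?_ hW
        rw [Submodule.span_le, Set.singleton_subset_iff]
        exact hx
      · have h2 : finrank K W < finrank K (Submodule.span K {x} ⊔ W : Submodule K R) := by
          apply Submodule.finrank_lt_finrank_of_lt
          refine lt_of_le_of_ne le_sup_right ?_
          intro h3
          apply hx2
          have : x ∈ Submodule.span K {x} ⊔ W :=
            Submodule.mem_sup_left (Submodule.mem_span_singleton_self x)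
          rw [← h3] at this
          exact this
        omega
  obtain ⟨y, hy, hy1, hy2⟩ := step (N * N) hmul
  obtain ⟨x, hx, hx1, hx2⟩ := step _ hy1
  refine ⟨x, hx, y, hy, ?_⟩
  rw [sup_assoc]
  rcases hy2 with hy2 | hy2
  · exact hy2.trans le_sup_right
  rcases hx2 with hx2 | hx2
  · exact hx2
  exact (Submodule.eq_of_le_of_finrank_le hx1 (by omega)).ge

variable {ε : R} {N : Submodule K R}

/-- the socle meets the kernel of the form trivially -/
theorem soc_zero (t : R →ₗ[K] K)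
    (ht : ∀ x y, t (x * y) = t (y * x)) (hnd : ∀ x, (∀ y, t (x * y) = 0) → x = 0)
    (hε : ε * ε = ε)
    (hdec : ∀ a ∈ crn K ε ε, ∃ c : K, a - c • ε ∈ N) {s : R} (hs : s ∈ crn K ε ε)
    (hsn : ∀ n ∈ N, s * n = 0) (hts : t s = 0) : s = 0 := by
  apply hnd
  intro y
  have h1 : ε * y * ε ∈ crn K ε ε := by
    constructor
    · rw [← mul_assoc, ← mul_assoc, hε]
    · rw [mul_assoc, hε]
  obtain ⟨c, hc⟩ := hdec _ h1
  have h2 : t (s * y) = t (s * (ε * y * ε)) := by
    have e1 : s * (ε * y * ε) = (s * ε) * (y * ε) := by simp only [mul_assoc]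
    rw [e1, hs.2, ← mul_assoc, ht (s * y) ε, ← mul_assoc, hs.1]
  have h3 : s * (ε * y * ε) = s * (ε * y * ε - c • ε) + c • s := by
    rw [mul_sub, mul_smul_comm, hs.2]; abel
  rw [h2, h3, hsn _ hc, zero_add, map_smul, hts, smul_zero]

/-- If the center of the block is at most four-dimensional, then the corner is commutative. -/
theorem corner_comm_four [FiniteDimensional K R] {e : R} {s : ℕ} (mu : MU e ε s) (hs : 0 < s)
    (hc : ∀ x, e * x = x * e)
    (t : R →ₗ[K] K)
    (ht : ∀ x y, t (x * y) = t (y * x)) (hnd : ∀ x, (∀ y, t (x * y) = 0) → x = 0)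
    (hε : ε * ε = ε) (hNA : N ≤ crn K ε ε) (hεN : ε ∉ N)
    (hdec : ∀ a ∈ crn K ε ε, ∃ c : K, a - c • ε ∈ N) {m : ℕ} (hm : N ^ m = ⊥)
    (hmul : N * N ≤ N) (h4 : finrank K (zR K e) ≤ 4) :
    ∀ a ∈ crn K ε ε, ∀ b ∈ crn K ε ε, a * b = b * a := by
  by_contra hnc
  have h3 := finrank_corner (K := K) ⟨hε, hε⟩ hNA hεN hdec
  have hcm := cm_le hε hNA hdec
  have h5 := finrank_zA_le (K := K) mu hc hs
  have h6 := finrank_le_zA_cm hε t ht hnd
  have h7 : ¬ finrank K N ≤ finrank K (N * N : Submodule K R) + 1 := fun h =>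
    hnc (corner_comm hε hNA hdec hm hmul h)
  have hcm0 : cm K ε ≠ ⊥ := by
    intro h
    apply hnc
    intro a ha b hb
    have : a * b - b * a ∈ cm K ε := Submodule.subset_span ⟨a, ha, b, hb, rfl⟩
    rw [h, Submodule.mem_bot, sub_eq_zero] at this
    exact this
  have htcm : ∀ w ∈ cm K ε, t w = 0 := by
    intro w hw
    have h8 : cm K ε ≤ LinearMap.ker t := by
      rw [cm, Submodule.span_le]
      rintro w ⟨a, -, b, -, rfl⟩
      show t (a * b - b * a) = 0
      rw [map_sub, ht, sub_self]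
    exact h8 hw
  have hN2A : N * N ≤ crn K ε ε := hmul.trans hNA
  -- the last nonzero power
  have hex : ∃ i, N ^ i = ⊥ := ⟨m, hm⟩
  classical
  set i := Nat.find hex with hi
  have hi1 : N ^ i = ⊥ := Nat.find_spec hex
  have hi4 : 4 ≤ i := by
    by_contra hlt
    push Not at hlt
    have h8 : N ^ 3 = ⊥ := by
      by_cases h0 : i = 0
      · have h9 : N ^ 3 = N ^ i * N ^ 3 := by rw [h0, pow_zero, one_mul]
        rw [h9, hi1, Submodule.bot_mul]
      · exact le_bot_iff.mp ((pow_anti' hmul (by omega) (by omega : i ≤ 3)).trans hi1.le)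
    apply hcm0
    rw [eq_bot_iff]
    intro w hw
    rw [Submodule.mem_bot]
    refine soc_zero t ht hnd hε hdec (hN2A (hcm hw)) ?_ (htcm w hw)
    intro n hn
    have h9 : w * n ∈ N ^ 3 := by
      rw [pow_succ, pow_two]
      exact Submodule.mul_mem_mul (hcm hw) hn
    rw [h8] at h9
    exact h9
  obtain ⟨s0, hs0, hs0n⟩ : ∃ s0 ∈ N ^ (i - 1), s0 ≠ 0 := by
    have h8 : N ^ (i - 1) ≠ ⊥ := Nat.find_min hex (by omega)
    exact (Submodule.ne_bot_iff _).mp h8
  have hs3 : s0 ∈ N ^ 3 := pow_anti' hmul (by omega) (by omega : 3 ≤ i - 1) hs0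
  have hs2 : s0 ∈ N * N := by
    have := pow_anti' hmul (by omega : 1 ≤ 2) (by omega : 2 ≤ 3) hs3
    rwa [pow_two] at this
  have hs0cm : s0 ∉ cm K ε := by
    intro h
    apply hs0n
    refine soc_zero t ht hnd hε hdec (hN2A hs2) ?_ (htcm _ h)
    intro n hn
    have h9 : s0 * n ∈ N ^ i := by
      obtain ⟨j, hj⟩ : ∃ j, i = j + 1 := ⟨i - 1, by omega⟩
      rw [hj, Nat.add_sub_cancel] at hs0
      rw [hj, pow_succ]
      exact Submodule.mul_mem_mul hs0 hn
    rw [hi1] at h9
    exact h9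
  have hle : Submodule.span K {s0} ⊔ cm K ε ≤ N * N := by
    refine sup_le ?_ hcm
    rw [Submodule.span_le, Set.singleton_subset_iff]
    exact hs2
  have hlt : finrank K (cm K ε) < finrank K (Submodule.span K {s0} ⊔ cm K ε : Submodule K R) := by
    apply Submodule.finrank_lt_finrank_of_lt
    refine lt_of_le_of_ne le_sup_right ?_
    intro h8
    apply hs0cm
    have : s0 ∈ Submodule.span K {s0} ⊔ cm K ε :=
      Submodule.mem_sup_left (Submodule.mem_span_singleton_self s0)
    rw [← h8] at this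
    exact this
  have hmono := Submodule.finrank_mono hle
  have hN2 : N * N ≤ Submodule.span K {s0} ⊔ cm K ε :=
    (Submodule.eq_of_le_of_finrank_le hle (by omega)).ge
  obtain ⟨x, hx, y, hy, hxy⟩ := exists_gen2 hmul (by omega)
  -- decomposition of elements of `N`
  have hNd : ∀ n ∈ N, ∃ α β : K, ∃ j ∈ N ^ 2, n = α • x + β • y + j := by
    intro n hn
    obtain ⟨u, hu, j, hj, rfl⟩ := Submodule.mem_sup.mp (hxy hn)
    obtain ⟨u1, hu1, u2, hu2, rfl⟩ := Submodule.mem_sup.mp hu
    obtain ⟨α, rfl⟩ := Submodule.mem_span_singleton.mp hu1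
    obtain ⟨β, rfl⟩ := Submodule.mem_span_singleton.mp hu2
    exact ⟨α, β, j, by rwa [pow_two], rfl⟩
  have m12 : ∀ {a b : R}, a ∈ N → b ∈ N ^ 2 → a * b ∈ N ^ 3 := fun ha hb => by
    rw [pow_succ' N 2]; exact Submodule.mul_mem_mul ha hb
  have m21 : ∀ {a b : R}, a ∈ N ^ 2 → b ∈ N → a * b ∈ N ^ 3 := fun ha hb => by
    rw [pow_succ N 2]; exact Submodule.mul_mem_mul ha hb
  have m13 : ∀ {a b : R}, a ∈ N → b ∈ N ^ 3 → a * b ∈ N ^ 4 := fun ha hb => by
    rw [pow_succ' N 3]; exact Submodule.mul_mem_mul ha hb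
  have m31 : ∀ {a b : R}, a ∈ N ^ 3 → b ∈ N → a * b ∈ N ^ 4 := fun ha hb => by
    rw [pow_succ N 3]; exact Submodule.mul_mem_mul ha hb
  have m22 : ∀ {a b : R}, a ∈ N ^ 2 → b ∈ N ^ 2 → a * b ∈ N ^ 4 := fun ha hb => by
    rw [show (4 : ℕ) = 2 + 2 by rfl, pow_add]; exact Submodule.mul_mem_mul ha hb
  have h21 : ∀ {a : R}, a ∈ N ^ 2 → a ∈ N := fun ha => by
    rw [pow_two] at ha; exact hmul ha
  have m11 : ∀ {a b : R}, a ∈ N → b ∈ N → a * b ∈ N ^ 2 := fun ha hb => by
    rw [pow_two]; exact Submodule.mul_mem_mul ha hb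
  obtain ⟨w, hw⟩ : ∃ w, w = x * y - y * x := ⟨_, rfl⟩
  have hw2 : w ∈ N ^ 2 := by rw [hw]; exact sub_mem (m11 hx hy) (m11 hy hx)
  -- commutators
  have hcm3 : cm K ε ≤ Submodule.span K {w} ⊔ N ^ 3 := by
    rw [cm, Submodule.span_le]
    rintro _ ⟨a, ha, b, hb, rfl⟩
    obtain ⟨c1, hc1⟩ := hdec a ha
    obtain ⟨c2, hc2⟩ := hdec b hb
    have h1 : a * b - b * a = (a - c1 • ε) * (b - c2 • ε) - (b - c2 • ε) * (a - c1 • ε) := by
      simp only [mul_sub, sub_mul, smul_mul_assoc, mul_smul_comm, hε, ha.1, ha.2, hb.1, hb.2]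
      module
    obtain ⟨α, β, j, hj, e1⟩ := hNd _ hc1
    obtain ⟨α', β', j', hj', e2⟩ := hNd _ hc2
    have h2 : a * b - b * a = (α * β' - α' * β) • w + ((α • x + β • y) * j' + j * (α' • x + β' • y)
        + j * j' - (α' • x + β' • y) * j - j' * (α • x + β • y) - j' * j) := by
      rw [h1, e1, e2, hw]
      simp only [add_mul, mul_add, smul_mul_assoc, mul_smul_comm, smul_sub]
      module
    rw [SetLike.mem_coe, h2]
    have hA : α • x + β • y ∈ N := add_mem (N.smul_mem _ hx) (N.smul_mem _ hy)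
    have hB : α' • x + β' • y ∈ N := add_mem (N.smul_mem _ hx) (N.smul_mem _ hy)
    refine Submodule.add_mem_sup (Submodule.smul_mem _ _ (Submodule.mem_span_singleton_self w)) ?_
    exact sub_mem (sub_mem (sub_mem (add_mem (add_mem (m12 hA hj') (m21 hj hB))
      (m12 (h21 hj) hj')) (m12 hB hj)) (m21 hj' hA)) (m12 (h21 hj') hj)
  have hN23 : N ^ 2 ≤ Submodule.span K {w} ⊔ N ^ 3 := by
    rw [pow_two]
    refine hN2.trans (sup_le ?_ hcm3)
    rw [Submodule.span_le, Set.singleton_subset_iff]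
    exact Submodule.mem_sup_right hs3
  have hexp : ∀ v ∈ N ^ 2, ∃ a : K, v - a • w ∈ N ^ 3 := by
    intro v hv
    obtain ⟨u, hu, j, hj, rfl⟩ := Submodule.mem_sup.mp (hN23 hv)
    obtain ⟨a, rfl⟩ := Submodule.mem_span_singleton.mp hu
    exact ⟨a, by rwa [add_sub_cancel_left]⟩
  have hw3 : w ∉ N ^ 3 := by
    intro h
    have h8 : N ^ 2 ≤ N ^ (2 + 1) := by
      refine hN23.trans (sup_le ?_ le_rfl)
      rw [Submodule.span_le, Set.singleton_subset_iff]
      exact h
    have h9 := nilp_of_le hm h8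
    apply hcm0
    rw [eq_bot_iff, ← h9, pow_two]
    exact hcm
  obtain ⟨a, ha⟩ := hexp _ (m11 hx hx)
  obtain ⟨b, hb⟩ := hexp _ (m11 hx hy)
  obtain ⟨c, hcc⟩ := hexp _ (m11 hy hx)
  obtain ⟨d, hd⟩ := hexp _ (m11 hy hy)
  have hbc : b - c = 1 := by
    by_contra hne
    apply hw3
    have h8 : (b - c - 1) • w ∈ N ^ 3 := by
      have h9 : (b - c - 1) • w = (y * x - c • w) - (x * y - b • w) := by
        rw [hw]; module
      rw [h9]; exact sub_mem hcc hb
    have h9 : b - c - 1 ≠ 0 := fun h => hne (by linear_combination h)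
    have := (N ^ 3).smul_mem (b - c - 1)⁻¹ h8
    rwa [smul_smul, inv_mul_cancel₀ h9, one_smul] at this
  have key : ∀ {u v r : R} {f g : K}, u ∈ N → v ∈ N → r ∈ N → u * v - f • w ∈ N ^ 3 →
      v * r - g • w ∈ N ^ 3 →
      f • (N ^ 4).mkQ (w * r) = g • (N ^ 4).mkQ (u * w) := by
    intro u v r f g hu hv hr h8 h9
    rw [← map_smul, ← map_smul]
    rw [Submodule.mkQ_apply, Submodule.mkQ_apply, Submodule.Quotient.eq]
    have h10 : f • (w * r) - g • (u * w) = u * (v * r - g • w) - (u * v - f • w) * r := by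
      simp only [mul_sub, sub_mul, smul_mul_assoc, mul_smul_comm, mul_assoc]
      module
    rw [h10]
    exact sub_mem (m13 hu h9) (m31 h8 hr)
  obtain ⟨hX, hY⟩ := loc_lin hbc (key hx hx hx ha ha) (key hx hx hy ha hb) (key hx hy hx hb hcc)
    (key hx hy hy hb hd) (key hy hx hx hcc ha) (key hy hx hy hcc hb) (key hy hy hx hd hcc)
    (key hy hy hy hd hd)
  rw [Submodule.mkQ_apply, Submodule.Quotient.mk_eq_zero] at hX hY
  have h8 : N ^ 3 ≤ N ^ (3 + 1) := by
    rw [pow_succ N 2]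
    rw [Submodule.mul_le]
    intro v hv n hn
    obtain ⟨f, hf⟩ := hexp v hv
    obtain ⟨α, β, j, hj, rfl⟩ := hNd n hn
    have h9 : v * (α • x + β • y + j) = (v - f • w) * (α • x + β • y + j) +
        f • (α • (w * x) + β • (w * y) + w * j) := by
      simp only [mul_add, sub_mul, smul_mul_assoc, mul_smul_comm, smul_add]
      module
    rw [h9]
    refine add_mem (m31 hf hn) (Submodule.smul_mem _ _ (add_mem (add_mem
      (Submodule.smul_mem _ _ hX) (Submodule.smul_mem _ _ hY)) (m22 hw2 hj)))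
  have h9 := nilp_of_le hm h8
  exact Nat.find_min hex (by omega : 3 < i) h9

end R

end Cfsg.Agent.H26
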