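import Mathlib
import Cfsg.Agent.H26.Loc1
import Cfsg.Agent.H27.Md15
import Cfsg.Agent.H26.Nil3

set_option autoImplicit false

/-!
# Blocks with one Brauer character and at most four characters
-/

namespace Cfsg.Agent.H26

open Module Cfsg Cfsg.Agent.H11 Cfsg.Agent.H3 Cfsg.Agent.H27.Md MonoidAlgebra
open scoped ComplexConjugate

universe u

section Grp

variable {G : Type u} [Group G] [Finite G]

theorem mem_cz_of_pow {p : ℕ} [hp : Fact p.Prime] {P T : Subgroup G}
    (hT : T ≤ nz P) (hnd : ¬ p ∣ (cz P).relIndex T) {g : G}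
    (hg : g ∈ T) {n : ℕ} (h7 : g ^ p ^ n ∈ cz P) : g ∈ cz P := by
  have hn1 : ((cz P).subgroupOf T).Normal := by
    constructor
    intro a ha b
    rw [Subgroup.mem_subgroupOf] at ha ⊢
    exact (Subgroup.mem_normalizer_iff.mp (normalizer_le_normalizer_centralizer P (hT b.2))
      a).mp ha
  let a : T ⧸ (cz P).subgroupOf T := QuotientGroup.mk ⟨g, hg⟩
  have h8 : a ^ p ^ n = 1 := by
    change (QuotientGroup.mk (⟨g, hg⟩ ^ p ^ n) : T ⧸ (cz P).subgroupOf T) = 1
    rw [QuotientGroup.eq_one_iff, Subgroup.mem_subgroupOf]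
    exact h7
  have h9 : orderOf a ∣ p ^ n := orderOf_dvd_of_pow_eq_one h8
  have h10 : orderOf a ∣ (cz P).relIndex T := by
    have := orderOf_dvd_natCard a
    rwa [← Subgroup.index] at this
  have h11 : orderOf a = 1 := by
    obtain ⟨j, -, hj⟩ := (Nat.dvd_prime_pow hp.out).mp h9
    rcases Nat.eq_zero_or_pos j with h0 | h0
    · rw [hj, h0, pow_zero]
    · exfalso
      apply hnd
      rw [hj] at h10
      exact (dvd_pow_self p h0.ne').trans h10
  rw [orderOf_eq_one_iff] at h11
  have h12 := (QuotientGroup.eq_one_iff _).mp h11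
  exact h12

/-- an element normalizing a four-group and fixing an involution squares into the centralizer -/
theorem sq_mem_cz_of_four {P : Subgroup G} (h4 : Nat.card P = 4)
    {g u : G} (hg : g ∈ nz P) (hu : u ∈ P) (ho : orderOf u = 2)
    (hgu : g * u * g⁻¹ = u) : g ^ 2 ∈ cz P := by
  have hle : Subgroup.zpowers u ≤ P := by rwa [Subgroup.zpowers_le]
  have hidx : ((Subgroup.zpowers u).subgroupOf P).index = 2 := by
    have h1 := Subgroup.card_mul_index ((Subgroup.zpowers u).subgroupOf P)
    have h2 : Nat.card ((Subgroup.zpowers u).subgroupOf P) = 2 := by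
      rw [Nat.card_congr (Subgroup.subgroupOfEquivOfLe hle).toEquiv, Nat.card_zpowers, ho]
    rw [h2, h4] at h1
    omega
  have hgu' : g * u = u * g := mul_inv_eq_iff_eq_mul.mp hgu
  rw [Subgroup.mem_centralizer_iff]
  intro y hy
  have hgy : g * y * g⁻¹ ∈ P := (Subgroup.mem_normalizer_iff.mp hg y).mp hy
  have hmem : y⁻¹ * (g * y * g⁻¹) ∈ Subgroup.zpowers u := by
    have h1 := Subgroup.mul_mem_iff_of_index_two hidx (a := (⟨y, hy⟩ : P)⁻¹)
      (b := ⟨g * y * g⁻¹, hgy⟩)
    rw [Subgroup.mem_subgroupOf, Subgroup.mem_subgroupOf, Subgroup.mem_subgroupOf] at h1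
    refine h1.mpr ?_
    change y⁻¹ ∈ Subgroup.zpowers u ↔ g * y * g⁻¹ ∈ Subgroup.zpowers u
    rw [Subgroup.inv_mem_iff]
    constructor
    · intro h
      obtain ⟨k, hk⟩ := Subgroup.mem_zpowers_iff.mp h
      rw [← hk, ← conj_zpow, hgu]
      exact Subgroup.zpow_mem _ (Subgroup.mem_zpowers u) k
    · intro h
      obtain ⟨k, hk⟩ := Subgroup.mem_zpowers_iff.mp h
      refine Subgroup.mem_zpowers_iff.mpr ⟨k, ?_⟩
      have h2 : (g * u * g⁻¹) ^ k = g * y * g⁻¹ := by rw [hgu]; exact hk
      rw [conj_zpow] at h2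
      exact mul_left_cancel (mul_right_cancel h2)
  obtain ⟨k, hk⟩ := Subgroup.mem_zpowers_iff.mp hmem
  have h1 : g * y * g⁻¹ = y * u ^ k := by rw [hk]; group
  have h2 : g * (u ^ k) * g⁻¹ = u ^ k := by rw [← conj_zpow, hgu]
  have h3 : (u ^ k) * (u ^ k) = 1 := by
    rw [← zpow_add, show k + k = 2 * k by ring, zpow_mul]
    have : u ^ (2 : ℤ) = 1 := by
      have := pow_orderOf_eq_one u
      rw [ho] at this
      exact_mod_cast this
    rw [this, one_zpow]
  have h4 : g ^ 2 * y * (g ^ 2)⁻¹ = y := by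
    have e1 : g ^ 2 * y * (g ^ 2)⁻¹ = g * (g * y * g⁻¹) * g⁻¹ := by rw [pow_two]; group
    have e2 : g * (y * u ^ k) * g⁻¹ = (g * y * g⁻¹) * (g * u ^ k * g⁻¹) := by group
    rw [e1, h1, e2, h1, h2, mul_assoc, h3, mul_one]
  exact (mul_inv_eq_iff_eq_mul.mp h4).symm

end Grp

section St

variable {G : Type u} [Group G] [Finite G]

theorem st4648 (p : ℕ) [hp : Fact p.Prime] (M : Ideal AlgInt)
    (hM : IsPModular p M) (B : Set (IrrCharacter G)) (hB : IsPBlock M B) (D : Subgroup G)
    (hD : IsDefectGroup p M B D) (hD1 : D ≠ ⊥) (hl : blockRank p B = 1) (hk : Nat.card B ≤ 4) :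
    IsNilpotentBlock p M B ∧ Nat.card D = Nat.card B ∧ (p = 2 ∨ p = 3) := by
  classical
  have hfG : Fintype G := Fintype.ofFinite _
  have hpr : M.IsPrime := hM.2.1.isPrime
  have := charP_KF hM
  obtain ⟨s, m, ε, F, hs, heε, hεN, hm, hdvd, -, -⟩ := exists_fam hM hB D hD hl
  have h1 := corner_comm_four (K := KF M) F.mu hs F.hc coeffOne coeffOne_comm coeffOne_nondeg F.hε
    F.hNA hεN (fun a ha => ⟨_, F.hdec a ha⟩) hm F.hNN (by rw [finrank_zR hB]; exact hk)
  have h3 := card_le_of_comm hB D F hs hεN hdvd h1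
  have hcd := H11.card_defect hM hB hD
  have hDpos : 1 < Nat.card D := by
    by_contra hc
    apply hD1
    apply Subgroup.card_eq_one.mp
    have := Nat.card_pos (α := D)
    omega
  set d := blockDefect p B with hd
  have hd0 : d ≠ 0 := by
    intro h
    rw [h, pow_zero] at hcd
    omega
  have hp2 := hp.out.two_le
  have hp4 : p ≤ 4 := by
    have h5 : p ∣ Nat.card D := by rw [hcd]; exact dvd_pow_self p hd0
    exact (Nat.le_of_dvd (by omega) h5).trans (h3.trans hk)
  have hp23 : p = 2 ∨ p = 3 := by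
    rcases (show p = 2 ∨ p = 3 ∨ p = 4 by omega) with h | h | h
    · exact Or.inl h
    · exact Or.inr h
    · exfalso
      have := hp.out
      rw [h] at this
      exact absurd this (by norm_num)
  have hd2 : d ≤ 2 := by
    by_contra hc
    have h5 : 2 ^ 3 ≤ p ^ d := (Nat.pow_le_pow_left hp2 3).trans
      (Nat.pow_le_pow_right (by omega) (by omega))
    rw [← hcd] at h5
    omega
  have hab : ∀ x ∈ D, ∀ y ∈ D, x * y = y * x := by
    intro x hx y hy
    rcases (show d = 1 ∨ d = 2 by omega) with h | h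
    · rw [h, pow_one] at hcd
      have := isCyclic_of_prime_card hcd
      exact abelian_of_cyclic this x hx y hy
    · rw [h] at hcd
      have h5 := IsPGroup.commutative_of_card_eq_prime_sq hcd
      exact congrArg Subtype.val (h5 (⟨x, hx⟩ : D) ⟨y, hy⟩)
  have hnil : IsNilpotentBlock p M B := by
    by_cases hcyc : IsCyclic D
    · exact cyclic_nil hM hB D hD hl hcyc
    · have hd2' : d = 2 := by
        rcases (show d = 1 ∨ d = 2 by omega) with h | h
        · exfalso
          rw [h, pow_one] at hcd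
          exact hcyc (isCyclic_of_prime_card hcd)
        · exact h
      have hp2' : p = 2 := by
        rcases hp23 with h | h
        · exact h
        · exfalso
          rw [hd2', h] at hcd
          omega
      subst hp2'
      rw [hd2'] at hcd
      have hDD := (isDefectGroup_iff_EG hB).mp hD
      obtain ⟨e, he⟩ := hDD.exists_inB (isBlk_EG hB)
      have hmax := he.maxB_of_isDef hDD
      have hePr : IsBrP 2 D e := hmax.1.2.1
      have hCT : cz D ≤ stab (nz D) e := cz_le_stab hePr.2
      have h4 := card_free hM hB hmax hab (by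
        intro t ht u hu hu1 htu
        apply mem_cz_of_pow (stab_le _ _) (hmax.not_dvd_abelian hab) ht (n := 1)
        rw [pow_one]
        apply sq_mem_cz_of_four (by rw [hcd]; norm_num) (stab_le _ _ ht) hu _ htu
        have h5 : orderOf (⟨u, hu⟩ : D) ∣ 2 ^ 2 := by
          rw [← hcd]; exact orderOf_dvd_natCard _
        obtain ⟨j, hj1, hj2⟩ := (Nat.dvd_prime_pow Nat.prime_two).mp h5
        rw [← Subgroup.orderOf_mk u hu, hj2]
        rcases (show j = 0 ∨ j = 1 ∨ j = 2 by omega) with h | h | h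
        · exfalso
          rw [h, pow_zero, Subgroup.orderOf_mk, orderOf_eq_one_iff] at hj2
          exact hu1 hj2
        · rw [h, pow_one]
        · exfalso
          apply hcyc
          rw [h, ← hcd] at hj2
          exact isCyclic_of_orderOf_eq_card _ hj2)
      rw [hl, mul_one] at h4
      rw [isNilpotentBlock_iff]
      refine ⟨hB, ?_⟩
      rw [hmax.isNil_iff_abelian hab]
      have h5 : Nat.card B = 4 := by
        rw [hcd] at h3
        omega
      rw [h5, hcd] at h4
      have h8 := Subgroup.eq_of_le_of_card_ge hCT (by omega)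
      exact h8.ge
  exact ⟨hnil, ((nilpotent_abelian p M hM hnil hD hab).1).symm, hp23⟩

end St

end Cfsg.Agent.H26
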