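import Mathlib
import Cfsg.Agent.H26.Kl1
import Cfsg.Agent.H26.Loc2
import Cfsg.Agent.H26.Cy8
import Cfsg.Agent.H26.Small
import Cfsg.Agent.H26.Cor2

set_option autoImplicit false
set_option maxHeartbeats 800000

/-!
# Blocks with Klein four defect groups: the local blocks
-/

namespace Cfsg.Agent.H26

open Cfsg Cfsg.Agent.H3 Cfsg.Agent.H11 Cfsg.Agent.H27 Finset
open scoped ComplexConjugate

universe u

section A

variable {G : Type u} [Group G] [Fintype G] {M : Ideal AlgInt}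

theorem comm_of_sq {P : Subgroup G} (hmul1 : ∀ x ∈ P, x * x = 1) :
    ∀ x ∈ P, ∀ y ∈ P, x * y = y * x := by
  intro x hx y hy
  have h1 := hmul1 _ (P.mul_mem hx hy)
  have h2 := hmul1 x hx
  have h3 := hmul1 y hy
  have h4 : x * y = (x * y)⁻¹ := eq_inv_of_mul_eq_one_left h1
  rw [h4, mul_inv_rev, inv_eq_of_mul_eq_one_left h2, inv_eq_of_mul_eq_one_left h3]

theorem kl_free {P T : Subgroup G} (h4 : Nat.card P = 4) (hmul1 : ∀ x ∈ P, x * x = 1)
    (hT : T ≤ nz P) (hnd : ¬ 2 ∣ (cz P).relIndex T) {g : G} (hg : g ∈ T) {u : G} (hu : u ∈ P)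
    (hu1 : u ≠ 1) (hgu : g * u * g⁻¹ = u) : g ∈ cz P := by
  have hp2 : Fact (Nat.Prime 2) := ⟨Nat.prime_two⟩
  have ho : orderOf u = 2 := orderOf_eq_prime (by rw [sq]; exact hmul1 u hu) hu1
  have h1 := sq_mem_cz_of_four h4 (hT hg) hu ho hgu
  exact mem_cz_of_pow (p := 2) (n := 1) hT hnd hg (by rwa [pow_one])

theorem kl_local (hM : IsPModular 2 M) {B : Set (IrrCharacter G)} (hB : IsPBlock M B)
    {P : Subgroup G} (hPD : IsDefectGroup 2 M B P) (h4 : Nat.card P = 4)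
    (hmul1 : ∀ x ∈ P, x * x = 1) {a : G} (ha : ∃ k : ℕ, orderOf a = 2 ^ k) (ha1 : a ≠ 1)
    {b : Set (IrrCharacter (cz (Subgroup.zpowers a)))}
    (hb : IsInducedBlock M (cz (Subgroup.zpowers a)) b B) :
    a * a = 1 ∧ IsPBlock M b ∧ blockRank 2 b = 1 ∧ Nat.card b = 4 ∧ blockDefect 2 b = 2 := by
  classical
  have hp2 : Fact (Nat.Prime 2) := ⟨Nat.prime_two⟩
  have := pmod_isPrime hM
  have := charP_KF hM
  have hDD := (isDefectGroup_iff_EG hB).mp hPD
  obtain ⟨hbB, -, hin⟩ := (isInducedBlock_cz_iff (isPGroup_zpowers ha)).mp hb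
  obtain ⟨P', e', hm, hle⟩ := hin.exists_maxB
  obtain ⟨x, -, hx⟩ := hm.isDef.unique hDD
  have hmul1' : ∀ y ∈ P', y * y = 1 := by
    intro y hy
    have h1 : x * y * x⁻¹ ∈ cg P' x := by
      rw [mem_cg]
      have : x⁻¹ * (x * y * x⁻¹) * x = y := by group
      rw [this]; exact hy
    rw [hx] at h1
    have h2 := hmul1 _ h1
    have h3 : y * y = x⁻¹ * (x * y * x⁻¹ * (x * y * x⁻¹)) * x := by group
    rw [h3, h2]; group
  have h4' : Nat.card P' = 4 := by rw [← card_cg P' x, hx, h4]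
  have hab := comm_of_sq hmul1'
  have haP : a ∈ P' := hle.le (Subgroup.mem_zpowers a)
  have hPC : P' ≤ cz (Subgroup.zpowers a) := by
    intro y hy
    rw [mem_cz_zpowers]
    exact hab y hy a haP
  have hePr : IsBrP 2 P' e' := hm.1.2.1
  have hnil : IsNilK 2 (cz (Subgroup.zpowers a)) (EH M (cz (Subgroup.zpowers a)) b) := by
    rw [hm.local_nil_iff hle hab]
    rintro g ⟨hg, hga⟩
    exact kl_free h4' hmul1' (stab_le _ _) (hm.not_dvd_abelian hab) hg haP ha1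
      (mul_inv_eq_iff_eq_mul.mpr (mem_cz_zpowers.mp hga))
  have hD : IsDef 2 (cz (Subgroup.zpowers a)) (EH M (cz (Subgroup.zpowers a)) b) P' :=
    hm.isDef_mid hle le_rfl (cz_le_stab (hle.isBrP_left hePr).2) hPC
  have hD' := (isDefectGroup_iff_EH hbB hPC).mpr hD
  have hcP : Nat.card (P'.subgroupOf (cz (Subgroup.zpowers a))) = 4 := by
    rw [← h4']
    exact Nat.card_congr (Subgroup.subgroupOfEquivOfLe hPC).toEquiv
  obtain ⟨h5, h6⟩ := nilpotent_abelian 2 M hM (isNilpotentBlock_iff_EH.mpr ⟨hbB, hnil⟩) hD' (by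
    rintro ⟨x, hx⟩ hx' ⟨y, hy⟩ hy'
    exact Subtype.ext (hab x (Subgroup.mem_subgroupOf.mp hx') y
      (Subgroup.mem_subgroupOf.mp hy')))
  refine ⟨hmul1' a haP, hbB, h6, by rw [h5, hcP], ?_⟩
  have h7 := card_defect hM hbB hD'
  rw [hcP] at h7
  have h8 : (2 : ℕ) ^ 2 = 2 ^ blockDefect 2 b := by rw [← h7]; norm_num
  exact (Nat.pow_right_injective le_rfl h8).symm

end A

end Cfsg.Agent.H26
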