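import Mathlib
import Cfsg.Agent.H26.Kl2
import Cfsg.Agent.H26.Coef2

set_option autoImplicit false
set_option maxHeartbeats 800000

/-!
# Blocks with Klein four defect groups: the sign vectors
-/

namespace Cfsg.Agent.H26

open Cfsg Cfsg.Agent.H3 Cfsg.Agent.H11 Cfsg.Agent.H27 Finset
open scoped ComplexConjugate

universe u

section A

variable {G : Type u} [Group G] [Fintype G] {M : Ideal AlgInt}

theorem sq_one' {R : Type*} [CommRing R] [NoZeroDivisors R] {x : R} (h : x ^ 2 = 1) :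
    x = 1 ∨ x = -1 := by
  have h1 : (x - 1) * (x + 1) = 0 := by linear_combination h
  rcases mul_eq_zero.mp h1 with h2 | h2
  · exact Or.inl (sub_eq_zero.mp h2)
  · exact Or.inr (eq_neg_of_add_eq_zero_left h2)

theorem block_nonempty' {B : Set (IrrCharacter G)} {n : ℕ} (h : Nat.card B = n + 1) :
    ∃ ψ, ψ ∈ B := by
  by_contra hc
  push Not at hc
  have h1 : B = ∅ := Set.eq_empty_of_forall_notMem hc
  rw [h1] at h
  simp at h

/-- multiplicity form of `ct` for blocks with constant characters on regular elements. -/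
theorem ct_const (hM : IsPModular 2 M) {a : G} (ha2 : a * a = 1)
    {C : Subgroup G} [Fintype C] (hC : C = Subgroup.centralizer ({a} : Set G))
    {b : Set (IrrCharacter C)} (hbB : IsPBlock M b) (hr : blockRank 2 b = 1)
    (hc : Nat.card b = 4) (hd : blockDefect 2 b = 2) {ψ₀ : IrrCharacter C} (hψ : ψ₀ ∈ b)
    (χ : IrrCharacter G) :
    ∃ q : ℤ, ∀ s : C, ¬ 2 ∣ orderOf s → ct C a b (χ : G → ℂ) s = q * (ψ₀ : C → ℂ) s := by
  classical
  have hp2 : Fact (Nat.Prime 2) := ⟨Nat.prime_two⟩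
  have hfI : Fintype (IrrCharacter C) := Fintype.ofFinite _
  have haC : a ∈ C := by
    rw [hC, Subgroup.mem_centralizer_singleton_iff]
  have hxc : ∀ c : C, (⟨a, haC⟩ : C) * c = c * ⟨a, haC⟩ := by
    intro c
    have h1 : (c : G) ∈ Subgroup.centralizer ({a} : Set G) := hC ▸ c.2
    exact Subtype.ext (Subgroup.mem_centralizer_singleton_iff.mp h1).symm
  have hint : ∀ ψ : IrrCharacter C, ∃ z : ℤ, ac C a (χ : G → ℂ) (ψ : C → ℂ) = z := by
    intro ψ
    have h1 := ac_eq (irr_isChar χ.2) hxc ψ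
    have h2 : ((⟨a, haC⟩ : C) : G) = a := rfl
    rw [h2] at h1
    obtain ⟨n, hn⟩ := classInner_gen_int (isGen_of_char (isChar_restrict' (C := C)
      (irr_isChar χ.2))) (isGen_of_irr ψ.2)
    have h3 : lv (⟨a, haC⟩ : C) (ψ : C → ℂ) ^ 2 = 1 := by
      apply lv_pow_eq_one ψ.2 hxc
      rw [sq]
      exact Subtype.ext ha2
    rw [h1, hn]
    rcases sq_one' h3 with h | h
    · exact ⟨n, by rw [h, mul_one]⟩
    · exact ⟨-n, by rw [h]; push_cast; ring⟩
  choose z hz using hint
  refine ⟨∑ ψ : IrrCharacter C with ψ ∈ b, z ψ, fun s hs => ?_⟩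
  rw [ct_eq_sum, Finset.sum_apply]
  push_cast
  rw [Finset.sum_mul]
  apply Finset.sum_congr rfl
  intro ψ hψb
  rw [Pi.smul_apply, smul_eq_mul, hz]
  rw [reg_of_rank_one hM hbB hr (by rw [hc, hd]; norm_num) (Finset.mem_filter.mp hψb).2 hψ hs]

theorem kl_q (hM : IsPModular 2 M) [Fintype (IrrCharacter G)] {B : Set (IrrCharacter G)}
    [DecidablePred (· ∈ B)] (hB : IsPBlock M B)
    (hcard : Nat.card B = 4) (hdB : blockDefect 2 B = 2)
    {a : G} (ha2 : a * a = 1) (ha1 : a ≠ 1)
    {C : Subgroup G} [Fintype C] (hC : C = Subgroup.centralizer ({a} : Set G))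
    {b : Set (IrrCharacter C)} (hind : IsInducedBlock M C b B)
    (hbB : IsPBlock M b) (hr : blockRank 2 b = 1)
    (hc : Nat.card b = 4) (hd : blockDefect 2 b = 2) :
    ∃ (q : IrrCharacter G → ℤ) (φ : C → ℂ), (∀ χ ∈ B, q χ = 1 ∨ q χ = -1) ∧
      (∀ χ ∈ B, ∀ s : C, ¬ 2 ∣ orderOf s → ct C a b (χ : G → ℂ) s = q χ * φ s) ∧
      (∀ s : C, ¬ 2 ∣ orderOf s → MemLocalRing M
        (4 * φ s / (Nat.card (Subgroup.centralizer ({s} : Set C)) : ℂ))) ∧
      (∀ y : G, ¬ 2 ∣ orderOf y →
        ∑ χ : IrrCharacter G with χ ∈ B, (q χ : ℂ) * (χ : G → ℂ) y = 0) ∧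
      ∀ s : C, MemLocalRing M (φ s) := by
  classical
  have hp2 : Fact (Nat.Prime 2) := ⟨Nat.prime_two⟩
  have hpr : M.IsPrime := hM.2.1.isPrime
  have hfI : Fintype (IrrCharacter C) := Fintype.ofFinite _
  have hax : ∃ k : ℕ, orderOf a = 2 ^ k :=
    ⟨1, by rw [pow_one]; exact orderOf_eq_prime (by rw [sq]; exact ha2) ha1⟩
  obtain ⟨ψ₀, hψ₀⟩ := block_nonempty' (n := 3) hc
  choose q hq using fun χ : IrrCharacter G => ct_const hM ha2 hC hbB hr hc hd hψ₀ χ
  have hdeg : (ψ₀ : C → ℂ) 1 ≠ 0 := irr_one_ne_zero ψ₀.2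
  have h1reg : ¬ 2 ∣ orderOf (1 : C) := by rw [orderOf_one]; norm_num
  have hcardb : (univ.filter (· ∈ b)).card = 4 := by rw [← natCard_block, hc]
  have hcardB : (univ.filter (· ∈ B)).card = 4 := by rw [← natCard_block, hcard]
  have hreg : ∀ ψ ∈ b, ∀ s : C, ¬ 2 ∣ orderOf s → (ψ : C → ℂ) s = (ψ₀ : C → ℂ) s :=
    fun ψ hψ s hs => reg_of_rank_one hM hbB hr (by rw [hc, hd]; norm_num) hψ hψ₀ hs
  have hkr : ∀ s t : C, ¬ 2 ∣ orderOf s → ¬ 2 ∣ orderOf t →
      kr b s t = 4 * ((ψ₀ : C → ℂ) s * conj ((ψ₀ : C → ℂ) t)) := by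
    intro s t hs ht
    rw [kr_eq]
    rw [Finset.sum_congr rfl (g := fun _ => (ψ₀ : C → ℂ) s * conj ((ψ₀ : C → ℂ) t))]
    · rw [Finset.sum_const, hcardb, nsmul_eq_mul]
      norm_num
    · intro ψ hψ
      rw [hreg ψ (Finset.mem_filter.mp hψ).2 s hs, hreg ψ (Finset.mem_filter.mp hψ).2 t ht]
  -- sum of squares
  have hsq : ∑ χ : IrrCharacter G with χ ∈ B, q χ ^ 2 = 4 := by
    have h1 := ct_pairing hM hB hax hC hind 1 1 h1reg h1reg
    rw [hkr 1 1 h1reg h1reg] at h1
    have h2 : ∑ χ : IrrCharacter G with χ ∈ B, ct C a b (χ : G → ℂ) 1 *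
        conj (ct C a b (χ : G → ℂ) 1) =
        (∑ χ : IrrCharacter G with χ ∈ B, (q χ : ℂ) ^ 2) *
          ((ψ₀ : C → ℂ) 1 * conj ((ψ₀ : C → ℂ) 1)) := by
      rw [Finset.sum_mul]
      apply Finset.sum_congr rfl
      intro χ _
      rw [hq χ 1 h1reg, map_mul, map_intCast]
      ring
    rw [h2] at h1
    have h3 : (ψ₀ : C → ℂ) 1 * conj ((ψ₀ : C → ℂ) 1) ≠ 0 :=
      mul_ne_zero hdeg ((map_ne_zero _).mpr hdeg)
    have h4 := mul_right_cancel₀ h3 h1
    exact_mod_cast h4
  have hne : ∀ χ ∈ B, q χ ≠ 0 := by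
    intro χ hχ h0
    apply cn_self_ne_zero hM hax hC hB hind (by rw [hd, hdB]) hχ
    rw [cn_eq]
    rw [Finset.sum_eq_zero, mul_zero]
    intro s hs
    rw [hq χ s (Finset.mem_filter.mp hs).2, h0]
    simp
  have hone : ∀ χ ∈ B, q χ ^ 2 = 1 := by
    have h1 : ∀ χ ∈ univ.filter (· ∈ B), 0 ≤ q χ ^ 2 - 1 := by
      intro χ hχ
      have h2 := hne χ (Finset.mem_filter.mp hχ).2
      have h3 : 0 < q χ ^ 2 := by positivity
      omega
    have h2 : ∑ χ ∈ univ.filter (· ∈ B), (q χ ^ 2 - 1) = 0 := by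
      rw [Finset.sum_sub_distrib, hsq, Finset.sum_const, hcardB]
      norm_num
    intro χ hχ
    have h3 := (Finset.sum_eq_zero_iff_of_nonneg h1).mp h2 χ
      (Finset.mem_filter.mpr ⟨Finset.mem_univ _, hχ⟩)
    omega
  refine ⟨q, (ψ₀ : C → ℂ), ?_, fun χ _ s hs => hq χ s hs, ?_, ?_, fun s => lr_char ψ₀.2 s⟩
  · intro χ hχ
    exact sq_one' (hone χ hχ)
  · -- integrality
    intro s hs
    have h1 := lr_reg_div (p := 2) (M := M) (G := C) hM
      (f := fun c => ∑ ψ : IrrCharacter C with ψ ∈ b, (ψ : C → ℂ) c)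
      (fun ψ => if ψ ∈ b then 1 else 0) (by
        intro ψ
        split_ifs
        · exact lr_one M
        · exact lr_zero M) (by
        intro g
        rw [Finset.sum_filter]
        apply Finset.sum_congr rfl
        intro ψ _
        split_ifs <;> simp) (by
        intro g hg
        have h2 := kr_eq_zero' hM hbB hg h1reg
        rw [kr_eq] at h2
        rw [Finset.sum_congr rfl (g := fun ψ : IrrCharacter C =>
          (ψ : C → ℂ) g * conj ((ψ₀ : C → ℂ) 1))] at h2
        · rw [← Finset.sum_mul] at h2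
          exact (mul_eq_zero.mp h2).resolve_right ((map_ne_zero _).mpr hdeg)
        · intro ψ hψ
          rw [hreg ψ (Finset.mem_filter.mp hψ).2 1 h1reg]) hs
    have h3 : ∑ ψ : IrrCharacter C with ψ ∈ b, (ψ : C → ℂ) s = 4 * (ψ₀ : C → ℂ) s := by
      rw [Finset.sum_congr rfl (g := fun _ => (ψ₀ : C → ℂ) s)]
      · rw [Finset.sum_const, hcardb, nsmul_eq_mul]
        norm_num
      · intro ψ hψ
        exact hreg ψ (Finset.mem_filter.mp hψ).2 s hs
    simp only [h3] at h1
    exact h1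
  · -- orthogonality
    have key : ∀ y : G, ¬ 2 ∣ orderOf y →
        ∑ χ : IrrCharacter G with χ ∈ B, (q χ : ℂ) * conj ((χ : G → ℂ) y) = 0 := by
      intro y hy
      have h1 : (∑ χ : IrrCharacter G with χ ∈ B, (q χ : ℂ) * conj ((χ : G → ℂ) y)) *
          (ψ₀ : C → ℂ) 1 = 0 := by
        calc (∑ χ : IrrCharacter G with χ ∈ B, (q χ : ℂ) * conj ((χ : G → ℂ) y)) *
              (ψ₀ : C → ℂ) 1
            = ∑ χ : IrrCharacter G with χ ∈ B, ct C a b (χ : G → ℂ) 1 *
                conj ((χ : G → ℂ) y) := by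
              rw [Finset.sum_mul]
              apply Finset.sum_congr rfl
              intro χ _
              rw [hq χ 1 h1reg]
              ring
          _ = (Nat.card C : ℂ)⁻¹ * ∑ c : C, kr b 1 c * kr B (a * c) y := by
              rw [Finset.sum_congr rfl (fun χ _ => by rw [ct_eq])]
              simp only [mul_assoc, Finset.sum_mul]
              rw [← Finset.mul_sum, Finset.sum_comm]
              congr 1
              apply Finset.sum_congr rfl
              intro c _
              rw [kr_eq B, Finset.mul_sum]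
              apply Finset.sum_congr rfl
              intro χ _
              ring
          _ = 0 := by
              rw [Finset.sum_eq_zero, mul_zero]
              intro c _
              by_cases hcr : 2 ∣ orderOf c
              · rw [kr_eq_zero hM hbB h1reg hcr, zero_mul]
              · rw [kr_eq_zero' hM hB _ hy, mul_zero]
                by_contra hac
                apply ha1
                have h5 : (c : G) ∈ Subgroup.centralizer ({a} : Set G) := hC ▸ c.2
                have h6 : (c : G) * a = a * c := Subgroup.mem_centralizer_singleton_iff.mp h5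
                exact eq_one_of_comm_reg (p := 2) (x := (c : G)) hax h6.symm
                  (by rwa [Subgroup.orderOf_coe]) hac
      exact (mul_eq_zero.mp h1).resolve_right hdeg
    intro y hy
    have h2 := congrArg conj (key y hy)
    rw [map_sum, map_zero] at h2
    rw [← h2]
    apply Finset.sum_congr rfl
    intro χ _
    rw [map_mul, Complex.conj_conj, map_intCast]

end A

end Cfsg.Agent.H26
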