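import Mathlib
import Cfsg.Agent.H26.Kl3

set_option autoImplicit false
set_option maxHeartbeats 800000

/-!
# Blocks with Klein four defect groups: values on singular elements
-/

namespace Cfsg.Agent.H26

open Cfsg Cfsg.Agent.H3 Cfsg.Agent.H11 Cfsg.Agent.H27 Finset
open scoped ComplexConjugate

universe u

section A

variable {G : Type u} [Group G] [Fintype G] {M : Ideal AlgInt}

/-- sign vectors orthogonal to the regular columns. -/
def QV [Fintype (IrrCharacter G)] (B : Set (IrrCharacter G)) [DecidablePred (· ∈ B)]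
    (q : IrrCharacter G → ℤ) : Prop :=
  (∀ χ ∈ B, q χ = 1 ∨ q χ = -1) ∧ ∀ y : G, ¬ 2 ∣ orderOf y →
    ∑ χ : IrrCharacter G with χ ∈ B, (q χ : ℂ) * (χ : G → ℂ) y = 0

theorem card_cent_part {p : ℕ} (hp : p.Prime) {x a s : G} (h : a * s = x) (hc : Commute a s)
    (ha : ∃ k : ℕ, orderOf a = p ^ k) (hs : ¬ p ∣ orderOf s) {C : Subgroup G}
    (hC : C = Subgroup.centralizer ({a} : Set G)) (hsC : s ∈ C) :
    Nat.card (Subgroup.centralizer ({x} : Set G)) =
      Nat.card (Subgroup.centralizer ({(⟨s, hsC⟩ : C)} : Set C)) := by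
  have h1 : Subgroup.centralizer ({x} : Set G) =
      (Subgroup.centralizer ({(⟨s, hsC⟩ : C)} : Set C)).map C.subtype := by
    ext g
    rw [Subgroup.mem_centralizer_singleton_iff, Subgroup.mem_map]
    constructor
    · intro hg
      obtain ⟨n, hn⟩ := isPPart_mem_zpowers hp ⟨s, h, hc, ha, hs⟩
      have hga : Commute g a := by
        rw [hn]
        exact (show Commute g x from hg).pow_right n
      have hgC : g ∈ C := by
        rw [hC, Subgroup.mem_centralizer_singleton_iff]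
        exact hga
      have hgs : Commute g s := by
        have h2 : s = a⁻¹ * x := by rw [← h]; group
        rw [h2]
        exact hga.inv_right.mul_right hg
      refine ⟨⟨g, hgC⟩, ?_, rfl⟩
      rw [Subgroup.mem_centralizer_singleton_iff]
      exact Subtype.ext hgs
    · rintro ⟨c, hc', rfl⟩
      have h2 : (c : G) ∈ Subgroup.centralizer ({a} : Set G) := hC ▸ c.2
      have h3 : (c : G) * a = a * c := Subgroup.mem_centralizer_singleton_iff.mp h2
      have h4 : (c : G) * s = s * c :=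
        congrArg Subtype.val (Subgroup.mem_centralizer_singleton_iff.mp hc')
      rw [← h]
      exact (show Commute (c : G) a from h3).mul_right h4
  rw [h1]
  exact Nat.card_congr ((Subgroup.centralizer ({(⟨s, hsC⟩ : C)} : Set C)).equivMapOfInjective
    C.subtype C.subtype_injective).toEquiv.symm

theorem kl_struct (hM : IsPModular 2 M) [Fintype (IrrCharacter G)] {B : Set (IrrCharacter G)}
    [DecidablePred (· ∈ B)] (hB : IsPBlock M B) {P : Subgroup G}
    (hPD : IsDefectGroup 2 M B P) (h4 : Nat.card P = 4) (hmul1 : ∀ x ∈ P, x * x = 1)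
    {x : G} (hx : 2 ∣ orderOf x) :
    ∃ (ι : Type u) (t : Finset ι) (q : ι → IrrCharacter G → ℤ) (φ : ι → ℂ),
      (∀ i ∈ t, QV B (q i)) ∧ (∀ i ∈ t, MemLocalRing M
        (4 * φ i / (Nat.card (Subgroup.centralizer ({x} : Set G)) : ℂ))) ∧
      (∀ i ∈ t, MemLocalRing M (φ i)) ∧
      ∀ χ ∈ B, (χ : G → ℂ) x = ∑ i ∈ t, (q i χ : ℂ) * φ i := by
  classical
  have hp2 : Fact (Nat.Prime 2) := ⟨Nat.prime_two⟩
  obtain ⟨a, s, has, hc, ha, hs⟩ := exists_isPPart Nat.prime_two x
  have ha1 : a ≠ 1 := by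
    rintro rfl
    rw [one_mul] at has
    rw [has] at hs
    exact hs hx
  have hdef : blockDefect 2 B = 2 := by
    have h1 := card_defect hM hB hPD
    rw [h4] at h1
    have h2 : (2 : ℕ) ^ 2 = 2 ^ blockDefect 2 B := by rw [← h1]; norm_num
    exact (Nat.pow_right_injective le_rfl h2).symm
  have hk := card_eq_four hM hB hdef
  have hCC : cz (Subgroup.zpowers a) = Subgroup.centralizer ({a} : Set G) :=
    (cent_zpowers a).symm
  have hsC : s ∈ cz (Subgroup.zpowers a) := by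
    rw [hCC, Subgroup.mem_centralizer_singleton_iff]
    exact hc.eq.symm
  have hfC : Fintype (cz (Subgroup.zpowers a)) := Fintype.ofFinite _
  have hex : ∀ b : Set (IrrCharacter (cz (Subgroup.zpowers a))),
      ∃ (q : IrrCharacter G → ℤ) (φ : cz (Subgroup.zpowers a) → ℂ),
      b ∈ indS M (cz (Subgroup.zpowers a)) B → (∀ χ ∈ B, q χ = 1 ∨ q χ = -1) ∧
      (∀ χ ∈ B, ∀ s : cz (Subgroup.zpowers a), ¬ 2 ∣ orderOf s →
        ct (cz (Subgroup.zpowers a)) a b (χ : G → ℂ) s = q χ * φ s) ∧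
      (∀ s : cz (Subgroup.zpowers a), ¬ 2 ∣ orderOf s → MemLocalRing M
        (4 * φ s / (Nat.card (Subgroup.centralizer ({s} : Set (cz (Subgroup.zpowers a)))) : ℂ))) ∧
      (∀ y : G, ¬ 2 ∣ orderOf y →
        ∑ χ : IrrCharacter G with χ ∈ B, (q χ : ℂ) * (χ : G → ℂ) y = 0) ∧
      ∀ s : cz (Subgroup.zpowers a), MemLocalRing M (φ s) := by
    intro b
    by_cases hb : b ∈ indS M (cz (Subgroup.zpowers a)) B
    · rw [mem_indS] at hb
      obtain ⟨e1, e2, e3, e4, e5⟩ := kl_local hM hB hPD h4 hmul1 ha ha1 hb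
      obtain ⟨q, φ, h⟩ := kl_q hM hB hk hdef e1 ha1 hCC hb e2 e3 e4 e5
      exact ⟨q, φ, fun _ => h⟩
    · exact ⟨0, 0, fun h => absurd h hb⟩
  choose q φ hqφ using hex
  have hsr : ¬ 2 ∣ orderOf (⟨s, hsC⟩ : cz (Subgroup.zpowers a)) := by
    rwa [← Subgroup.orderOf_coe]
  refine ⟨Set (IrrCharacter (cz (Subgroup.zpowers a))), indS M (cz (Subgroup.zpowers a)) B, q,
    fun b => φ b ⟨s, hsC⟩, fun b hb => ⟨(hqφ b hb).1, (hqφ b hb).2.2.2.1⟩, fun b hb => ?_,
    fun b hb => (hqφ b hb).2.2.2.2 _, fun χ hχ => ?_⟩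
  · rw [card_cent_part Nat.prime_two has hc ha hs hCC hsC]
    exact (hqφ b hb).2.2.1 _ hsr
  · have h5 := char_eq_sum_ct hM hB ha hCC hχ ⟨s, hsC⟩ hsr
    have h6 : a * ((⟨s, hsC⟩ : cz (Subgroup.zpowers a)) : G) = x := has
    rw [h6] at h5
    rw [h5]
    exact Finset.sum_congr rfl fun b hb => (hqφ b hb).2.1 χ hχ _ hsr

end A

end Cfsg.Agent.H26
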