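import Mathlib
import Cfsg.Agent.H26.Kl4

set_option autoImplicit false
set_option maxHeartbeats 800000

/-!
# Perfect isometries from sign vectors
-/

namespace Cfsg.Agent.H26

open Cfsg Cfsg.Agent.H3 Cfsg.Agent.H11 Cfsg.Agent.H27 Finset
open scoped ComplexConjugate

universe u

section A

variable {G : Type u} [Group G] [Fintype G] {H : Type u} [Group H] [Fintype H]
  {M : Ideal AlgInt}

/-- singular columns -/
def SC (M : Ideal AlgInt) [Fintype (IrrCharacter G)] (B : Set (IrrCharacter G))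
    [DecidablePred (· ∈ B)] (x : G) : Prop :=
  ∃ (ι : Type u) (t : Finset ι) (q : ι → IrrCharacter G → ℤ) (φ : ι → ℂ),
      (∀ i ∈ t, QV B (q i)) ∧ (∀ i ∈ t, MemLocalRing M
        (4 * φ i / (Nat.card (Subgroup.centralizer ({x} : Set G)) : ℂ))) ∧
      (∀ i ∈ t, MemLocalRing M (φ i)) ∧
      ∀ χ ∈ B, (χ : G → ℂ) x = ∑ i ∈ t, (q i χ : ℂ) * φ i

theorem perf_of_sign (hM : IsPModular 2 M) [Fintype (IrrCharacter G)]
    [Fintype (IrrCharacter H)] {B : Set (IrrCharacter G)} [DecidablePred (· ∈ B)]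
    {c : Set (IrrCharacter H)} [DecidablePred (· ∈ c)]
    (sB : ∀ x : G, 2 ∣ orderOf x → SC M B x) (sc : ∀ y : H, 2 ∣ orderOf y → SC M c y)
    {I : IrrCharacter H → IrrCharacter G} (hI : Set.BijOn I c B) {ε : IrrCharacter H → ℤ}
    (hε : ∀ η ∈ c, ε η = 1 ∨ ε η = -1)
    (h1 : ∀ q : IrrCharacter G → ℤ, QV B q → ∀ y : H, ¬ 2 ∣ orderOf y →
      ∑ η : IrrCharacter H with η ∈ c, (ε η : ℂ) * q (I η) * (η : H → ℂ) y = 0)
    (h2 : ∀ q' : IrrCharacter H → ℤ, QV c q' → ∀ x : G, ¬ 2 ∣ orderOf x →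
      ∑ η : IrrCharacter H with η ∈ c, (ε η : ℂ) * q' η * (I η : G → ℂ) x = 0)
    (h3 : ∀ (q : IrrCharacter G → ℤ) (q' : IrrCharacter H → ℤ), QV B q → QV c q' → ∃ n : ℤ,
      ∑ η : IrrCharacter H with η ∈ c, (ε η : ℂ) * q (I η) * q' η = 4 * n) :
    IsPerfectIsometry 2 M c B I ε := by
  classical
  have hp2 : Fact (Nat.Prime 2) := ⟨Nat.prime_two⟩
  have hpr : M.IsPrime := hM.2.1.isPrime
  set μ : G → H → ℂ := fun x y => ∑ η : IrrCharacter H with η ∈ c,
    (ε η : ℂ) * (I η : G → ℂ) x * (η : H → ℂ) y with hμ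
  have hμ' : ∀ x y, signedBijectionKernel c I ε x y = μ x y := by
    intro x y
    unfold signedBijectionKernel
    rw [finsum_mem_irr]
  have z1 : ∀ x y, 2 ∣ orderOf x → ¬ 2 ∣ orderOf y → μ x y = 0 := by
    intro x y hx hy
    obtain ⟨ι, t, q, φ, e1, -, -, e4⟩ := sB x hx
    have e5 : μ x y = ∑ i ∈ t, φ i * ∑ η : IrrCharacter H with η ∈ c,
        (ε η : ℂ) * q i (I η) * (η : H → ℂ) y := by
      simp only [hμ, Finset.mul_sum]
      rw [Finset.sum_comm]
      apply Finset.sum_congr rfl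
      intro η hη
      rw [e4 (I η) (hI.mapsTo (Finset.mem_filter.mp hη).2), Finset.mul_sum, Finset.sum_mul]
      apply Finset.sum_congr rfl
      intro i _
      ring
    rw [e5]
    apply Finset.sum_eq_zero
    intro i hi
    rw [h1 (q i) (e1 i hi) y hy, mul_zero]
  have z2 : ∀ x y, ¬ 2 ∣ orderOf x → 2 ∣ orderOf y → μ x y = 0 := by
    intro x y hx hy
    obtain ⟨ι, t, q, φ, e1, -, -, e4⟩ := sc y hy
    have e5 : μ x y = ∑ i ∈ t, φ i * ∑ η : IrrCharacter H with η ∈ c,
        (ε η : ℂ) * q i η * (I η : G → ℂ) x := by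
      simp only [hμ, Finset.mul_sum]
      rw [Finset.sum_comm]
      apply Finset.sum_congr rfl
      intro η hη
      rw [e4 η (Finset.mem_filter.mp hη).2, Finset.mul_sum]
      apply Finset.sum_congr rfl
      intro i _
      ring
    rw [e5]
    apply Finset.sum_eq_zero
    intro i hi
    rw [h2 (q i) (e1 i hi) x hx, mul_zero]
  have r1 : ∀ x y, ¬ 2 ∣ orderOf x → ¬ 2 ∣ orderOf y →
      MemLocalRing M (μ x y / (Nat.card (Subgroup.centralizer ({x} : Set G)) : ℂ)) := by
    intro x y hx hy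
    apply lr_reg_div (p := 2) hM (f := fun g => μ g y) (fun χ : IrrCharacter G =>
      ∑ η : IrrCharacter H with η ∈ c ∧ I η = χ, (ε η : ℂ) * (η : H → ℂ) y)
    · intro χ
      apply lr_sum
      intro η _
      exact lr_mul (lr_intCast M _) (lr_char η.2 y)
    · intro g
      simp only [hμ, Finset.sum_mul]
      rw [← Finset.sum_fiberwise (univ.filter (· ∈ c)) I]
      apply Finset.sum_congr rfl
      intro χ _
      rw [Finset.filter_filter]
      apply Finset.sum_congr rfl
      intro η hη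
      rw [(Finset.mem_filter.mp hη).2.2]
      ring
    · intro g hg
      exact z1 g y hg hy
    · exact hx
  have r2 : ∀ x y, ¬ 2 ∣ orderOf x → ¬ 2 ∣ orderOf y →
      MemLocalRing M (μ x y / (Nat.card (Subgroup.centralizer ({y} : Set H)) : ℂ)) := by
    intro x y hx hy
    apply lr_reg_div (p := 2) hM (f := fun h => μ x h) (fun η : IrrCharacter H =>
      if η ∈ c then (ε η : ℂ) * (I η : G → ℂ) x else 0)
    · intro η
      split_ifs
      · exact lr_mul (lr_intCast M _) (lr_char (I η).2 x)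
      · exact lr_zero M
    · intro g
      simp only [hμ]
      rw [Finset.sum_filter]
      apply Finset.sum_congr rfl
      intro η _
      split_ifs <;> simp
    · intro g hg
      exact z2 x g hx hg
    · exact hy
  have s1 : ∀ x y, 2 ∣ orderOf x → 2 ∣ orderOf y →
      MemLocalRing M (μ x y / (Nat.card (Subgroup.centralizer ({x} : Set G)) : ℂ)) ∧
      MemLocalRing M (μ x y / (Nat.card (Subgroup.centralizer ({y} : Set H)) : ℂ)) := by
    intro x y hx hy
    obtain ⟨ι, t, q, φ, e1, e2, e3, e4⟩ := sB x hx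
    obtain ⟨κ, t', q', φ', f1, f2, f3, f4⟩ := sc y hy
    have hex : ∀ i j, ∃ n : ℤ, i ∈ t → j ∈ t' → ∑ η : IrrCharacter H with η ∈ c,
        (ε η : ℂ) * q i (I η) * q' j η = 4 * n := by
      intro i j
      by_cases hi : i ∈ t
      · by_cases hj : j ∈ t'
        · obtain ⟨n, hn⟩ := h3 (q i) (q' j) (e1 i hi) (f1 j hj)
          exact ⟨n, fun _ _ => hn⟩
        · exact ⟨0, fun _ h => absurd h hj⟩
      · exact ⟨0, fun h => absurd h hi⟩
    choose n hn using hex
    have e5 : μ x y = ∑ i ∈ t, ∑ j ∈ t', (n i j : ℂ) * (4 * φ i * φ' j) := by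
      have e6 : μ x y = ∑ i ∈ t, ∑ j ∈ t', (∑ η : IrrCharacter H with η ∈ c,
          (ε η : ℂ) * q i (I η) * q' j η) * (φ i * φ' j) := by
        simp only [hμ, Finset.sum_mul]
        rw [Finset.sum_congr rfl (fun i _ => Finset.sum_comm), Finset.sum_comm]
        apply Finset.sum_congr rfl
        intro η hη
        rw [f4 η (Finset.mem_filter.mp hη).2, e4 (I η) (hI.mapsTo (Finset.mem_filter.mp hη).2),
          Finset.mul_sum]
        conv_rhs => rw [Finset.sum_comm]
        apply Finset.sum_congr rfl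
        intro j _
        rw [Finset.mul_sum, Finset.sum_mul]
        apply Finset.sum_congr rfl
        intro i _
        ring
      rw [e6]
      apply Finset.sum_congr rfl
      intro i hi
      apply Finset.sum_congr rfl
      intro j hj
      rw [hn i j hi hj]
      ring
    rw [e5]
    constructor
    · rw [Finset.sum_div]
      apply lr_sum
      intro i hi
      rw [Finset.sum_div]
      apply lr_sum
      intro j hj
      have e7 : (n i j : ℂ) * (4 * φ i * φ' j) /
          (Nat.card (Subgroup.centralizer ({x} : Set G)) : ℂ) = (n i j : ℂ) *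
            ((4 * φ i / (Nat.card (Subgroup.centralizer ({x} : Set G)) : ℂ)) * φ' j) := by
        ring
      rw [e7]
      exact lr_mul (lr_intCast M _) (lr_mul (e2 i hi) (f3 j hj))
    · rw [Finset.sum_div]
      apply lr_sum
      intro i hi
      rw [Finset.sum_div]
      apply lr_sum
      intro j hj
      have e7 : (n i j : ℂ) * (4 * φ i * φ' j) /
          (Nat.card (Subgroup.centralizer ({y} : Set H)) : ℂ) = (n i j : ℂ) *
            (φ i * (4 * φ' j / (Nat.card (Subgroup.centralizer ({y} : Set H)) : ℂ))) := by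
        ring
      rw [e7]
      exact lr_mul (lr_intCast M _) (lr_mul (e3 i hi) (f2 j hj))
  refine ⟨hI, hε, ?_⟩
  intro x y
  rw [hμ']
  by_cases hx : 2 ∣ orderOf x
  · by_cases hy : 2 ∣ orderOf y
    · obtain ⟨k1, k2⟩ := s1 x y hx hy
      exact ⟨k1, k2, Or.inl ⟨fun h => absurd hx h, fun h => absurd hy h⟩⟩
    · rw [z1 x y hx hy]
      simp only [zero_div]
      exact ⟨lr_zero M, lr_zero M, Or.inr trivial⟩
  · by_cases hy : 2 ∣ orderOf y
    · rw [z2 x y hx hy]
      simp only [zero_div]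
      exact ⟨lr_zero M, lr_zero M, Or.inr trivial⟩
    · exact ⟨r1 x y hx hy, r2 x y hx hy, Or.inl ⟨fun _ => hy, fun _ => hx⟩⟩

end A

end Cfsg.Agent.H26
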