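import Mathlib
import Cfsg.Agent.H26.Kl5

set_option autoImplicit false
set_option maxHeartbeats 800000

/-!
# Perfect isometries for Klein four defect groups: the combinatorics
-/

namespace Cfsg.Agent.H26

open Cfsg Cfsg.Agent.H3 Cfsg.Agent.H11 Cfsg.Agent.H27 Finset
open scoped ComplexConjugate

universe u

section A

variable {G : Type u} [Group G] [Fintype G] {H : Type u} [Group H] [Fintype H]
  {M : Ideal AlgInt}

theorem sum_bijOn {α β : Type*} [Fintype α] [Fintype β] {c : Set α} {B : Set β}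
    [DecidablePred (· ∈ c)] [DecidablePred (· ∈ B)] {I : α → β} (hI : Set.BijOn I c B)
    {R : Type*} [AddCommMonoid R] (f : β → R) :
    ∑ η : α with η ∈ c, f (I η) = ∑ χ : β with χ ∈ B, f χ := by
  apply Finset.sum_nbij I
  · intro η hη
    exact Finset.mem_filter.mpr ⟨Finset.mem_univ _, hI.mapsTo (Finset.mem_filter.mp hη).2⟩
  · intro η hη η' hη' h
    rw [Finset.mem_coe, Finset.mem_filter] at hη hη'
    exact hI.injOn hη.2 hη'.2 h
  · intro χ hχ
    rw [Finset.mem_coe, Finset.mem_filter] at hχ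
    obtain ⟨η, hη, h⟩ := hI.surjOn hχ.2
    exact ⟨η, by rw [Finset.mem_coe, Finset.mem_filter]; exact ⟨Finset.mem_univ _, hη⟩, h⟩
  · intro _ _
    rfl

theorem exists_bijOn {α β : Type*} [Finite α] [Finite β] {c : Set α} {B : Set β}
    (h : Nat.card c = Nat.card B) (b₀ : β) : ∃ I : α → β, Set.BijOn I c B := by
  classical
  have : Fintype c := Fintype.ofFinite c
  have : Fintype B := Fintype.ofFinite B
  let e : c ≃ B := Fintype.equivOfCardEq (by rwa [← Nat.card_eq_fintype_card, ← Nat.card_eq_fintype_card])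
  refine ⟨fun a => if h : a ∈ c then (e ⟨a, h⟩ : β) else b₀, ?_, ?_, ?_⟩
  · intro a ha
    simp only [ha, dif_pos]
    exact (e ⟨a, ha⟩).2
  · intro a ha a' ha' hh
    simp only [ha, ha', dif_pos] at hh
    have h1 := e.injective (Subtype.ext hh)
    exact congrArg Subtype.val h1
  · intro b hb
    refine ⟨(e.symm ⟨b, hb⟩ : α), (e.symm ⟨b, hb⟩).2, ?_⟩
    simp only [(e.symm ⟨b, hb⟩).2, dif_pos, Subtype.coe_eta, Equiv.apply_symm_apply]

theorem QV_unique [Fintype (IrrCharacter G)] {B : Set (IrrCharacter G)}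
    [DecidablePred (· ∈ B)] (h4 : Nat.card B = 4) (hr : blockRank 2 B = 3)
    {q q' : IrrCharacter G → ℤ} (hq : QV B q) (hq' : QV B q') :
    ∃ σ : ℤ, ∀ χ ∈ B, q' χ = σ * q χ := by
  classical
  set F : (B → ℂ) →ₗ[ℂ] (G → ℂ) :=
    Fintype.linearCombination ℂ (fun χ : B => pRegularPart 2 (χ.1 : G → ℂ)) with hF
  have h1 : Module.finrank ℂ (LinearMap.range F) = 3 := by
    rw [← hr, hF, Fintype.range_linearCombination]
    unfold blockRank
    rw [Set.image_eq_range]
  have h2 : Module.finrank ℂ (LinearMap.ker F) = 1 := by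
    have h3 := LinearMap.finrank_range_add_finrank_ker F
    rw [h1, Module.finrank_fintype_fun_eq_card, ← Nat.card_eq_fintype_card, h4] at h3
    omega
  have hmem : ∀ q : IrrCharacter G → ℤ, QV B q → (fun χ : B => (q χ.1 : ℂ)) ∈ LinearMap.ker F := by
    intro q hq
    rw [LinearMap.mem_ker]
    ext y
    rw [hF, Fintype.linearCombination_apply, Finset.sum_apply, Pi.zero_apply]
    simp only [Pi.smul_apply, smul_eq_mul]
    by_cases hy : 2 ∣ orderOf y
    · apply Finset.sum_eq_zero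
      intro χ _
      have : pRegularPart 2 (χ.1 : G → ℂ) y = 0 := by
        unfold pRegularPart
        exact if_neg (not_not.mpr hy)
      rw [this, mul_zero]
    · have h5 := hq.2 y hy
      rw [← h5, ← Finset.sum_subtype (univ.filter (· ∈ B)) (p := (· ∈ B)) (by simp)
        (fun χ : IrrCharacter G => (q χ : ℂ) * pRegularPart 2 (χ : G → ℂ) y)]
      apply Finset.sum_congr rfl
      intro χ _
      have : pRegularPart 2 (χ : G → ℂ) y = (χ : G → ℂ) y := by
        unfold pRegularPart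
        exact if_pos hy
      rw [this]
  obtain ⟨χ₁, hχ₁⟩ := block_nonempty' (n := 3) h4
  have hnz : (⟨_, hmem q hq⟩ : LinearMap.ker F) ≠ 0 := by
    intro h
    have h6 := congrFun (congrArg Subtype.val h) ⟨χ₁, hχ₁⟩
    have h7 : (q χ₁ : ℂ) = 0 := h6
    have h8 : q χ₁ = 0 := by exact_mod_cast h7
    rcases hq.1 χ₁ hχ₁ with h9 | h9 <;> rw [h9] at h8 <;> omega
  obtain ⟨l, hl⟩ := (finrank_eq_one_iff_of_nonzero' _ hnz).mp h2 ⟨_, hmem q' hq'⟩
  have hl' : ∀ χ ∈ B, l * (q χ : ℂ) = q' χ := by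
    intro χ hχ
    exact congrFun (congrArg Subtype.val hl) ⟨χ, hχ⟩
  refine ⟨q' χ₁ * q χ₁, fun χ hχ => ?_⟩
  have h5 := hl' χ₁ hχ₁
  have h6 : l = (q' χ₁ : ℂ) * q χ₁ := by
    rw [← h5]
    rcases hq.1 χ₁ hχ₁ with h9 | h9 <;> rw [h9] <;> push_cast <;> ring
  have h7 := hl' χ hχ
  rw [h6] at h7
  exact_mod_cast h7.symm

theorem QV_exists (hM : IsPModular 2 M) [Fintype (IrrCharacter G)] {B : Set (IrrCharacter G)}
    [DecidablePred (· ∈ B)] (hB : IsPBlock M B) (h4 : Nat.card B = 4) (hr : blockRank 2 B = 3)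
    (sB : ∀ x : G, 2 ∣ orderOf x → SC M B x) : ∃ q, QV B q := by
  classical
  have hp2 : Fact (Nat.Prime 2) := ⟨Nat.prime_two⟩
  by_contra hcon
  have hz : ∀ x : G, 2 ∣ orderOf x → ∀ χ ∈ B, (χ : G → ℂ) x = 0 := by
    intro x hx χ hχ
    obtain ⟨ι, t, q, φ, e1, -, -, e4⟩ := sB x hx
    rw [e4 χ hχ]
    apply Finset.sum_eq_zero
    intro i hi
    exact absurd ⟨q i, e1 i hi⟩ hcon
  have h1 := blockRank_kr hM hB
  have h2 : ∑ g : G with ¬ 2 ∣ orderOf g, kr B g g = ∑ g : G, kr B g g := by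
    rw [Finset.sum_filter_of_ne]
    intro g _ hne hg
    apply hne
    rw [kr_eq]
    apply Finset.sum_eq_zero
    intro χ hχ
    rw [hz g hg χ (Finset.mem_filter.mp hχ).2, zero_mul]
  have h3 : ∑ g : G, kr B g g = (Nat.card G : ℂ) * 4 := by
    simp only [kr_eq]
    rw [Finset.sum_comm]
    have h5 : ∀ χ : IrrCharacter G, ∑ g : G, (χ : G → ℂ) g * conj ((χ : G → ℂ) g) =
        (Nat.card G : ℂ) := by
      intro χ
      have h6 : classInner (χ : G → ℂ) (χ : G → ℂ) = 1 := classInner_self_of_irr χ.2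
      unfold classInner at h6
      have h7 : (Nat.card G : ℂ) ≠ 0 := card_ne_zeroC
      rw [inv_mul_eq_iff_eq_mul₀ h7, mul_one] at h6
      rw [← h6]
    rw [Finset.sum_congr rfl (fun χ _ => h5 χ), Finset.sum_const, ← natCard_block, h4,
      nsmul_eq_mul]
    push_cast
    ring
  rw [h2, h3, hr] at h1
  have h5 : (Nat.card G : ℂ) ≠ 0 := card_ne_zeroC
  have h6 := mul_left_cancel₀ h5 h1
  norm_num at h6

end A

end Cfsg.Agent.H26
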