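import Mathlib
import Cfsg.Agent.H26.Kl6
import Cfsg.Agent.H26.StD
import Cfsg.Agent.H26.Cor1
import Cfsg.Agent.H27.Md15

set_option autoImplicit false
set_option maxHeartbeats 800000

/-!
# Perfect isometries for Klein four defect groups
-/

namespace Cfsg.Agent.H26

open Cfsg Cfsg.Agent.H3 Cfsg.Agent.H11 Cfsg.Agent.H27 Finset
open scoped ComplexConjugate

universe u

section A

variable {G : Type u} [Group G] [Fintype G] {H : Type u} [Group H] [Fintype H]
  {M : Ideal AlgInt}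

theorem perf_one (hM : IsPModular 2 M) [Fintype (IrrCharacter G)]
    [Fintype (IrrCharacter H)] {B : Set (IrrCharacter G)} [DecidablePred (· ∈ B)]
    {c : Set (IrrCharacter H)} [DecidablePred (· ∈ c)] (hB : IsPBlock M B) (hc : IsPBlock M c)
    (hB4 : Nat.card B = 4) (hc4 : Nat.card c = 4) (hdB : blockDefect 2 B = 2)
    (hdc : blockDefect 2 c = 2) (hrB : blockRank 2 B = 1) (hrc : blockRank 2 c = 1)
    (sB : ∀ x : G, 2 ∣ orderOf x → SC M B x) (sc : ∀ y : H, 2 ∣ orderOf y → SC M c y) :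
    ∃ (I : IrrCharacter H → IrrCharacter G) (ε : IrrCharacter H → ℤ),
      IsPerfectIsometry 2 M c B I ε := by
  classical
  have hp2 : Fact (Nat.Prime 2) := ⟨Nat.prime_two⟩
  obtain ⟨χ₀, hχ₀⟩ := block_nonempty' (n := 3) hB4
  obtain ⟨η₀, hη₀⟩ := block_nonempty' (n := 3) hc4
  obtain ⟨I, hI⟩ := exists_bijOn (c := c) (B := B) (by rw [hB4, hc4]) χ₀
  have rB : ∀ χ ∈ B, ∀ x : G, ¬ 2 ∣ orderOf x → (χ : G → ℂ) x = (χ₀ : G → ℂ) x :=
    fun χ hχ x hx => reg_of_rank_one hM hB hrB (by rw [hB4, hdB]; norm_num) hχ hχ₀ hx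
  have rc : ∀ η ∈ c, ∀ y : H, ¬ 2 ∣ orderOf y → (η : H → ℂ) y = (η₀ : H → ℂ) y :=
    fun η hη y hy => reg_of_rank_one hM hc hrc (by rw [hc4, hdc]; norm_num) hη hη₀ hy
  have hregG : ¬ 2 ∣ orderOf (1 : G) := by rw [orderOf_one]; norm_num
  have hregH : ¬ 2 ∣ orderOf (1 : H) := by rw [orderOf_one]; norm_num
  have qB : ∀ q : IrrCharacter G → ℤ, QV B q →
      ∑ χ : IrrCharacter G with χ ∈ B, (q χ : ℂ) = 0 := by
    intro q hq
    have h1 := hq.2 1 hregG
    rw [Finset.sum_congr rfl (g := fun χ : IrrCharacter G => (q χ : ℂ) * (χ₀ : G → ℂ) 1),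
      ← Finset.sum_mul] at h1
    · exact (mul_eq_zero.mp h1).resolve_right (irr_one_ne_zero χ₀.2)
    · intro χ hχ
      rw [rB χ (Finset.mem_filter.mp hχ).2 1 hregG]
  have qc : ∀ q : IrrCharacter H → ℤ, QV c q →
      ∑ η : IrrCharacter H with η ∈ c, (q η : ℂ) = 0 := by
    intro q hq
    have h1 := hq.2 1 hregH
    rw [Finset.sum_congr rfl (g := fun χ : IrrCharacter H => (q χ : ℂ) * (η₀ : H → ℂ) 1),
      ← Finset.sum_mul] at h1
    · exact (mul_eq_zero.mp h1).resolve_right (irr_one_ne_zero η₀.2)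
    · intro χ hχ
      rw [rc χ (Finset.mem_filter.mp hχ).2 1 hregH]
  refine ⟨I, fun _ => 1, perf_of_sign hM sB sc hI (fun _ _ => Or.inl rfl) ?_ ?_ ?_⟩
  · intro q hq y hy
    have h1 := sum_bijOn hI (fun χ : IrrCharacter G => (q χ : ℂ))
    rw [qB q hq] at h1
    have h2 : ∑ η : IrrCharacter H with η ∈ c, ((1 : ℤ) : ℂ) * q (I η) * (η : H → ℂ) y =
        (∑ η : IrrCharacter H with η ∈ c, (q (I η) : ℂ)) * (η₀ : H → ℂ) y := by
      rw [Finset.sum_mul]
      apply Finset.sum_congr rfl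
      intro η hη
      rw [rc η (Finset.mem_filter.mp hη).2 y hy, Int.cast_one, one_mul]
    rw [h2, h1, zero_mul]
  · intro q hq x hx
    have h2 : ∑ η : IrrCharacter H with η ∈ c, ((1 : ℤ) : ℂ) * q η * (I η : G → ℂ) x =
        (∑ η : IrrCharacter H with η ∈ c, (q η : ℂ)) * (χ₀ : G → ℂ) x := by
      rw [Finset.sum_mul]
      apply Finset.sum_congr rfl
      intro η hη
      rw [rB (I η) (hI.mapsTo (Finset.mem_filter.mp hη).2) x hx, Int.cast_one, one_mul]
    rw [h2, qc q hq, zero_mul]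
  · intro q q' hq hq'
    have h1 := sum_bijOn hI (fun χ : IrrCharacter G => (q χ : ℂ))
    rw [qB q hq] at h1
    have h2 := qc q' hq'
    have h1' : ∑ η : IrrCharacter H with η ∈ c, q (I η) = 0 := by exact_mod_cast h1
    have h2' : ∑ η : IrrCharacter H with η ∈ c, q' η = 0 := by exact_mod_cast h2
    have h3 : ∑ η : IrrCharacter H with η ∈ c, (1 + q (I η)) * (1 + q' η) =
        4 + ∑ η : IrrCharacter H with η ∈ c, q (I η) * q' η := by
      have e1 : ∀ η : IrrCharacter H, (1 + q (I η)) * (1 + q' η) =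
          1 + q (I η) + q' η + q (I η) * q' η := fun η => by ring
      simp only [e1]
      rw [Finset.sum_add_distrib, Finset.sum_add_distrib, Finset.sum_add_distrib, h1', h2',
        Finset.sum_const, ← natCard_block, hc4]
      norm_num
    have h4 : (4 : ℤ) ∣ ∑ η : IrrCharacter H with η ∈ c, (1 + q (I η)) * (1 + q' η) := by
      apply Finset.dvd_sum
      intro η hη
      rcases hq.1 (I η) (hI.mapsTo (Finset.mem_filter.mp hη).2) with h | h <;>
        rcases hq'.1 η (Finset.mem_filter.mp hη).2 with h' | h' <;> rw [h, h'] <;> norm_num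
    rw [h3] at h4
    obtain ⟨n, hn⟩ : (4 : ℤ) ∣ ∑ η : IrrCharacter H with η ∈ c, q (I η) * q' η := by
      have := dvd_sub h4 (dvd_refl (4 : ℤ))
      rwa [add_sub_cancel_left] at this
    refine ⟨n, ?_⟩
    have h5 : ((∑ η : IrrCharacter H with η ∈ c, q (I η) * q' η : ℤ) : ℂ) = 4 * n := by
      rw [hn]; push_cast; ring
    rw [← h5]
    push_cast
    apply Finset.sum_congr rfl
    intro η _
    ring

theorem perf_three (hM : IsPModular 2 M) [Fintype (IrrCharacter G)]
    [Fintype (IrrCharacter H)] {B : Set (IrrCharacter G)} [DecidablePred (· ∈ B)]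
    {c : Set (IrrCharacter H)} [DecidablePred (· ∈ c)] (hB : IsPBlock M B) (hc : IsPBlock M c)
    (hB4 : Nat.card B = 4) (hc4 : Nat.card c = 4)
    (hrB : blockRank 2 B = 3) (hrc : blockRank 2 c = 3)
    (sB : ∀ x : G, 2 ∣ orderOf x → SC M B x) (sc : ∀ y : H, 2 ∣ orderOf y → SC M c y) :
    ∃ (I : IrrCharacter H → IrrCharacter G) (ε : IrrCharacter H → ℤ),
      IsPerfectIsometry 2 M c B I ε := by
  classical
  obtain ⟨χ₀, hχ₀⟩ := block_nonempty' (n := 3) hB4
  obtain ⟨I, hI⟩ := exists_bijOn (c := c) (B := B) (by rw [hB4, hc4]) χ₀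
  obtain ⟨qB, hqB⟩ := QV_exists hM hB hB4 hrB sB
  obtain ⟨qc, hqc⟩ := QV_exists hM hc hc4 hrc sc
  have sqB : ∀ χ ∈ B, (qB χ : ℂ) * qB χ = 1 := by
    intro χ hχ
    rcases hqB.1 χ hχ with h | h <;> rw [h] <;> norm_num
  have sqc : ∀ η ∈ c, (qc η : ℂ) * qc η = 1 := by
    intro χ hχ
    rcases hqc.1 χ hχ with h | h <;> rw [h] <;> norm_num
  refine ⟨I, fun η => qc η * qB (I η), perf_of_sign hM sB sc hI ?_ ?_ ?_ ?_⟩
  · intro η hη
    rcases hqc.1 η hη with h | h <;> rcases hqB.1 (I η) (hI.mapsTo hη) with h' | h' <;>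
      rw [h, h'] <;> norm_num
  · intro q hq y hy
    obtain ⟨σ, hσ⟩ := QV_unique hB4 hrB hqB hq
    have h1 := hqc.2 y hy
    have h2 : ∑ η : IrrCharacter H with η ∈ c, ((qc η * qB (I η) : ℤ) : ℂ) * q (I η) *
        (η : H → ℂ) y = (σ : ℂ) * ∑ η : IrrCharacter H with η ∈ c,
          (qc η : ℂ) * (η : H → ℂ) y := by
      rw [Finset.mul_sum]
      apply Finset.sum_congr rfl
      intro η hη
      have hη' := (Finset.mem_filter.mp hη).2
      rw [hσ (I η) (hI.mapsTo hη')]
      push_cast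
      linear_combination (σ : ℂ) * (qc η : ℂ) * (η : H → ℂ) y * sqB (I η) (hI.mapsTo hη')
    rw [h2, h1, mul_zero]
  · intro q hq x hx
    obtain ⟨σ, hσ⟩ := QV_unique hc4 hrc hqc hq
    have h1 := hqB.2 x hx
    rw [← sum_bijOn hI (fun χ : IrrCharacter G => (qB χ : ℂ) * (χ : G → ℂ) x)] at h1
    have h2 : ∑ η : IrrCharacter H with η ∈ c, ((qc η * qB (I η) : ℤ) : ℂ) * q η *
        (I η : G → ℂ) x = (σ : ℂ) * ∑ η : IrrCharacter H with η ∈ c,
          (qB (I η) : ℂ) * (I η : G → ℂ) x := by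
      rw [Finset.mul_sum]
      apply Finset.sum_congr rfl
      intro η hη
      have hη' := (Finset.mem_filter.mp hη).2
      rw [hσ η hη']
      push_cast
      linear_combination (σ : ℂ) * (qB (I η) : ℂ) * (I η : G → ℂ) x * sqc η hη'
    rw [h2, h1, mul_zero]
  · intro q q' hq hq'
    obtain ⟨σ, hσ⟩ := QV_unique hB4 hrB hqB hq
    obtain ⟨τ, hτ⟩ := QV_unique hc4 hrc hqc hq'
    refine ⟨σ * τ, ?_⟩
    have h2 : ∑ η : IrrCharacter H with η ∈ c, ((qc η * qB (I η) : ℤ) : ℂ) * q (I η) * q' η =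
        ∑ η : IrrCharacter H with η ∈ c, ((σ : ℂ) * τ) := by
      apply Finset.sum_congr rfl
      intro η hη
      have hη' := (Finset.mem_filter.mp hη).2
      rw [hσ (I η) (hI.mapsTo hη'), hτ η hη']
      push_cast
      linear_combination (σ : ℂ) * τ * (qc η : ℂ) * qc η * sqB (I η) (hI.mapsTo hη') +
        (σ : ℂ) * τ * sqc η hη'
    rw [h2, Finset.sum_const, ← natCard_block, hc4, nsmul_eq_mul]
    push_cast
    ring

end A

section Main

variable {G : Type u} [Group G] [Fintype G] {M : Ideal AlgInt}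

theorem four_rank (hM : IsPModular 2 M) [M.IsPrime] {B : Set (IrrCharacter G)}
    (hB : IsPBlock M B) (hB4 : Nat.card B = 4) {P : Subgroup G}
    {e : MonoidAlgebra (KF M) G} (hm : MaxB 2 (EG M B) P e) (h4 : Nat.card P = 4)
    (hmul1 : ∀ x ∈ P, x * x = 1) :
    Nat.card (stab (nz P) e) * 4 = Nat.card (stab (nz P) e) * blockRank 2 B +
      3 * Nat.card (cz P) ∧ Nat.card (cz P) ∣ Nat.card (stab (nz P) e) := by
  have hp2 : Fact (Nat.Prime 2) := ⟨Nat.prime_two⟩
  have := charP_KF hM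
  have hab := comm_of_sq hmul1
  refine ⟨?_, Subgroup.card_dvd_of_le (cz_le_stab hm.1.2.1.2)⟩
  have h1 := H27.Md.card_free hM hB hm hab (by
    intro t ht u hu hu1 htu
    exact kl_free h4 hmul1 (stab_le _ _) (hm.not_dvd_abelian hab) ht hu hu1 htu)
  rw [hB4, h4] at h1
  exact h1

theorem st4638 (hM : IsPModular 2 M) (B : Set (IrrCharacter G)) (hB : IsPBlock M B)
    (P : Subgroup G) (hPD : IsDefectGroup 2 M B P) (hV : IsKleinFour P)
    (c : Set (IrrCharacter (Subgroup.normalizer (P : Set G))))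
    (hcD : IsDefectGroup 2 M c (P.subgroupOf (Subgroup.normalizer (P : Set G))))
    (hc : IsInducedBlock M (Subgroup.normalizer (P : Set G)) c B) :
    ∃ (I : IrrCharacter (Subgroup.normalizer (P : Set G)) → IrrCharacter G)
      (ε : IrrCharacter (Subgroup.normalizer (P : Set G)) → ℤ),
      IsPerfectIsometry 2 M c B I ε := by
  classical
  have hp2 : Fact (Nat.Prime 2) := ⟨Nat.prime_two⟩
  have := pmod_isPrime hM
  have := charP_KF hM
  have hfN : Fintype (nz P) := Fintype.ofFinite _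
  have hfI : Fintype (IrrCharacter G) := Fintype.ofFinite _
  have hfJ : Fintype (IrrCharacter (nz P)) := Fintype.ofFinite _
  have hPN : P ≤ nz P := Subgroup.le_normalizer
  have hCN : cz P ≤ nz P := centralizer_le_normalizer' P
  have h4 : Nat.card P = 4 := hV.card_four
  have hmul1 : ∀ x ∈ P, x * x = 1 := by
    intro x hx
    have := IsKleinFour.mul_self (⟨x, hx⟩ : P)
    exact congrArg Subtype.val this
  have hPp : IsPGroup 2 P := IsPGroup.of_card (n := 2) (by rw [h4]; norm_num)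
  obtain ⟨hcB, -, hbr⟩ := (isInducedBlock_mid_iff hPp hPN le_rfl hCN).mp hc
  have hum : um (P.subgroupOf (nz P)) = P := um_subgroupOf hPN
  have h4' : Nat.card (P.subgroupOf (nz P)) = 4 := by rw [← card_um, hum, h4]
  have hmul1' : ∀ x ∈ P.subgroupOf (nz P), x * x = 1 := by
    intro x hx
    exact Subtype.ext (hmul1 _ (Subgroup.mem_subgroupOf.mp hx))
  have hdef : ∀ {X : Type u} [Group X] [Fintype X] {b : Set (IrrCharacter X)} {Q : Subgroup X},
      IsPBlock M b → IsDefectGroup 2 M b Q → Nat.card Q = 4 → blockDefect 2 b = 2 := by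
    intro X _ _ b Q hb hQ h
    have h1 := card_defect hM hb hQ
    rw [h] at h1
    have h2 : (2 : ℕ) ^ 2 = 2 ^ blockDefect 2 b := by rw [← h1]; norm_num
    exact (Nat.pow_right_injective le_rfl h2).symm
  have hdB := hdef hB hPD h4
  have hdc := hdef hcB hcD h4'
  have hB4 := card_eq_four hM hB hdB
  have hc4 := card_eq_four hM hcB hdc
  -- maximal pairs
  have hDD := (isDefectGroup_iff_EG hcB).mp hcD
  obtain ⟨e', he'⟩ := hDD.exists_inB (isBlk_EG hcB)
  have hm' := he'.maxB_of_isDef hDD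
  have hDB := (isDefectGroup_iff_EG hB).mp hPD
  have hczum : cz (um (P.subgroupOf (nz P))) ≤ nz P := by rw [hum]; exact hCN
  obtain ⟨-, hpr, hbe⟩ := (inB_up hczum).mp he'
  rw [hum] at hpr hbe
  rw [up_EG] at hbe
  have hblk : IsBlk (nz P) (EH M (nz P) c) := isBlk_EH hcB
  have hbrc : br P (EH M (nz P) c) = EH M (nz P) c :=
    br_idem_eq hPp hPN le_rfl hblk.mem hblk.idem
  rw [hbrc] at hbe
  have hin : InB 2 (EG M B) P (up e') := by
    refine ⟨isBlk_EG hB, hpr, ?_⟩
    rw [← hbe, ← mul_assoc, hbr]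
  have hm := hin.maxB_of_isDef hDB
  obtain ⟨r1, r2⟩ := four_rank hM hB hB4 hm h4 hmul1
  obtain ⟨r3, r4⟩ := four_rank hM hcB hc4 hm' h4' hmul1'
  have hcz : Nat.card (cz (P.subgroupOf (nz P))) = Nat.card (cz P) := by
    rw [← card_um, um_cz_of_le hczum, hum]
  have hst : Nat.card (stab (nz (P.subgroupOf (nz P))) e') =
      Nat.card (stab (nz P) (up e')) := by
    rw [← card_um]
    congr 1
    have : um (stab (nz (P.subgroupOf (nz P))) e') = stab (nz P) (up e') := by
      ext g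
      constructor
      · intro hg
        have hgN := um_le _ hg
        rw [mem_um' hgN] at hg
        refine ⟨hgN, ?_⟩
        have h1 := cj_up (⟨g, hgN⟩ : nz P) e'
        have h2 : ((⟨g, hgN⟩ : nz P) : G) = g := rfl
        rw [h2] at h1
        rw [h1, hg.2]
      · rintro ⟨hgN, hg⟩
        rw [mem_um' hgN]
        refine ⟨?_, ?_⟩
        · rw [← mem_nz_um, hum]
          exact hgN
        · apply up_injective
          rw [← cj_up]
          exact hg
    rw [this]
  rw [hcz, hst] at r3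
  have hT0 : 0 < Nat.card (stab (nz P) (up e')) := Nat.card_pos
  have hC0 : 0 < Nat.card (cz P) := Nat.card_pos
  have hreq : blockRank 2 B = blockRank 2 c := by
    have h1 : Nat.card (stab (nz P) (up e')) * blockRank 2 B =
        Nat.card (stab (nz P) (up e')) * blockRank 2 c := by omega
    exact Nat.eq_of_mul_eq_mul_left hT0 h1
  have h13 : blockRank 2 B = 1 ∨ blockRank 2 B = 3 := by
    obtain ⟨n, hn⟩ := r2
    rw [hn] at r1
    have h1 : Nat.card (cz P) * (n * 4) = Nat.card (cz P) * (n * blockRank 2 B + 3) := by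
      linarith [r1]
    have h2 := Nat.eq_of_mul_eq_mul_left hC0 h1
    have h3 : blockRank 2 B ≤ 3 := by
      by_contra hcon
      push Not at hcon
      have : n * 4 ≤ n * blockRank 2 B := Nat.mul_le_mul_left n hcon
      omega
    interval_cases (blockRank 2 B) <;> omega
  have sB : ∀ x : G, 2 ∣ orderOf x → SC M B x := fun x hx => kl_struct hM hB hPD h4 hmul1 hx
  have sc : ∀ y : nz P, 2 ∣ orderOf y → SC M c y :=
    fun y hy => kl_struct hM hcB hcD h4' hmul1' hy
  rcases h13 with h | h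
  · exact perf_one hM hB hcB hB4 hc4 hdB hdc h (hreq ▸ h) sB sc
  · exact perf_three hM hB hcB hB4 hc4 h (hreq ▸ h) sB sc

end Main

end Cfsg.Agent.H26
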