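import Mathlib
import Cfsg.Agent.H26.Cover9
import Cfsg.Agent.H26.PrinB3
import Cfsg.Agent.H27.PrinBlock

set_option autoImplicit false

/-!
# The sum of the squared degrees in the principal block and normal subgroups
-/

namespace Cfsg.Agent.H26

open Cfsg Cfsg.Agent.H3 Cfsg.Agent.H11 Cfsg.Agent.H27 Finset
open scoped ComplexConjugate

universe u

variable {G : Type u} [Group G] [Finite G] {M : Ideal AlgInt}

/-- constituents of the restriction of a character in the principal block -/
theorem mem_princ_of_inner (hM : M.IsPrime) (H : Subgroup G) [hN : H.Normal] [Fintype H]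
    {χ : IrrCharacter G} (hχ : χ ∈ principalBlock M G) {ψ : IrrCharacter H}
    (h : classInner (fun n : H => (χ : G → ℂ) n) (ψ : H → ℂ) ≠ 0) :
    ψ ∈ principalBlock M H := by
  classical
  have hfG : Fintype G := Fintype.ofFinite G
  have hBG := isPBlock_principal (M := M) G
  have hBH := isPBlock_principal (M := M) H
  have h1 : EG M (principalBlock M G) * EH M H (principalBlock M H) ≠ 0 := by
    apply cov_of_inner hBG hBH (χ := ⟨fun _ => 1, isIrr_one⟩) (mem_blockOf_self ⟨fun _ => 1, isIrr_one⟩)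
      (θ := ⟨fun _ => 1, isIrr_one⟩) (mem_blockOf_self ⟨fun _ => 1, isIrr_one⟩)
    have h2 := classInner_self_of_irr (isIrr_one (G := H))
    intro h3
    apply one_ne_zero (α := ℂ)
    rw [← h2, ← h3]
  obtain ⟨g, θ, hθ, h2⟩ := exists_inner_of_cov hBG hBH h1 hχ h
  rw [eq_irrMap_of_conj h2, irrMap_mem_iff hBH hθ, EH_principal, cj_pb, cg_normal]

theorem st4708 {p : ℕ} [Fact p.Prime] (hM : IsPModular p M) (H : Subgroup G) [hN : H.Normal] :
    (∑ᶠ θ ∈ principalBlock M H, charDegree (θ : H → ℂ) ^ 2) ≤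
      (∑ᶠ χ ∈ principalBlock M G, charDegree (χ : G → ℂ) ^ 2) ∧
    (∑ᶠ χ ∈ principalBlock M G, charDegree (χ : G → ℂ) ^ 2) ≤
      H.index * ∑ᶠ θ ∈ principalBlock M H, charDegree (θ : H → ℂ) ^ 2 := by
  classical
  have hpr := hM.2.1.isPrime
  have hfG : Fintype G := Fintype.ofFinite G
  have hfH : Fintype H := Fintype.ofFinite H
  have hfI : Fintype (IrrCharacter G) := Fintype.ofFinite _
  have hfJ : Fintype (IrrCharacter H) := Fintype.ofFinite _
  rw [finsum_mem_irr, finsum_mem_irr]
  have hex : ∀ χ : IrrCharacter G, ∃ m : IrrCharacter H → ℕ,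
      (∀ ψ : IrrCharacter H, classInner (fun n : H => (χ : G → ℂ) n) ψ = m ψ) ∧
      (fun n : H => (χ : G → ℂ) n) = ∑ ψ : IrrCharacter H, (m ψ : ℂ) • (ψ : H → ℂ) :=
    fun χ => char_expand (isChar_restrict H (irr_isChar χ.2))
  choose m hm he using hex
  -- degrees
  have hdeg : ∀ χ : IrrCharacter G, charDegree (χ : G → ℂ) =
      ∑ ψ : IrrCharacter H, m χ ψ * charDegree (ψ : H → ℂ) := by
    intro χ
    have h1 := congrFun (he χ) 1
    rw [Finset.sum_apply] at h1
    have h2 : ((charDegree (χ : G → ℂ) : ℕ) : ℂ) =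
        ((∑ ψ : IrrCharacter H, m χ ψ * charDegree (ψ : H → ℂ) : ℕ) : ℂ) := by
      rw [charDegree_cast (irr_isChar χ.2)]
      push_cast
      rw [OneMemClass.coe_one] at h1
      rw [h1]
      apply Finset.sum_congr rfl
      intro ψ _
      rw [Pi.smul_apply, smul_eq_mul, charDegree_cast (irr_isChar ψ.2)]
    exact_mod_cast h2
  -- Frobenius
  have hfrob : ∀ ψ : IrrCharacter H, H.index * charDegree (ψ : H → ℂ) =
      ∑ χ : IrrCharacter G, m χ ψ * charDegree (χ : G → ℂ) := by
    intro ψ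
    have h1 : ∑ χ : IrrCharacter G, (m χ ψ : ℂ) * (χ : G → ℂ) 1 =
        (H.index : ℂ) * (ψ : H → ℂ) 1 := by
      have h2 : ∀ χ : IrrCharacter G, (m χ ψ : ℂ) * (χ : G → ℂ) 1 =
          (Nat.card H : ℂ)⁻¹ * ∑ n : H, ((χ : G → ℂ) 1 * (χ : G → ℂ) n) *
            conj ((ψ : H → ℂ) n) := by
        intro χ
        rw [← hm χ ψ]
        unfold classInner
        rw [mul_assoc, Finset.sum_mul]
        congr 1
        apply Finset.sum_congr rfl
        intro n _
        ring
      rw [Finset.sum_congr rfl (fun χ _ => h2 χ), ← Finset.mul_sum, Finset.sum_comm]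
      have h3 : ∀ n : H, ∑ χ : IrrCharacter G, ((χ : G → ℂ) 1 * (χ : G → ℂ) n) *
            conj ((ψ : H → ℂ) n) =
          if n = 1 then (Nat.card G : ℂ) * conj ((ψ : H → ℂ) 1) else 0 := by
        intro n
        rw [← Finset.sum_mul, sum_degree_mul]
        by_cases hn : n = 1
        · rw [if_pos hn, if_pos (by rw [hn]; rfl), hn]
        · rw [if_neg hn, if_neg (fun h => hn (Subtype.ext (by rw [h]; rfl))), zero_mul]
      rw [Finset.sum_congr rfl (fun n _ => h3 n), Finset.sum_ite_eq' Finset.univ (1 : H),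
        if_pos (Finset.mem_univ _), ← Subgroup.card_mul_index H, conj_char (irr_isChar ψ.2), inv_one]
      have h4 : (Nat.card H : ℂ) ≠ 0 := by exact_mod_cast Nat.card_pos.ne'
      push_cast
      field_simp
    have h2 : ((H.index * charDegree (ψ : H → ℂ) : ℕ) : ℂ) =
        ((∑ χ : IrrCharacter G, m χ ψ * charDegree (χ : G → ℂ) : ℕ) : ℂ) := by
      push_cast
      rw [charDegree_cast (irr_isChar ψ.2), ← h1]
      apply Finset.sum_congr rfl
      intro χ _
      rw [charDegree_cast (irr_isChar χ.2)]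
    exact_mod_cast h2
  have hmem : ∀ χ ∈ principalBlock M G, ∀ ψ : IrrCharacter H, m χ ψ ≠ 0 →
      ψ ∈ principalBlock M H := by
    intro χ hχ ψ hψ
    apply mem_princ_of_inner hpr H hχ
    rw [hm]
    exact_mod_cast hψ
  have hover : ∀ ψ ∈ principalBlock M H, ∃ χ ∈ principalBlock M G, m χ ψ ≠ 0 := by
    intro ψ hψ
    obtain ⟨χ, hχ, h⟩ := st4432 p M hM H (principalBlock M G) (isPBlock_principal G)
      (principalBlock M H) (isPBlock_principal H)
      ⟨⟨fun _ => 1, isIrr_one⟩, mem_blockOf_self ⟨fun _ => 1, isIrr_one⟩,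
        ⟨fun _ => 1, isIrr_one⟩, mem_blockOf_self ⟨fun _ => 1, isIrr_one⟩, by
          have h2 := classInner_self_of_irr (isIrr_one (G := H))
          intro h3
          apply one_ne_zero (α := ℂ)
          rw [← h2, ← h3]⟩ ψ hψ
    refine ⟨χ, hχ, fun h0 => h ?_⟩
    rw [hm, h0, Nat.cast_zero]
  constructor
  · -- lower bound
    have h1 : ∀ ψ ∈ univ.filter (fun ψ : IrrCharacter H => ψ ∈ principalBlock M H),
        charDegree (ψ : H → ℂ) ^ 2 ≤
        ∑ χ ∈ univ.filter (fun χ : IrrCharacter G => χ ∈ principalBlock M G),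
          (m χ ψ * charDegree (ψ : H → ℂ)) ^ 2 := by
      intro ψ hψ
      obtain ⟨χ, hχ, hne⟩ := hover ψ (Finset.mem_filter.mp hψ).2
      refine le_trans ?_ (Finset.single_le_sum (f := fun χ => (m χ ψ * charDegree (ψ : H → ℂ)) ^ 2)
        (fun _ _ => Nat.zero_le _) (Finset.mem_filter.mpr ⟨Finset.mem_univ _, hχ⟩))
      apply Nat.pow_le_pow_left
      exact Nat.le_mul_of_pos_left _ (Nat.pos_of_ne_zero hne)
    refine (Finset.sum_le_sum h1).trans ?_
    rw [Finset.sum_comm]
    apply Finset.sum_le_sum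
    intro χ _
    rw [hdeg χ]
    refine (Finset.sum_le_sum_of_subset (Finset.filter_subset _ _)).trans ?_
    exact Finset.sum_sq_le_sq_sum_of_nonneg (fun _ _ => Nat.zero_le _)
  · -- upper bound
    rw [Finset.mul_sum]
    have h1 : ∀ ψ ∈ univ.filter (fun ψ : IrrCharacter H => ψ ∈ principalBlock M H),
        ∑ χ ∈ univ.filter (fun χ : IrrCharacter G => χ ∈ principalBlock M G),
          charDegree (ψ : H → ℂ) * (m χ ψ * charDegree (χ : G → ℂ)) ≤
        H.index * charDegree (ψ : H → ℂ) ^ 2 := by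
      intro ψ _
      rw [← Finset.mul_sum]
      have h2 : H.index * charDegree (ψ : H → ℂ) ^ 2 =
          charDegree (ψ : H → ℂ) * (H.index * charDegree (ψ : H → ℂ)) := by ring
      rw [h2, hfrob ψ]
      apply Nat.mul_le_mul_left
      exact Finset.sum_le_sum_of_subset (Finset.filter_subset _ _)
    refine le_trans ?_ (Finset.sum_le_sum h1)
    rw [Finset.sum_comm]
    apply Finset.sum_le_sum
    intro χ hχ
    have h2 : ∑ ψ ∈ univ.filter (fun ψ : IrrCharacter H => ψ ∈ principalBlock M H),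
        charDegree (ψ : H → ℂ) * (m χ ψ * charDegree (χ : G → ℂ)) =
        (∑ ψ ∈ univ.filter (fun ψ : IrrCharacter H => ψ ∈ principalBlock M H),
        m χ ψ * charDegree (ψ : H → ℂ)) * charDegree (χ : G → ℂ) := by
      rw [Finset.sum_mul]
      apply Finset.sum_congr rfl
      intro ψ _
      ring
    have h3 : ∑ ψ ∈ univ.filter (fun ψ : IrrCharacter H => ψ ∈ principalBlock M H),
        m χ ψ * charDegree (ψ : H → ℂ) = charDegree (χ : G → ℂ) := by
      rw [hdeg χ]
      apply Finset.sum_subset (Finset.filter_subset _ _)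
      intro ψ _ hψ
      have : m χ ψ = 0 := by
        by_contra h0
        exact hψ (Finset.mem_filter.mpr ⟨Finset.mem_univ _,
          hmem χ (Finset.mem_filter.mp hχ).2 ψ h0⟩)
      rw [this, zero_mul]
    rw [h2, h3, sq]

end Cfsg.Agent.H26
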