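import Mathlib
import Cfsg.Agent.H27.Md23
import Cfsg.Agent.H27.TISolv2
import Cfsg.Agent.H26.NormDef

set_option autoImplicit false
set_option maxHeartbeats 800000
set_option linter.style.haveILetI false

/-!
# Separation of the decomposition numbers by blocks
-/

namespace Cfsg.Agent.H26

open Module Cfsg Cfsg.Agent.H11 Cfsg.Agent.H3 Matrix
open Cfsg.Agent.H27.Md
open scoped ComplexConjugate

universe u

section A

variable {G : Type u} [Group G] [Fintype G] {M : Ideal AlgInt} [hM : M.IsPrime]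

theorem pd_r_one (D : PD G M) (i : Fin D.n) : D.r (1 : MonoidAlgebra (KF M) G) i = D.d i := by
  rw [PD.r, map_one, Pi.one_apply, Matrix.rank_one, Fintype.card_fin]

theorem pd_r_le (D : PD G M) (x : MonoidAlgebra (KF M) G) (i : Fin D.n) : D.r x i ≤ D.d i := by
  have h := Matrix.rank_le_card_height (D.π x i)
  rwa [Fintype.card_fin] at h

theorem pd_sep (D : PD G M) {B : Set (IrrCharacter G)} (hB : IsPBlock M B) {i : Fin D.n}
    (hi : D.r (EG M B) i = 0) {χ : IrrCharacter G} (hχ : χ ∈ B) : vl (D.X i) χ = 0 := by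
  classical
  have h1 := D.thmK (EB_idem hB) χ
  rw [redG_EB, vl_EB, if_pos hχ] at h1
  have h2 := D.thmK (x := 1) (by rw [mul_one]) χ
  rw [vl_one, map_one] at h2
  simp only [pd_r_one] at h2
  have h3 : ∀ j ∈ Finset.univ, D.r (EG M B) j * vl (D.X j) χ ≤ D.d j * vl (D.X j) χ :=
    fun j _ => Nat.mul_le_mul_right _ (pd_r_le D _ j)
  have h4 := (Finset.sum_eq_sum_iff_of_le h3).mp (by rw [← h1, ← h2]) i (Finset.mem_univ _)
  rw [hi, zero_mul] at h4
  exact (mul_eq_zero.mp h4.symm).resolve_left (D.pos i).ne'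

theorem pd_sep' (D : PD G M) {B : Set (IrrCharacter G)} (hB : IsPBlock M B) {i : Fin D.n}
    (hi : D.r (EG M B) i ≠ 0) {χ : IrrCharacter G} (hχ : χ ∉ B) : vl (D.X i) χ = 0 := by
  classical
  have h1 := D.thmK (EB_idem hB) χ
  rw [redG_EB, vl_EB, if_neg hχ] at h1
  have h2 := (Finset.sum_eq_zero_iff.mp h1.symm) i (Finset.mem_univ _)
  exact (mul_eq_zero.mp h2).resolve_left hi

/-- Transfer of triviality on a `p'`-element. -/
theorem pd_trivial {p : ℕ} [hp : Fact p.Prime] (hMp : IsPModular p M) (D : PD G M)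
    {B : Set (IrrCharacter G)} (hB : IsPBlock M B) {x : G} (hx : ¬ p ∣ orderOf x)
    (R : Set (IrrCharacter G)) (hR : ∀ χ ∈ R, ∀ e ∈ Subgroup.zpowers x,
      (χ : G → ℂ) e = (χ : G → ℂ) 1)
    (hI : ∀ i : Fin D.n, D.r (EG M B) i ≠ 0 → ∃ χ ∈ R, vl (D.X i) χ ≠ 0)
    {ψ : IrrCharacter G} (hψ : ψ ∈ B) : (ψ : G → ℂ) x = (ψ : G → ℂ) 1 := by
  classical
  by_contra hcon
  set E := Subgroup.zpowers x with hE
  have hfE : Fintype E := Fintype.ofFinite E
  have hcE : ¬ p ∣ Nat.card E := by rw [hE, Nat.card_zpowers]; exact hx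
  have hxE : x ∈ E := Subgroup.mem_zpowers x
  obtain ⟨l, hl1, hl2⟩ := Cfsg.Agent.H27.exists_constituent_ne (R := E)
    (irr_isChar ψ.2) (g := ⟨x, hxE⟩) hcon
  have hlin : (l : E → ℂ) 1 = 1 := by
    have hcomm : ∀ a b : E, a * b = b * a := by
      rintro ⟨a, ha⟩ ⟨b, hb⟩
      obtain ⟨i, rfl⟩ := Subgroup.mem_zpowers_iff.mp ha
      obtain ⟨j, rfl⟩ := Subgroup.mem_zpowers_iff.mp hb
      exact Subtype.ext ((Commute.refl x).zpow_zpow i j).eq
    exact (comm_iff_all_linear (G := E)).mp hcomm l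
  obtain ⟨μ, hμ⟩ := exists_hf (irr_isChar l.2) hlin
  have hμv : ∀ e : E, (l : E → ℂ) e = ((μ e : ℂˣ) : ℂ) := fun e => congrFun hμ e
  obtain ⟨y, hy, hlin⟩ := exists_xl hMp E hcE μ
  have hE0 : (Nat.card E : ℂ) ≠ 0 := card_ne_zeroC
  -- inner product
  have hin : ∀ θ : G → ℂ, classInner (fun e : E => θ e) (l : E → ℂ) =
      lin θ (cxG y) := by
    intro θ
    rw [hlin]
    unfold classInner
    congr 1
    apply Finset.sum_congr rfl
    intro e _
    rw [mul_comm]
    congr 1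
    rw [hμv, map_inv, Units.val_inv_eq_inv_val]
    have h1 : ‖((μ e : ℂˣ) : ℂ)‖ = 1 := by
      have h2 : ((μ e : ℂˣ) : ℂ) ^ Nat.card E = 1 := by
        rw [← Units.val_pow_eq_pow_val, ← map_pow, pow_card_eq_one', map_one, Units.val_one]
      exact Complex.norm_eq_one_of_pow_eq_one h2 Nat.card_pos.ne'
    rw [Complex.inv_def, Complex.normSq_eq_norm_sq, h1]
    simp
  have hRz : ∀ χ ∈ R, vl y χ = 0 := by
    intro χ hχ
    have h1 := hin (χ : G → ℂ)
    rw [vl_spec hy] at h1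
    have h2 : (fun e : E => (χ : G → ℂ) e) = (χ : G → ℂ) 1 • (fun _ => 1) := by
      ext e
      rw [Pi.smul_apply, smul_eq_mul, mul_one]
      exact hR χ hχ e e.2
    have h3 : classInner (fun _ : E => (1 : ℂ)) (l : E → ℂ) = 0 := by
      have h4 : classInner (fun _ : E => (1 : ℂ)) (l : E → ℂ) =
          classInner ((trv E : IrrCharacter E) : E → ℂ) (l : E → ℂ) := rfl
      rw [h4, classInner_of_irr_ne (trv E).2 l.2]
      intro h5
      apply hl2
      rw [← h5]
      rfl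
    rw [h2, classInner_smul_left, h3, mul_zero] at h1
    exact_mod_cast h1.symm
  have hr : ∀ i : Fin D.n, D.r (EG M B) i ≠ 0 → D.r (redG y) i = 0 := by
    intro i hi
    obtain ⟨χ, hχ, h1⟩ := hI i hi
    have h2 := D.thmK hy χ
    rw [hRz χ hχ] at h2
    have h3 := (Finset.sum_eq_zero_iff.mp h2.symm) i (Finset.mem_univ _)
    exact (mul_eq_zero.mp h3).resolve_right h1
  have hz : vl y ψ = 0 := by
    rw [D.thmK hy ψ]
    apply Finset.sum_eq_zero
    intro i _
    by_cases hi : D.r (EG M B) i = 0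
    · rw [pd_sep D hB hi hψ, mul_zero]
    · rw [hr i hi, zero_mul]
  apply hl1
  rw [hin, vl_spec hy, hz, Nat.cast_zero]

end A

end Cfsg.Agent.H26
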