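import Mathlib
import Cfsg.Agent.H26.Pl1
import Cfsg.Agent.H26.AugNil
import Cfsg.Agent.H3.BrauerA

set_option autoImplicit false
set_option maxHeartbeats 800000
set_option linter.style.haveILetI false

/-!
# Permutation modules and projective characters
-/

namespace Cfsg.Agent.H26

open Module Cfsg Cfsg.Agent.H11 Cfsg.Agent.H3 Matrix
open Cfsg.Agent.H27.Md
open scoped ComplexConjugate

universe u

section gen

variable {G : Type*} [Group G] [Fintype G] {X : Type*} [Fintype X] [DecidableEq X]
  [MulAction G X] {k : Type*} [CommRing k]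

/-- Permutation matrices -/
def pmh (k : Type*) [CommRing k] (G : Type*) [Group G] (X : Type*) [Fintype X] [DecidableEq X]
    [MulAction G X] : G →* Matrix X X k where
  toFun g := Matrix.of fun a b => if g • b = a then 1 else 0
  map_one' := by
    ext a b
    rw [Matrix.of_apply, Matrix.one_apply, one_smul]
    simp only [eq_comm]
  map_mul' g h := by
    ext a b
    rw [Matrix.mul_apply, Finset.sum_eq_single (h • b)]
    · simp only [Matrix.of_apply, if_true, mul_one, mul_smul]
    · intro c _ hc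
      rw [Matrix.of_apply, Matrix.of_apply, if_neg (Ne.symm hc), mul_zero]
    · intro h; exact absurd (Finset.mem_univ _) h

/-- matrices of group algebra elements on permutation modules -/
noncomputable def pm (X : Type*) [Fintype X] [DecidableEq X] [MulAction G X]
    (x : MonoidAlgebra k G) : Matrix X X k :=
  MonoidAlgebra.lift k (Matrix X X k) G (pmh k G X) x

theorem pm_mul (x y : MonoidAlgebra k G) : pm X (x * y) = pm X x * pm X y := by
  unfold pm
  rw [map_mul]

theorem pm_apply (x : MonoidAlgebra k G) (a b : X) :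
    pm X x a b = ∑ g : G, if g • b = a then x.coeff g else 0 := by
  have h : pm X x = ∑ g : G, x.coeff g • pmh k G X g := by
    unfold pm
    rw [MonoidAlgebra.lift_apply, Finsupp.sum_fintype _ _ (by intro a; exact zero_smul _ _)]
  rw [h, Matrix.sum_apply]
  apply Finset.sum_congr rfl
  intro g _
  rw [Matrix.smul_apply]
  change x.coeff g • (if g • b = a then (1 : k) else 0) = _
  split_ifs <;> simp

theorem pm_map {S : Type*} [CommRing S] (f : k →+* S) (x : MonoidAlgebra k G) :
    (pm X x).map f = pm X (MonoidAlgebra.mapRingHom G f x) := by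
  ext a b
  rw [Matrix.map_apply, pm_apply, pm_apply, map_sum]
  apply Finset.sum_congr rfl
  intro g _
  rw [MonoidAlgebra.coeff_mapRingHom]
  split_ifs
  · rfl
  · rw [map_zero]

theorem trace_pm (x : MonoidAlgebra ℂ G) : (pm X x).trace = lin (permChar G X) x := by
  classical
  rw [Matrix.trace, lin_apply]
  simp only [Matrix.diag_apply, pm_apply]
  rw [Finset.sum_comm]
  apply Finset.sum_congr rfl
  intro g _
  rw [← Finset.sum_filter, Finset.sum_const, nsmul_eq_mul, mul_comm]
  congr 1
  unfold permChar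
  rw [Nat.card_eq_fintype_card, Fintype.card_subtype]
  norm_cast

end gen

section main

variable {G : Type u} [Group G] [Fintype G] {M : Ideal AlgInt} [hM : M.IsPrime]

theorem pm_rank {X : Type u} [Fintype X] [DecidableEq X] [MulAction G X]
    {x : MonoidAlgebra (locRing M) G} (hx : x * x = x) :
    ((pm X (redG x)).rank : ℂ) = lin (permChar G X) (cxG x) := by
  rw [← trace_pm, ← pm_map, ← pm_map, rank_eq (pm X x) (by rw [← pm_mul, hx]), rank_eq_trace]
  rw [pm_map, ← pm_mul, ← map_mul, hx]

/-- Projective indecomposables have fixed points of `p`-subgroups. -/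
theorem pd_fixed {p : ℕ} [hp : Fact p.Prime] (hMp : IsPModular p M) (D : PD G M)
    {P : Subgroup G} (hP : IsPGroup p P) (i : Fin D.n) :
    ∃ ψ : IrrCharacter G, vl (D.X i) ψ ≠ 0 ∧ classInner (indFun P (fun _ => 1)) (ψ : G → ℂ) ≠ 0 := by
  classical
  have := charP_KF hMp
  have hfI : Fintype (IrrCharacter G) := Fintype.ofFinite _
  have hfX : Fintype (G ⧸ P) := Fintype.ofFinite _
  by_contra hcon
  push Not at hcon
  have h1 := pm_rank (X := G ⧸ P) (D.idem i)
  rw [← indFun_one_eq_permChar] at h1
  obtain ⟨m, hm, hexp⟩ := char_expand (isChar_ind P isChar_one)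
  have h2 : lin (indFun P (fun _ => 1)) (cxG (D.X i)) = 0 := by
    rw [hexp, lin_apply]
    have h3 : ∑ g : G, (cxG (D.X i)).coeff g * (∑ ψ : IrrCharacter G,
        (m ψ : ℂ) • (ψ : G → ℂ)) g = ∑ ψ : IrrCharacter G, (m ψ : ℂ) *
          lin (ψ : G → ℂ) (cxG (D.X i)) := by
      simp only [Finset.sum_apply, Finset.mul_sum, Pi.smul_apply, smul_eq_mul, lin_apply]
      rw [Finset.sum_comm]
      apply Finset.sum_congr rfl
      intro ψ _
      apply Finset.sum_congr rfl
      intro g _
      ring
    rw [h3]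
    apply Finset.sum_eq_zero
    intro ψ _
    rw [vl_spec (D.idem i)]
    by_cases h4 : vl (D.X i) ψ = 0
    · rw [h4, Nat.cast_zero, mul_zero]
    · rw [← hm, hcon ψ h4, zero_mul]
  rw [h2] at h1
  have h3 : (pm (G ⧸ P) (redG (D.X i))).rank = 0 := by exact_mod_cast h1
  have h4 : pm (G ⧸ P) (redG (D.X i)) = 0 := by
    have h5 : LinearMap.range (pm (G ⧸ P) (redG (D.X i))).mulVecLin = ⊥ :=
      Submodule.finrank_eq_zero.mp h3
    have h6 := LinearMap.range_eq_bot.mp h5
    ext a b
    have h7 := congrFun (LinearMap.congr_fun h6 (Pi.single b 1)) a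
    rw [Matrix.mulVecLin_apply, Matrix.mulVec_single_one] at h7
    exact h7
  -- the action on the simple module
  let ρ : G → Matrix (Fin (D.d i)) (Fin (D.d i)) (KF M) := fun g => D.π (MonoidAlgebra.single g 1) i
  have hρ1 : ρ 1 = 1 := by
    change D.π (MonoidAlgebra.single 1 1) i = 1
    rw [← MonoidAlgebra.one_def, map_one, Pi.one_apply]
  have hρm : ∀ g h, ρ (g * h) = ρ g * ρ h := by
    intro g h
    change D.π (MonoidAlgebra.single (g * h) 1) i = D.π (MonoidAlgebra.single g 1) i *
      D.π (MonoidAlgebra.single h 1) i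
    rw [← Pi.mul_apply, ← map_mul, MonoidAlgebra.single_mul_single, mul_one]
  letI act : DistribMulAction P (Fin (D.d i) → KF M) :=
    { smul := fun u v => (ρ u).mulVec v
      one_smul := fun v => by
        change (ρ ((1 : P) : G)).mulVec v = v
        rw [Subgroup.coe_one, hρ1, Matrix.one_mulVec]
      mul_smul := fun a b v => by
        change (ρ ((a * b : P) : G)).mulVec v = (ρ a).mulVec ((ρ b).mulVec v)
        rw [Subgroup.coe_mul, hρm, Matrix.mulVec_mulVec]
      smul_zero := fun a => Matrix.mulVec_zero _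
      smul_add := fun a v w => Matrix.mulVec_add _ _ _ }
  have hv0 : (Pi.single ⟨0, D.pos i⟩ 1 : Fin (D.d i) → KF M) ≠ 0 := by
    intro h
    have := congrFun h ⟨0, D.pos i⟩
    rw [Pi.single_eq_same, Pi.zero_apply] at this
    exact one_ne_zero this
  obtain ⟨v, hv, hfix⟩ := exists_fixed_ne_zero hP (V := Fin (D.d i) → KF M) (by
    intro v
    ext j
    rw [Pi.smul_apply, nsmul_eq_mul, CharP.cast_eq_zero (KF M) p, zero_mul, Pi.zero_apply])
    (Pi.single ⟨0, D.pos i⟩ 1) hv0
  have hfix' : ∀ u ∈ P, (ρ u).mulVec v = v := fun u hu => hfix ⟨u, hu⟩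
  have hx : ∀ x : MonoidAlgebra (KF M) G, D.π x i = ∑ g : G, x.coeff g • ρ g := by
    intro x
    conv_lhs => rw [alg_eq_sum x]
    rw [map_sum, Finset.sum_apply]
    apply Finset.sum_congr rfl
    intro g _
    have h5 : MonoidAlgebra.single g (x.coeff g) = x.coeff g • MonoidAlgebra.single g (1 : KF M) := by
      rw [MonoidAlgebra.smul_single, smul_eq_mul, mul_one]
    rw [h5, map_smul, Pi.smul_apply]
  -- the element kills the translates of `v`
  have hkill : ∀ h : G, (D.π (redG (D.X i)) i).mulVec ((ρ h).mulVec v) = 0 := by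
    intro h
    have h5 : (D.π (redG (D.X i)) i).mulVec ((ρ h).mulVec v) =
        ∑ g : G, (redG (D.X i)).coeff g • (ρ (g * h)).mulVec v := by
      rw [hx, Matrix.sum_mulVec]
      apply Finset.sum_congr rfl
      intro g _
      rw [Matrix.smul_mulVec, Matrix.mulVec_mulVec, hρm]
    have hwell : ∀ g : G, (ρ g).mulVec v = (ρ (Quotient.out (QuotientGroup.mk g : G ⧸ P))).mulVec v := by
      intro g
      obtain ⟨u, hu⟩ := QuotientGroup.mk_out_eq_mul P g
      rw [hu, hρm, ← Matrix.mulVec_mulVec, hfix' u u.2]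
    rw [h5, ← Finset.sum_fiberwise Finset.univ (fun g : G => (g • (QuotientGroup.mk h : G ⧸ P)))]
    apply Finset.sum_eq_zero
    intro a _
    have h6 := congrFun (congrFun h4 a) (QuotientGroup.mk h : G ⧸ P)
    rw [pm_apply, Matrix.zero_apply, ← Finset.sum_filter] at h6
    have h7 : ∀ g ∈ Finset.univ.filter (fun g : G => g • (QuotientGroup.mk h : G ⧸ P) = a),
        (redG (D.X i)).coeff g • (ρ (g * h)).mulVec v =
          (redG (D.X i)).coeff g • (ρ (Quotient.out a)).mulVec v := by
      intro g hg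
      have h8 : (QuotientGroup.mk (g * h) : G ⧸ P) = a := (Finset.mem_filter.mp hg).2
      rw [hwell (g * h), h8]
    rw [Finset.sum_congr rfl h7, ← Finset.sum_smul, h6, zero_smul]
  have hall : ∀ Y : Matrix (Fin (D.d i)) (Fin (D.d i)) (KF M),
      (D.π (redG (D.X i)) i).mulVec (Y.mulVec v) = 0 := by
    intro Y
    obtain ⟨y, hy⟩ := D.surj (Pi.single i Y)
    have h5 : Y = ∑ g : G, y.coeff g • ρ g := by
      rw [← hx, hy, Pi.single_eq_same]
    rw [h5, Matrix.sum_mulVec, Matrix.mulVec_sum]
    apply Finset.sum_eq_zero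
    intro g _
    rw [Matrix.smul_mulVec, Matrix.mulVec_smul, hkill, smul_zero]
  obtain ⟨j, hj⟩ : ∃ j, v j ≠ 0 := by
    by_contra hc
    push Not at hc
    exact hv (funext hc)
  have h5 := hall (Matrix.vecMulVec (Pi.single ⟨0, D.pos i⟩ 1) (Pi.single j (v j)⁻¹))
  rw [D.hX, Pi.single_eq_same, Matrix.mulVec_mulVec, e00_mul, Matrix.vecMulVec_mulVec] at h5
  have h6 : (Pi.single j (v j)⁻¹ : Fin (D.d i) → KF M) ⬝ᵥ v = 1 := by
    rw [single_dotProduct, inv_mul_cancel₀ hj]
  rw [h6] at h5
  have h7 := congrFun h5 ⟨0, D.pos i⟩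
  simp at h7

end main

end Cfsg.Agent.H26
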