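import Mathlib
import Cfsg.Agent.H26.Pl2
import Cfsg.Agent.H26.Princ
import Cfsg.Agent.H26.Kern
import Cfsg.Agent.H27.Kernel
import Cfsg.Agent.OOT.PLen1
import Cfsg.Agent.H11.Third2

set_option autoImplicit false
set_option maxHeartbeats 800000
set_option linter.style.haveILetI false

/-!
# `p`-length one and restriction to the Sylow normalizer
-/

namespace Cfsg.Agent.H26

open Cfsg Cfsg.Agent.H11 Cfsg.Agent.H3 Cfsg.Agent.H27
open Cfsg.Agent.H27.Md
open scoped ComplexConjugate

universe u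

section A

variable {G : Type u} [Group G] [Fintype G] {M : Ideal AlgInt} {p : ℕ} [hp : Fact p.Prime]

theorem pl_ker {P : Subgroup G} {ψ : G → ℂ} (hψ : IsIrrCharacter G ψ)
    (hirr : IsIrrCharacter (Subgroup.normalizer (P : Set G))
      (fun n : Subgroup.normalizer (P : Set G) => ψ n))
    (h : classInner (indFun P (fun _ => 1)) ψ ≠ 0) : ∀ u ∈ P, ψ u = ψ 1 := by
  classical
  have hfN : Fintype (Subgroup.normalizer (P : Set G)) := Fintype.ofFinite _
  have hfP : Fintype P := Fintype.ofFinite _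
  have hPN : P ≤ Subgroup.normalizer (P : Set G) := Subgroup.le_normalizer
  set N := Subgroup.normalizer (P : Set G) with hN
  have hfP' : Fintype (P.subgroupOf N) := Fintype.ofFinite _
  have hn : (P.subgroupOf N).Normal := by
    rw [Subgroup.normal_subgroupOf_iff_le_normalizer hPN]
  rw [frobenius_reciprocity P (fun _ => 1) (irr_classFun hψ)] at h
  have h1 : classInner (fun y : P => ψ y) (fun _ => 1) ≠ 0 := classInner_ne_zero_symm h
  have h2 : classInner (fun y : P.subgroupOf N => (fun n : N => ψ n) y) (fun _ => 1) ≠ 0 := by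
    have h3 : classInner (fun y : P.subgroupOf N => (fun n : N => ψ n) y) (fun _ => 1) =
        classInner (fun y : P => ψ y) (fun _ => 1) := by
      unfold classInner
      rw [Nat.card_congr (Subgroup.subgroupOfEquivOfLe hPN).toEquiv]
      congr 1
      apply Fintype.sum_equiv (Subgroup.subgroupOfEquivOfLe hPN).toEquiv
      intro x
      rfl
    rw [h3]
    exact h1
  have h3 := clifford_invariant hn hirr (θ := fun _ => 1) (trv (P.subgroupOf N)).2
    (fun x => rfl) h2
  intro u hu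
  have h4 := congrFun h3 ⟨⟨u, hPN hu⟩, Subgroup.mem_subgroupOf.mpr hu⟩
  have h5 := congrFun h3 1
  simp only [Pi.smul_apply] at h4 h5
  rw [← h5] at h4
  exact h4

theorem pl_back (hM : IsPModular p M) (P : Sylow p G)
    (h : ∀ χ ∈ principalBlock M G, IsIrrCharacter
      (Subgroup.normalizer ((P : Subgroup G) : Set G))
      (fun n : Subgroup.normalizer ((P : Subgroup G) : Set G) => (χ : G → ℂ) n)) :
    PLengthLE p 1 G := by
  classical
  have hpr : M.IsPrime := hM.2.1.isPrime
  have hB : IsPBlock M (principalBlock M G) := isPBlock_principal G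
  obtain ⟨D⟩ := exists_PD (G := G) (M := M)
  set B := principalBlock M G with hBd
  let R : Set (IrrCharacter G) := {χ | χ ∈ B ∧ ∀ u ∈ (P : Subgroup G), (χ : G → ℂ) u = (χ : G → ℂ) 1}
  let L : Subgroup G := ⨅ χ : R, charKer (irr_isChar χ.1.2)
  have hLn : L.Normal := Subgroup.normal_iInf_normal fun χ => charKer_normal _
  have hPL : (P : Subgroup G) ≤ L := by
    rw [le_iInf_iff]
    intro χ u hu
    exact χ.2.2 u hu
  have hLR : ∀ x ∈ L, ∀ χ ∈ R, (χ : G → ℂ) x = (χ : G → ℂ) 1 := by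
    intro x hx χ hχ
    exact (Subgroup.mem_iInf.mp hx) ⟨χ, hχ⟩
  have hreg : ∀ x ∈ L, ¬ p ∣ orderOf x → ∀ ψ ∈ B, (ψ : G → ℂ) x = (ψ : G → ℂ) 1 := by
    intro x hx hxr ψ hψ
    apply pd_trivial hM D hB hxr R ?_ ?_ hψ
    · intro χ hχ e he
      exact hLR e ((Subgroup.zpowers_le.mpr hx) he) χ hχ
    · intro i hi
      obtain ⟨χ, h1, h2⟩ := pd_fixed hM D P.isPGroup' i
      have hχB : χ ∈ B := by
        by_contra hc
        exact h1 (pd_sep' D hB hi hc)
      exact ⟨χ, ⟨hχB, pl_ker χ.2 (h χ hχB) h2⟩, h1⟩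
  let J : Subgroup G := ⨅ χ : B, charKer (irr_isChar χ.1.2)
  have hJn : J.Normal := Subgroup.normal_iInf_normal fun χ => charKer_normal _
  have hJc : (Nat.card J).Coprime p := by
    rw [Nat.coprime_comm, Nat.Prime.coprime_iff_not_dvd hp.out]
    intro hd
    obtain ⟨⟨x, hx⟩, ho⟩ := exists_prime_orderOf_dvd_card' p hd
    rw [Subgroup.orderOf_mk] at ho
    have hfI : Fintype (IrrCharacter G) := Fintype.ofFinite _
    have h1 : kr B x 1 = 0 := kr_eq_zero' hM hB (by rw [ho])
      (by rw [orderOf_one]; exact hp.out.one_lt.ne' ∘ Nat.dvd_one.mp)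
    rw [kr_eq] at h1
    have h2 : ∑ θ : IrrCharacter G with θ ∈ B, (θ : G → ℂ) x * conj ((θ : G → ℂ) 1) =
        ((∑ θ : IrrCharacter G with θ ∈ B, ‖(θ : G → ℂ) 1‖ ^ 2 : ℝ) : ℂ) := by
      push_cast
      apply Finset.sum_congr rfl
      intro θ hθ
      have h3 : (θ : G → ℂ) x = (θ : G → ℂ) 1 :=
        (Subgroup.mem_iInf.mp hx) ⟨θ, (Finset.mem_filter.mp hθ).2⟩
      rw [h3, Complex.mul_conj']
    rw [h2] at h1
    have h4 : ∑ θ : IrrCharacter G with θ ∈ B, ‖(θ : G → ℂ) 1‖ ^ 2 = 0 := by exact_mod_cast h1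
    have h5 := (Finset.sum_eq_zero_iff_of_nonneg (fun θ _ => by positivity)).mp h4 (trv G)
      (Finset.mem_filter.mpr ⟨Finset.mem_univ _, trv_mem G⟩)
    have h6 := irr_one_ne_zero (trv G).2
    rw [sq_eq_zero_iff, norm_eq_zero] at h5
    exact h6 h5
  have hJK : J ≤ pPrimeCore p G := H1.le_pPrimeCore hJn hJc
  have hLH : L ≤ pPrimePCore p G := by
    unfold pPrimePCore
    rw [← Subgroup.map_le_iff_le_comap]
    apply H1.le_pCore (hLn.map _ (QuotientGroup.mk'_surjective _))
    rintro ⟨_, ⟨x, hx, rfl⟩⟩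
    obtain ⟨a, s, has, hc, ⟨k, hk⟩, hs⟩ := exists_isPPart hp.out x
    obtain ⟨n, hn⟩ := isPPart_mem_zpowers hp.out ⟨s, has, hc, ⟨k, hk⟩, hs⟩
    have haL : a ∈ L := by rw [hn]; exact L.pow_mem hx n
    have hsL : s ∈ L := by
      have : s = a⁻¹ * x := by rw [← has]; group
      rw [this]
      exact L.mul_mem (L.inv_mem haL) hx
    have hsK : s ∈ pPrimeCore p G := by
      apply hJK
      rw [Subgroup.mem_iInf]
      intro χ
      exact hreg s hsL hs χ.1 χ.2
    refine ⟨k, Subtype.ext ?_⟩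
    change (QuotientGroup.mk' (pPrimeCore p G) x) ^ p ^ k = 1
    rw [← map_pow, ← has, hc.mul_pow, ← hk, pow_orderOf_eq_one, one_mul, hk]
    exact (QuotientGroup.eq_one_iff _).mpr ((pPrimeCore p G).pow_mem hsK _)
  rw [Cfsg.Agent.OOT.plength_one_iff, Nat.coprime_comm, Nat.Prime.coprime_iff_not_dvd hp.out]
  intro hd
  exact P.not_dvd_index (hd.trans (Subgroup.index_dvd_of_le (hPL.trans hLH)))

theorem pl_forw (hM : IsPModular p M) (P : Sylow p G) (h : PLengthLE p 1 G) :
    ∀ χ ∈ principalBlock M G, IsIrrCharacter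
      (Subgroup.normalizer ((P : Subgroup G) : Set G))
      (fun n : Subgroup.normalizer ((P : Subgroup G) : Set G) => (χ : G → ℂ) n) := by
  classical
  rw [Cfsg.Agent.OOT.plength_one_iff] at h
  have hHn := H10.pPrimePCore_normal p G
  set H := pPrimePCore p G with hH
  set K := pPrimeCore p G with hK
  have hKH : K ≤ H := H10.pPrimeCore_le_pPrimePCore p G
  have hPH : (P : Subgroup G) ≤ H := by
    rw [← Subgroup.relIndex_eq_one]
    have h1 : H.relIndex (P : Subgroup G) ∣ H.index := Subgroup.relIndex_dvd_index_of_normal _ _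
    obtain ⟨n, hn⟩ := IsPGroup.iff_card.mp P.isPGroup'
    have h2 : H.relIndex (P : Subgroup G) ∣ p ^ n := by
      rw [← hn]
      exact Subgroup.relIndex_dvd_card _ _
    exact Nat.eq_one_of_dvd_coprimes (Nat.Coprime.pow_right n h) h1 h2
  obtain ⟨m, hm⟩ := Cfsg.Agent.OOT.relIndex_pPrimeCore_pPrimePCore p G
  have hHK : H ≤ K ⊔ (P : Subgroup G) := by
    rw [← Subgroup.relIndex_eq_one]
    have h1 : (K ⊔ (P : Subgroup G)).relIndex H ∣ p ^ m := by
      rw [← hm]
      exact Subgroup.relIndex_dvd_of_le_left _ le_sup_left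
    have h2 : (K ⊔ (P : Subgroup G)).relIndex H ∣ (P : Subgroup G).index :=
      (Subgroup.relIndex_dvd_of_le_left _ le_sup_right).trans
        (Subgroup.relIndex_dvd_index_of_le hPH)
    have h3 : ((P : Subgroup G).index).Coprime p := by
      rw [Nat.coprime_comm, Nat.Prime.coprime_iff_not_dvd hp.out]
      exact P.not_dvd_index
    exact Nat.eq_one_of_dvd_coprimes (Nat.Coprime.pow_right m h3) h2 h1
  have hfr := Sylow.normalizer_sup_eq_top' P hPH
  set N := Subgroup.normalizer ((P : Subgroup G) : Set G) with hN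
  have hNK : N ⊔ K = ⊤ := by
    rw [eq_top_iff, ← hfr]
    apply sup_le le_sup_left
    exact hHK.trans (sup_le le_sup_right (Subgroup.le_normalizer.trans le_sup_left))
  intro χ hχ
  have hKn : K.Normal := inferInstance
  have hker : ∀ n ∈ K, (χ : G → ℂ) n = (χ : G → ℂ) 1 := by
    intro n hn
    have hc1 : Subgroup.centralizer ({(1 : G)} : Set G) = ⊤ := by
      rw [eq_top_iff]
      intro x _
      rw [Subgroup.mem_centralizer_singleton_iff, mul_one, one_mul]
    have hKc : K ≤ Subgroup.centralizer ({(1 : G)} : Set G) := by rw [hc1]; exact le_top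
    have hn1 : (K.subgroupOf (Subgroup.centralizer ({(1 : G)} : Set G))).Normal :=
      hKn.subgroupOf _
    have hcard : ¬ p ∣ Nat.card (K.subgroupOf (Subgroup.centralizer ({(1 : G)} : Set G))) := by
      rw [Nat.card_congr (Subgroup.subgroupOfEquivOfLe hKc).toEquiv]
      exact (Nat.Prime.coprime_iff_not_dvd hp.out).mp (H1.pPrimeCore_coprime p G).symm
    have h1 := principal_const hM (u := (1 : G)) ⟨0, by rw [orderOf_one, pow_zero]⟩ hcard
      (v := ⟨n, hKc hn⟩) (Subgroup.mem_subgroupOf.mpr hn) hχ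
    rw [one_mul] at h1
    exact h1
  obtain ⟨ψ, hψ, hψ2⟩ := exists_quotient_char (irr_isChar χ.2) hker
  have hψi : IsIrrCharacter (G ⧸ K) ψ := by
    rw [← isIrr_comp_surjective_iff hψ (QuotientGroup.mk' K) (QuotientGroup.mk'_surjective K)]
    have : (fun g : G => ψ (QuotientGroup.mk' K g)) = (χ : G → ℂ) := funext fun g => (hψ2 g).symm
    rw [this]
    exact χ.2
  have hsurj : Function.Surjective ((QuotientGroup.mk' K).comp N.subtype) := by
    intro q
    obtain ⟨g, rfl⟩ := QuotientGroup.mk'_surjective K q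
    have hg : g ∈ N ⊔ K := by rw [hNK]; exact Subgroup.mem_top g
    obtain ⟨n, hn, k, hk, rfl⟩ := Subgroup.mem_sup_of_normal_right.mp hg
    refine ⟨⟨n, hn⟩, ?_⟩
    change QuotientGroup.mk' K n = QuotientGroup.mk' K (n * k)
    have h2 : QuotientGroup.mk' K k = 1 := (QuotientGroup.eq_one_iff k).mpr hk
    rw [map_mul, h2, mul_one]
  have h1 := (isIrr_comp_surjective_iff hψ _ hsurj).mpr hψi
  have h2 : (fun n : N => ψ (((QuotientGroup.mk' K).comp N.subtype) n)) =
      fun n : N => (χ : G → ℂ) n := funext fun n => (hψ2 n).symm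
  rw [h2] at h1
  exact h1

end A

end Cfsg.Agent.H26
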