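import Mathlib
import Cfsg.Agent.H26.Coef
import Cfsg.Agent.H27.PMod
import Cfsg.Agent.H11.Defect4

set_option autoImplicit false
set_option maxHeartbeats 800000

/-!
# The bound of Schur for `p`-groups with rational characters
-/

namespace Cfsg.Agent.H26

open Cfsg Cfsg.Agent.H3 Cfsg.Agent.H11 Cfsg.Agent.H27 Finset
open scoped ComplexConjugate

universe u

section A

variable {Q : Type u} [Group Q] [Fintype Q] {p : ℕ} [hp : Fact p.Prime]

theorem rt_int (hQ : IsPGroup p Q) {ρ : Q → ℂ} (hρ : IsCharacter Q ρ)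
    (hgal : ∀ x : Q, ∀ k : ℕ, ¬ p ∣ k → ρ (x ^ k) = ρ x) (x : Q) : ∃ z : ℤ, ρ x = z := by
  have h1 := IsGalSeq.char (N := orderOf x) hρ (orderOf_pos x).ne' (g := x) (pow_orderOf_eq_one x)
  by_cases hx : x = 1
  · obtain ⟨n, hn⟩ := char_one_eq_nat hρ
    exact ⟨n, by rw [hx, hn]; simp⟩
  obtain ⟨k, hk⟩ := h1.int_of_const (orderOf_pos x).ne' (by
    intro m hm
    rw [mem_cop] at hm
    rw [pow_one]
    apply hgal
    intro hpm
    obtain ⟨j, hj⟩ := IsPGroup.iff_orderOf.mp hQ x
    have hj0 : j ≠ 0 := by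
      rintro rfl
      rw [pow_zero, orderOf_eq_one_iff] at hj
      exact hx hj
    have h2 : p ∣ orderOf x := by rw [hj]; exact dvd_pow_self p hj0
    have h3 := Nat.dvd_gcd hpm h2
    rw [hm.2] at h3
    exact hp.out.one_lt.ne' (Nat.dvd_one.mp h3))
  exact ⟨k, by rw [← hk, pow_one]⟩

/-- sum over the powers of an element -/
theorem rt_sum_pow {ρ : Q → ℂ} (hρ : IsCharacter Q ρ) (x : Q) :
    ∃ a : ℕ, ∑ j ∈ range (orderOf x), ρ (x ^ j) = (orderOf x : ℂ) * a := by
  classical
  have hf : Fintype (Subgroup.zpowers x) := Fintype.ofFinite _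
  have h1 : IsCharacter (Subgroup.zpowers x) (fun y : Subgroup.zpowers x => ρ y) :=
    isChar_restrict (Subgroup.zpowers x) hρ
  obtain ⟨a, ha⟩ := classInner_char_nat h1 isChar_one
  refine ⟨a, ?_⟩
  have hc : (Nat.card (Subgroup.zpowers x) : ℂ) ≠ 0 := card_ne_zeroC
  unfold classInner at ha
  rw [inv_mul_eq_iff_eq_mul₀ hc, Nat.card_zpowers] at ha
  rw [← ha, ← Fin.sum_univ_eq_sum_range (fun j => ρ (x ^ j))]
  apply Fintype.sum_equiv (finEquivZPowers (isOfFinOrder_of_finite x))
  intro i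
  have h3 : ((finEquivZPowers (isOfFinOrder_of_finite x) i : Subgroup.zpowers x) : Q) =
      x ^ (i : ℕ) := by
    rw [finEquivZPowers_apply]
  simp [h3]

/-- lower bound -/
theorem rt_lower (hQ : IsPGroup p Q) {ρ : Q → ℂ} (hρ : IsCharacter Q ρ)
    {z : Q → ℤ} (hz : ∀ x, ρ x = z x) {n : ℕ} (hn : ρ 1 = n)
    (hgal : ∀ x : Q, ∀ k : ℕ, ¬ p ∣ k → ρ (x ^ k) = ρ x) (x : Q) :
    z x ≤ n ∧ 0 ≤ ((p : ℤ) - 1) * z x + n := by
  classical
  have hle : ∀ y, z y ≤ n := by
    intro y
    have h1 := char_norm_le hρ y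
    rw [hn, hz y, Complex.norm_natCast, Complex.norm_intCast] at h1
    have h2 : |z y| ≤ (n : ℤ) := by exact_mod_cast h1
    exact (le_abs_self _).trans h2
  refine ⟨hle x, ?_⟩
  by_cases hx : x = 1
  · have h1 : z x = n := by
      have := hz x
      rw [hx, hn] at this
      rw [hx]
      exact_mod_cast this.symm
    rw [h1]
    ring_nf
    positivity
  obtain ⟨j, hj⟩ := IsPGroup.iff_orderOf.mp hQ x
  obtain ⟨i, rfl⟩ : ∃ i, j = i + 1 := by
    cases j with
    | zero => rw [pow_zero, orderOf_eq_one_iff] at hj; exact absurd hj hx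
    | succ i => exact ⟨i, rfl⟩
  obtain ⟨a, ha⟩ := rt_sum_pow hρ x
  have h1 : ∑ j ∈ range (orderOf x), z (x ^ j) = (orderOf x : ℤ) * a := by
    simp only [hz] at ha
    exact_mod_cast ha
  have h2 : ∑ j ∈ range (orderOf x), z (x ^ j) ≤
      ∑ j ∈ range (orderOf x), (if (orderOf x).Coprime j then z x else (n : ℤ)) := by
    apply Finset.sum_le_sum
    intro m _
    split_ifs with hm
    · apply le_of_eq
      have h3 : ¬ p ∣ m := by
        intro hpm
        have h4 := Nat.dvd_gcd (show p ∣ orderOf x by rw [hj]; exact dvd_pow_self p (by omega)) hpm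
        rw [hm] at h4
        exact hp.out.one_lt.ne' (Nat.dvd_one.mp h4)
      have h4 := hgal x m h3
      rw [hz, hz] at h4
      exact_mod_cast h4
    · exact hle _
  have h3 : ∑ j ∈ range (orderOf x), (if (orderOf x).Coprime j then z x else (n : ℤ)) =
      (p : ℤ) ^ i * (((p : ℤ) - 1) * z x + n) := by
    rw [Finset.sum_ite, Finset.sum_const, Finset.sum_const, nsmul_eq_mul, nsmul_eq_mul]
    have e1 : ((range (orderOf x)).filter (fun j => (orderOf x).Coprime j)).card =
        p ^ i * (p - 1) := by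
      rw [← Nat.totient_eq_card_coprime, hj, Nat.totient_prime_pow_succ hp.out]
    have e2 : ((range (orderOf x)).filter (fun j => ¬ (orderOf x).Coprime j)).card = p ^ i := by
      have e3 := Finset.card_filter_add_card_filter_not (s := range (orderOf x))
        (fun j => (orderOf x).Coprime j)
      rw [e1, Finset.card_range] at e3
      have e4 : p ^ i * p = p ^ i * (p - 1) + p ^ i := by
        obtain ⟨r, hr⟩ : ∃ r, p = r + 1 := ⟨p - 1, by have := hp.out.one_lt; omega⟩
        rw [hr]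
        simp only [Nat.add_sub_cancel]
        ring
      have e5 : orderOf x = p ^ i * (p - 1) + p ^ i := by rw [hj, pow_succ, e4]
      exact Nat.add_left_cancel (e3.trans e5)
    rw [e1, e2]
    obtain ⟨r, hr⟩ : ∃ r, p = r + 1 := ⟨p - 1, by have := hp.out.one_lt; omega⟩
    rw [hr]
    simp only [Nat.add_sub_cancel]
    push_cast
    ring
  rw [h1, h3] at h2
  have h4 : (0 : ℤ) ≤ (orderOf x : ℤ) * a := by positivity
  have h5 : (0 : ℤ) < (p : ℤ) ^ i := by
    have := hp.out.pos
    positivity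
  by_contra hcon
  push Not at hcon
  have h6 : (p : ℤ) ^ i * (((p : ℤ) - 1) * z x + n) < 0 := mul_neg_of_pos_of_neg h5 hcon
  omega

theorem rt_mod (hQ : IsPGroup p Q) {ρ : Q → ℂ} (hρ : IsCharacter Q ρ)
    {z : Q → ℤ} (hz : ∀ x, ρ x = z x) {n : ℕ} (hn : ρ 1 = n) (x : Q) :
    (p : ℤ) ∣ n - z x := by
  obtain ⟨M, hM⟩ := exists_isPModular hp.out
  have hpr := hM.2.1.isPrime
  have h1 := li_char_mul_sub hM hρ (x := x) (y := 1) (Commute.one_right x)
    (IsPGroup.iff_orderOf.mp hQ x)
  rw [mul_one, hn, hz x] at h1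
  have h2 := (li_intCast_iff hM (z x - n)).mp (by push_cast; exact h1)
  have h3 := (dvd_neg (α := ℤ)).mpr h2
  rwa [neg_sub] at h3

/-- Schur's bound. -/
theorem rt_schur (hQ : IsPGroup p Q) {ρ : Q → ℂ} (hρ : IsCharacter Q ρ) {n : ℕ}
    (hn : ρ 1 = n) (hgal : ∀ x : Q, ∀ k : ℕ, ¬ p ∣ k → ρ (x ^ k) = ρ x) :
    Nat.card Q ∣ Nat.card {x : Q // ρ x = ρ 1} *
      (p ^ (n / (p - 1)) * (n / (p - 1)).factorial) := by
  classical
  choose z hz using fun x => rt_int hQ hρ hgal x
  have hz1 : z 1 = n := by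
    have := hz 1
    rw [hn] at this
    exact_mod_cast this.symm
  set m := n / (p - 1) with hm
  have hgen : ∀ r : ℕ, IsGeneralizedCharacter Q
      (fun x => ∏ t ∈ range r, (ρ x - ((n : ℂ) - p * (t + 1)))) := by
    intro r
    induction r with
    | zero => simpa using isGen_one
    | succ r ih =>
      have h1 : (fun x => ∏ t ∈ range (r + 1), (ρ x - ((n : ℂ) - p * (t + 1)))) =
          (fun x => ∏ t ∈ range r, (ρ x - ((n : ℂ) - p * (t + 1)))) *
            (ρ - (((n : ℤ) - p * (r + 1) : ℤ) • (fun _ => (1 : ℂ)))) := by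
        ext x
        rw [Finset.prod_range_succ]
        simp only [Pi.mul_apply, Pi.sub_apply, zsmul_eq_mul, mul_one]
        push_cast
        rfl
      rw [h1]
      exact isGen_mul ih (isGen_sub (isGen_of_char hρ) (isGen_zsmul _ isGen_one))
  obtain ⟨b, hb⟩ := classInner_gen_int (hgen m) isGen_one
  have hQ0 : (Nat.card Q : ℂ) ≠ 0 := card_ne_zeroC
  unfold classInner at hb
  simp only [map_one, mul_one] at hb
  rw [inv_mul_eq_iff_eq_mul₀ hQ0] at hb
  have hval : ∀ x : Q, ∏ t ∈ range m, (ρ x - ((n : ℂ) - p * (t + 1))) =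
      if ρ x = ρ 1 then ((p ^ m * m.factorial : ℕ) : ℂ) else 0 := by
    intro x
    split_ifs with hx
    · rw [hx, hn]
      have h1 : ∀ t : ℕ, ((n : ℂ) - (n - p * (t + 1))) = (p : ℂ) * ((t + 1 : ℕ) : ℂ) := by
        intro t; push_cast; ring
      simp only [h1]
      rw [Finset.prod_mul_distrib, Finset.prod_const, Finset.card_range]
      push_cast
      congr 1
      rw [← Finset.prod_range_add_one_eq_factorial]
      push_cast
      rfl
    · obtain ⟨t, ht⟩ := rt_mod hQ hρ hz hn x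
      obtain ⟨h1, h2⟩ := rt_lower hQ hρ hz hn hgal x
      have h3 : z x ≠ n := by
        intro h
        apply hx
        rw [hn, hz x, h]
        simp
      have hp1 := hp.out.one_lt
      have hp0 : (0 : ℤ) < p := by exact_mod_cast hp.out.pos
      have ht0 : 0 < t := by
        have h4 : (0 : ℤ) < (p : ℤ) * t := by omega
        by_contra h5
        push Not at h5
        have := mul_nonpos_of_nonneg_of_nonpos hp0.le h5
        omega
      obtain ⟨s, hs⟩ : ∃ s : ℕ, t = s + 1 := ⟨(t - 1).toNat, by omega⟩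
      apply Finset.prod_eq_zero (i := s)
      · rw [Finset.mem_range, hm]
        have h5 : (s + 1) * (p - 1) ≤ n := by
          have h6 : ((s : ℤ) + 1) * ((p : ℤ) - 1) ≤ n := by
            have h7 : z x = n - p * (s + 1) := by rw [hs] at ht; omega
            rw [h7] at h2
            have h8 : (p : ℤ) * (((s : ℤ) + 1) * ((p : ℤ) - 1)) ≤ p * n := by nlinarith
            exact le_of_mul_le_mul_left h8 hp0
          obtain ⟨r, hr⟩ : ∃ r, p = r + 1 := ⟨p - 1, by omega⟩
          rw [hr] at h6 ⊢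
          simp only [Nat.add_sub_cancel]
          push_cast at h6
          have h7 : ((s : ℤ) + 1) * r ≤ n := by linarith
          exact_mod_cast h7
        have h6 := (Nat.le_div_iff_mul_le (by omega : 0 < p - 1)).mpr h5
        omega
      · rw [hz x]
        have h7 : z x = n - p * (s + 1) := by rw [hs] at ht; omega
        rw [h7]
        push_cast
        ring
  simp only [hval] at hb
  rw [Finset.sum_ite, Finset.sum_const_zero, add_zero, Finset.sum_const, nsmul_eq_mul,
    ← Fintype.card_subtype, ← Nat.card_eq_fintype_card] at hb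
  have hb' : ((Nat.card {x : Q // ρ x = ρ 1} * (p ^ m * m.factorial) : ℕ) : ℤ) =
      (Nat.card Q : ℤ) * b := by
    have : (((Nat.card {x : Q // ρ x = ρ 1} * (p ^ m * m.factorial) : ℕ) : ℤ) : ℂ) =
      (((Nat.card Q : ℤ) * b : ℤ) : ℂ) := by
      push_cast
      push_cast at hb
      exact hb
    exact_mod_cast this
  have : (Nat.card Q : ℤ) ∣ ((Nat.card {x : Q // ρ x = ρ 1} * (p ^ m * m.factorial) : ℕ) : ℤ) :=
    ⟨b, hb'⟩
  exact_mod_cast this

end A

end Cfsg.Agent.H26
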