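import Mathlib
import Cfsg.Agent.H26.Rt1
import Cfsg.Agent.H3.Clifford
import Cfsg.Agent.H3.DetExt
import Cfsg.Agent.S0867
import Cfsg.Agent.H27.GlCan
import Cfsg.Agent.H27.GalBlock

set_option autoImplicit false
set_option maxHeartbeats 800000

/-!
# Replacing a character by a `p`-rational one
-/

namespace Cfsg.Agent.H26

open Cfsg Cfsg.Agent.H3 Cfsg.Agent.H11 Cfsg.Agent.H27 Finset
open scoped ComplexConjugate

universe u

section A

variable {X : Type u} [Group X] [Fintype X]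

theorem rt_irr {N : Subgroup X} (hN : N.Normal) (hcop : (Nat.card N).Coprime N.index)
    {η : X → ℂ} (hη : IsIrrCharacter X η) :
    ∃ (η' : X → ℂ) (e : ℕ), IsCharacter X η' ∧ 0 < e ∧ (∀ n : N, η n = e * η' n) ∧
      ∀ (x : X) (k : ℕ), k.Coprime (Nat.card X) → k ≡ 1 [MOD Nat.card N] →
        η' (x ^ k) = η' x := by
  classical
  have hfN : Fintype N := Fintype.ofFinite N
  obtain ⟨θ, hθ⟩ := exists_constituent (isChar_restrict N (irr_isChar hη)) (by
    intro h
    have h1 := congrFun h 1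
    exact irr_one_ne_zero hη h1)
  obtain ⟨e, he⟩ := classInner_char_nat (isChar_restrict N (irr_isChar hη)) (irr_isChar θ.2)
  have he0 : e ≠ 0 := by
    rintro rfl
    apply hθ
    rw [he]; simp
  set T := inertia hN (θ : N → ℂ) with hT
  have hfT : Fintype T := Fintype.ofFinite T
  have hNT : N ≤ T := le_inertia hN (irr_classFun θ.2)
  let N' : Subgroup T := N.subgroupOf T
  have hN' : N'.Normal := by
    refine ⟨fun n hn g => ?_⟩
    exact Subgroup.mem_subgroupOf.mpr (hN.conj_mem _ (Subgroup.mem_subgroupOf.mp hn) g)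
  let f : N' ≃* N := Subgroup.subgroupOfEquivOfLe hNT
  have hfv : ∀ n : N', ((f n : N) : X) = ((n : T) : X) := fun n => rfl
  let θT : N' → ℂ := fun n => (θ : N → ℂ) (f n)
  have hθT : IsIrrCharacter N' θT := (isIrr_comp_equiv_iff f).mpr θ.2
  have hcardN' : Nat.card N' = Nat.card N := Nat.card_congr f.toEquiv
  have hinv : ∀ (g : T) (n : N'), θT ⟨g * n * g⁻¹, hN'.conj_mem (n : T) n.2 g⟩ = θT n := by
    intro g n
    have h1 := congrFun ((mem_inertia hN (θ : N → ℂ) (g : X)).mp g.2) (f n)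
    exact h1
  obtain ⟨d, hd⟩ := char_one_eq_nat (irr_isChar hθT)
  have hidx : N'.index ∣ N.index := by
    have h1 : N'.index = N.relIndex T := rfl
    rw [h1]
    exact Subgroup.relIndex_dvd_index_of_normal N T
  have hcop' : Nat.Coprime N'.index (Nat.card N') := by
    rw [hcardN']
    exact (Nat.Coprime.coprime_dvd_right hidx hcop).symm
  have hc1 : Nat.Coprime N'.index (detOrder θT * d) :=
    Nat.Coprime.mul_right (Nat.Coprime.coprime_dvd_right (detOrder_dvd (irr_isChar hθT)) hcop')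
      (Nat.Coprime.coprime_dvd_right (irr_degree_dvd_card hθT hd) hcop')
  obtain ⟨χT, ⟨k1, k2, k3⟩, k4⟩ := Cfsg.Agent.S0867.result N' θT hθT hinv d hd hc1
  have hgalT : ∀ (t : T) (k : ℕ), k.Coprime (Nat.card X) → k ≡ 1 [MOD Nat.card N] →
      χT (t ^ k) = χT t := by
    intro t k hk hk1
    have hkT : k.Coprime (Nat.card T) :=
      Nat.Coprime.coprime_dvd_right (Subgroup.card_subgroup_dvd_card T) hk
    have h1 := k4 (fun t => χT (t ^ k)) (isIrr_pow_coprime k1 hkT) (by
      intro n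
      rw [← k2 n]
      congr 1
      have h2 : (n : T) ^ k = (n : T) ^ 1 := by
        rw [pow_eq_pow_iff_modEq]
        apply hk1.of_dvd
        rw [← hcardN', Subgroup.orderOf_coe]
        exact orderOf_dvd_natCard n
      rw [h2, pow_one]) (by
      rw [detOrder_pow_coprime (irr_isChar k1) hkT, k3]
      exact Nat.Coprime.coprime_mul_right_right hc1)
    exact congrFun h1 t
  refine ⟨indFun T χT, e, isChar_ind T (irr_isChar k1), Nat.pos_of_ne_zero he0, ?_, ?_⟩
  · intro n
    have h1 := congrFun (clifford_sum hN hη θ.2 hθ) n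
    rw [he, Pi.smul_apply, Pi.smul_apply, Finset.sum_apply, smul_eq_mul, smul_eq_mul, ← hT] at h1
    have hT0 : (Nat.card T : ℂ) ≠ 0 := card_ne_zeroC
    have h2 : indFun T χT n = (Nat.card T : ℂ)⁻¹ * ∑ x : X, H3.cj hN x (θ : N → ℂ) n := by
      unfold indFun
      congr 1
      apply Fintype.sum_equiv (Equiv.inv X)
      intro x
      have h3 : x⁻¹ * (n : X) * x ∈ N := by simpa using hN.conj_mem n n.2 x⁻¹
      rw [extendByZero_mem _ _ (hNT h3)]
      have h4 := k2 ⟨⟨x⁻¹ * (n : X) * x, hNT h3⟩, Subgroup.mem_subgroupOf.mpr h3⟩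
      rw [h4]
      refine congrArg (θ : N → ℂ) (Subtype.ext ?_)
      simp [hfv]
    rw [h2]
    apply mul_left_cancel₀ hT0
    rw [h1]
    field_simp
  · intro x k hk hk1
    unfold indFun
    congr 1
    apply Finset.sum_congr rfl
    intro y _
    have h1 : y⁻¹ * x ^ k * y = (y⁻¹ * x * y) ^ k := by
      have := conj_pow (a := y⁻¹) (b := x) (i := k)
      simpa using this.symm
    rw [h1]
    by_cases h2 : y⁻¹ * x * y ∈ T
    · rw [extendByZero_mem _ _ h2, extendByZero_mem _ _ (T.pow_mem h2 k)]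
      exact hgalT ⟨_, h2⟩ k hk hk1
    · rw [extendByZero_not_mem _ _ h2, extendByZero_not_mem]
      intro h3
      exact h2 (mem_of_pow_mem_coprime hk h3)

theorem rt_char {N : Subgroup X} (hN : N.Normal) (hcop : (Nat.card N).Coprime N.index)
    {χ : X → ℂ} (hχ : IsCharacter X χ) :
    ∃ χ' : X → ℂ, IsCharacter X χ' ∧ (∀ n n' : ℕ, χ 1 = n → χ' 1 = n' → n' ≤ n) ∧
      (∀ x : N, χ' x = χ' 1 → χ x = χ 1) ∧
      ∀ (x : X) (k : ℕ), k.Coprime (Nat.card X) → k ≡ 1 [MOD Nat.card N] →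
        χ' (x ^ k) = χ' x := by
  classical
  have hfI : Fintype (IrrCharacter X) := Fintype.ofFinite _
  obtain ⟨m, -, hexp⟩ := char_expand hχ
  choose η' e h1 h2 h3 h4 using fun ψ : IrrCharacter X => rt_irr hN hcop ψ.2
  have hd : ∀ ψ, ∃ d : ℕ, η' ψ 1 = d := fun ψ => char_one_eq_nat (h1 ψ)
  choose d hd using hd
  have hψ1 : ∀ ψ : IrrCharacter X, (ψ : X → ℂ) 1 = (e ψ : ℂ) * d ψ := by
    intro ψ
    have := h3 ψ 1
    rw [← hd ψ]
    exact this
  have hχ1 : χ 1 = ((∑ ψ : IrrCharacter X, m ψ * (e ψ * d ψ) : ℕ) : ℂ) := by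
    rw [hexp, Finset.sum_apply]
    push_cast
    apply Finset.sum_congr rfl
    intro ψ _
    rw [Pi.smul_apply, smul_eq_mul, hψ1]
  have hχ'1 : (∑ ψ : IrrCharacter X, (m ψ : ℂ) • η' ψ) 1 =
      ((∑ ψ : IrrCharacter X, m ψ * d ψ : ℕ) : ℂ) := by
    rw [Finset.sum_apply]
    push_cast
    apply Finset.sum_congr rfl
    intro ψ _
    rw [Pi.smul_apply, smul_eq_mul, hd]
  refine ⟨∑ ψ : IrrCharacter X, (m ψ : ℂ) • η' ψ, isChar_sum _ _ fun ψ _ =>
    isChar_natCast_smul _ (h1 ψ), ?_, ?_, ?_⟩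
  · intro n n' hn hn'
    rw [hχ1] at hn
    rw [hχ'1] at hn'
    have e1 : ∑ ψ : IrrCharacter X, m ψ * (e ψ * d ψ) = n := by exact_mod_cast hn
    have e2 : ∑ ψ : IrrCharacter X, m ψ * d ψ = n' := by exact_mod_cast hn'
    rw [← e1, ← e2]
    apply Finset.sum_le_sum
    intro ψ _
    apply Nat.mul_le_mul_left
    exact Nat.le_mul_of_pos_left _ (h2 ψ)
  · intro x hx
    rw [hχ'1, Finset.sum_apply] at hx
    have hle : ∀ ψ, (η' ψ x).re ≤ d ψ := by
      intro ψ
      have k1 := char_norm_le (h1 ψ) (x : X)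
      rw [hd, Complex.norm_natCast] at k1
      exact (Complex.re_le_norm _).trans k1
    have hre : ∑ ψ : IrrCharacter X, (m ψ : ℝ) * ((d ψ : ℝ) - (η' ψ x).re) = 0 := by
      have k1 := congrArg Complex.re hx
      rw [Complex.re_sum, Complex.natCast_re] at k1
      simp only [mul_sub, Finset.sum_sub_distrib]
      have k2 : ∀ ψ : IrrCharacter X, ((m ψ : ℂ) * η' ψ (x : X)).re = (m ψ : ℝ) * (η' ψ x).re := by
        intro ψ
        simp
      simp only [Pi.smul_apply, smul_eq_mul, k2] at k1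
      rw [k1]
      push_cast
      ring
    have hz := (Finset.sum_eq_zero_iff_of_nonneg (fun ψ _ =>
      mul_nonneg (Nat.cast_nonneg (m ψ)) (sub_nonneg.mpr (hle ψ)))).mp hre
    rw [hexp, Finset.sum_apply, Finset.sum_apply]
    apply Finset.sum_congr rfl
    intro ψ hψ
    rw [Pi.smul_apply, Pi.smul_apply, smul_eq_mul, smul_eq_mul]
    rcases mul_eq_zero.mp (hz ψ hψ) with k1 | k1
    · have : (m ψ : ℂ) = 0 := by exact_mod_cast k1
      rw [this, zero_mul, zero_mul]
    · congr 1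
      have k2 : (η' ψ x).re = d ψ := by linarith
      have k3 := char_norm_le (h1 ψ) (x : X)
      rw [hd, Complex.norm_natCast] at k3
      have k4 : η' ψ x = d ψ := by
        apply Complex.ext
        · rw [k2, Complex.natCast_re]
        · rw [Complex.natCast_im]
          have k5 := Complex.sq_norm (η' ψ (x : X))
          rw [Complex.normSq_apply, k2] at k5
          have k6 : ‖η' ψ (x : X)‖ ^ 2 ≤ (d ψ : ℝ) ^ 2 :=
            pow_le_pow_left₀ (norm_nonneg _) k3 2
          nlinarith [sq_nonneg (η' ψ (x : X)).im]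
      rw [h3 ψ x, k4, hψ1]
  · intro x k hk hk1
    rw [Finset.sum_apply, Finset.sum_apply]
    apply Finset.sum_congr rfl
    intro ψ _
    rw [Pi.smul_apply, Pi.smul_apply, h4 ψ x k hk hk1]

end A

end Cfsg.Agent.H26
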