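import Mathlib
import Cfsg.Agent.H26.Rt2
import Cfsg.Agent.H27.Kernel
import Cfsg.Agent.H1.Hall
import Cfsg.Agent.H23.HHThmB
import Cfsg.Agent.H18.Coprime
import Cfsg.Agent.H1.Chief

set_option autoImplicit false
set_option maxHeartbeats 800000

/-!
# The index of `O_p(G)` in `p`-solvable linear groups
-/

namespace Cfsg.Agent.H26

open Cfsg Cfsg.Agent.H3 Cfsg.Agent.H11 Cfsg.Agent.H27 Finset
open scoped ComplexConjugate

universe u

section A

variable {G : Type u} [Group G] [Fintype G] {p : ℕ} [hp : Fact p.Prime]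

theorem rt_bound {N P : Subgroup G} (hP : IsPGroup p P)
    (hPN : P ≤ Subgroup.normalizer (N : Set G)) (hN : (Nat.card N).Coprime p)
    {χ : G → ℂ} (hχ : IsCharacter G χ) (hf : ∀ x ∈ N, χ x = χ 1 → x = 1) {n : ℕ}
    (hn : χ 1 = n) :
    (Nat.card P).factorization p ≤
      (Nat.card (P ⊓ Subgroup.centralizer (N : Set G) : Subgroup G)).factorization p +
      (n / (p - 1) + (n / (p - 1)).factorial.factorization p) := by
  classical
  set X : Subgroup G := N ⊔ P with hX
  have hfX : Fintype X := Fintype.ofFinite X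
  have hfP : Fintype P := Fintype.ofFinite P
  have hNX : N ≤ X := le_sup_left
  have hPX : P ≤ X := le_sup_right
  have hn' : (N.subgroupOf X).Normal := by
    rw [Subgroup.normal_subgroupOf_iff_le_normalizer hNX]
    exact sup_le Subgroup.le_normalizer hPN
  obtain ⟨A, hA⟩ := IsPGroup.iff_card.mp hP
  have hcopNP : (Nat.card N).Coprime (Nat.card P) := by
    rw [hA]; exact Nat.Coprime.pow_right A hN
  have hcX : Nat.card X = Nat.card N * Nat.card P := H1.card_sup_of_coprime hPN hcopNP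
  have hcN : Nat.card (N.subgroupOf X) = Nat.card N :=
    Nat.card_congr (Subgroup.subgroupOfEquivOfLe hNX).toEquiv
  have hidx : (N.subgroupOf X).index = Nat.card P := by
    have := (N.subgroupOf X).card_mul_index
    rw [hcN, hcX] at this
    exact Nat.eq_of_mul_eq_mul_left Nat.card_pos this
  obtain ⟨χ', c1, c2, c3, c4⟩ := rt_char hn' (by rw [hcN, hidx]; exact hcopNP)
    (isChar_restrict X hχ)
  obtain ⟨n', hn'1⟩ := char_one_eq_nat c1
  have hle : n' ≤ n := c2 n n' hn hn'1
  have hρ : IsCharacter P (fun y : P => χ' (Subgroup.inclusion hPX y)) :=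
    isChar_comp c1 (Subgroup.inclusion hPX)
  have hρ1 : (fun y : P => χ' (Subgroup.inclusion hPX y)) 1 = n' := by
    simp only [map_one]
    exact hn'1
  have hgal : ∀ x : P, ∀ k : ℕ, ¬ p ∣ k →
      (fun y : P => χ' (Subgroup.inclusion hPX y)) (x ^ k) =
      (fun y : P => χ' (Subgroup.inclusion hPX y)) x := by
    intro x k hk
    obtain ⟨k', e1, e2⟩ := Nat.chineseRemainder hcopNP.symm k 1
    have e3 : k'.Coprime (Nat.card N) := by
      have := e2.gcd_eq
      rw [Nat.gcd_one_left] at this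
      exact this
    have e4 : k'.Coprime (Nat.card P) := by
      have h1 := e1.gcd_eq
      have h2 : Nat.gcd k (Nat.card P) = 1 := by
        rw [hA]
        exact Nat.Coprime.pow_right A ((Nat.Prime.coprime_iff_not_dvd hp.out).mpr hk).symm
      rw [h2] at h1
      exact h1
    have e5 : x ^ k = x ^ k' := by
      rw [pow_eq_pow_iff_modEq]
      exact (e1.of_dvd (orderOf_dvd_natCard x)).symm
    simp only
    rw [e5, map_pow]
    exact c4 _ k' (by rw [hcX]; exact Nat.Coprime.mul_right e3 e4) (by rw [hcN]; exact e2)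
  have h1 := rt_schur hP hρ hρ1 hgal
  rw [card_charKer hρ] at h1
  have hK : Nat.card (charKer hρ) ∣
      Nat.card (P ⊓ Subgroup.centralizer (N : Set G) : Subgroup G) := by
    have h2 : Nat.card ((charKer hρ).map P.subtype) = Nat.card (charKer hρ) :=
      (Nat.card_congr ((charKer hρ).equivMapOfInjective P.subtype
        P.subtype_injective).toEquiv).symm
    rw [← h2]
    apply Subgroup.card_dvd_of_le
    rintro _ ⟨y, hy, rfl⟩
    refine Subgroup.mem_inf.mpr ⟨y.2, ?_⟩
    rw [Subgroup.mem_centralizer_iff]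
    intro m hm
    have hy' : χ' (Subgroup.inclusion hPX y) = χ' 1 := by
      have := (mem_charKer hρ).mp hy
      simp only [map_one] at this
      exact this
    have hKn := charKer_normal c1
    have hm' : (⟨m, hNX hm⟩ : X) ∈ N.subgroupOf X := Subgroup.mem_subgroupOf.mpr hm
    have k1 : (Subgroup.inclusion hPX y) * (⟨m, hNX hm⟩ * (Subgroup.inclusion hPX y)⁻¹ *
        (⟨m, hNX hm⟩ : X)⁻¹) ∈ charKer c1 :=
      (charKer c1).mul_mem hy' (hKn.conj_mem _ ((charKer c1).inv_mem hy') _)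
    have k2 : ((Subgroup.inclusion hPX y) * ⟨m, hNX hm⟩ * (Subgroup.inclusion hPX y)⁻¹) *
        (⟨m, hNX hm⟩ : X)⁻¹ ∈ N.subgroupOf X :=
      (N.subgroupOf X).mul_mem (hn'.conj_mem _ hm' _) ((N.subgroupOf X).inv_mem hm')
    have k3 : (Subgroup.inclusion hPX y) * (⟨m, hNX hm⟩ * (Subgroup.inclusion hPX y)⁻¹ *
        (⟨m, hNX hm⟩ : X)⁻¹) = ((Subgroup.inclusion hPX y) * ⟨m, hNX hm⟩ *
          (Subgroup.inclusion hPX y)⁻¹) * (⟨m, hNX hm⟩ : X)⁻¹ := by group
    rw [k3] at k1
    have k4 := c3 ⟨_, k2⟩ k1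
    have k5 := hf _ (Subgroup.mem_subgroupOf.mp k2) k4
    have k6 : (y : G) * m * (y : G)⁻¹ * m⁻¹ = 1 := k5
    have k7 : (y : G) * m = m * y := by
      rw [mul_inv_eq_one, mul_inv_eq_iff_eq_mul] at k6
      exact k6
    exact k7.symm
  have h0 : Nat.card (charKer hρ) ≠ 0 := Nat.card_pos.ne'
  have hC0 : Nat.card (P ⊓ Subgroup.centralizer (N : Set G) : Subgroup G) ≠ 0 :=
    Nat.card_pos.ne'
  have hp0 : p ^ (n' / (p - 1)) ≠ 0 := pow_ne_zero _ hp.out.ne_zero
  have hf0 : (n' / (p - 1)).factorial ≠ 0 := Nat.factorial_ne_zero _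
  have hf1 : (n / (p - 1)).factorial ≠ 0 := Nat.factorial_ne_zero _
  have h2 := (Nat.factorization_le_iff_dvd Nat.card_pos.ne'
    (mul_ne_zero h0 (mul_ne_zero hp0 hf0))).mpr h1 p
  rw [Nat.factorization_mul h0 (mul_ne_zero hp0 hf0), Nat.factorization_mul hp0 hf0,
    Finsupp.add_apply, Finsupp.add_apply, hp.out.factorization_pow, Finsupp.single_eq_same] at h2
  have h3 := (Nat.factorization_le_iff_dvd h0 hC0).mpr hK p
  have h4 : n' / (p - 1) ≤ n / (p - 1) := Nat.div_le_div_right hle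
  have h5 := (Nat.factorization_le_iff_dvd hf0 hf1).mpr (Nat.factorial_dvd_factorial h4) p
  omega

omit [Fintype G] hp in
theorem mem_normalizer_of_conj_le [Finite G] {N : Subgroup G} {g : G}
    (h : ∀ x ∈ N, g * x * g⁻¹ ∈ N) : g ∈ Subgroup.normalizer (N : Set G) := by
  rw [Subgroup.mem_normalizer_iff]
  intro x
  refine ⟨h x, fun hx => ?_⟩
  have h1 : N.map (MulAut.conj g).toMonoidHom = N := by
    apply Subgroup.eq_of_le_of_card_ge
    · rintro _ ⟨y, hy, rfl⟩
      exact h y hy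
    · exact (Nat.card_congr (N.equivMapOfInjective (MulAut.conj g).toMonoidHom
        (MulAut.conj g).injective).toEquiv).le
  have h2 : g * x * g⁻¹ ∈ N.map (MulAut.conj g).toMonoidHom := by rw [h1]; exact hx
  obtain ⟨y, hy, hy2⟩ := h2
  have h3 : g * y * g⁻¹ = g * x * g⁻¹ := hy2
  have h4 : y = x := mul_left_cancel (mul_right_cancel h3)
  rw [← h4]; exact hy

theorem conj_le_of_sz {N U : Subgroup G} {L : Subgroup G} (hL : L.Normal) (hU : U.Normal)
    (hUp : IsPGroup p U) (hN : (Nat.card N).Coprime p) (hsup : U ⊔ N = L) (g : G) :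
    ∃ u ∈ U, u⁻¹ * g ∈ Subgroup.normalizer (N : Set G) := by
  have hconjc : Nat.card (N.map (MulAut.conj g).toMonoidHom) = Nat.card N :=
    (Nat.card_congr (N.equivMapOfInjective (MulAut.conj g).toMonoidHom
      (MulAut.conj g).injective).toEquiv).symm
  obtain ⟨u, hu, h1⟩ := Cfsg.Agent.H18.sz_pgroup (p := p) (N := U) (A := N)
    (B := N.map (MulAut.conj g).toMonoidHom) hUp
    (fun x _ => by
      rw [Subgroup.mem_normalizer_iff]
      intro h
      constructor
      · intro hh; exact hU.conj_mem h hh x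
      · intro hh
        have := hU.conj_mem _ hh x⁻¹
        have e : x⁻¹ * (x * h * x⁻¹) * x⁻¹⁻¹ = h := by group
        rwa [e] at this) hN (by rw [hconjc]; exact hN) (by
      rw [hsup]
      rintro _ ⟨x, hx, rfl⟩
      exact hL.conj_mem x (hsup ▸ (Subgroup.mem_sup_right hx)) g)
  refine ⟨u, hu, ?_⟩
  have h2 : ∀ x ∈ N, (u⁻¹ * g) * x * (u⁻¹ * g)⁻¹ ∈ N := by
    intro x hx
    have h3 := h1 (g * x * g⁻¹) ⟨x, hx, rfl⟩
    have e : (u⁻¹ * g) * x * (u⁻¹ * g)⁻¹ = u⁻¹ * (g * x * g⁻¹) * u := by group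
    rw [e]; exact h3
  exact Cfsg.Agent.H26.mem_normalizer_of_conj_le h2

end A

end Cfsg.Agent.H26
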