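import Mathlib
import Cfsg.Agent.H26.Rt3

set_option autoImplicit false
set_option maxHeartbeats 800000

/-!
# The index of `O_p(G)` in `p`-solvable linear groups
-/

namespace Cfsg.Agent.H26

open Cfsg Cfsg.Agent.H3 Cfsg.Agent.H11 Cfsg.Agent.H27 Finset

universe u

section A

theorem sum_floor {p : ℕ} (hp : p.Prime) (n : ℕ) :
    ∑ i ∈ Finset.range (n + 1), n / ((p - 1) * p ^ i) =
      n / (p - 1) + (n / (p - 1)).factorial.factorization p := by
  have h1 : ∀ i, n / ((p - 1) * p ^ i) = (n / (p - 1)) / p ^ i := fun i =>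
    (Nat.div_div_eq_div_mul n (p - 1) (p ^ i)).symm
  simp only [h1]
  have h2 : Nat.log p (n / (p - 1)) < n + 1 :=
    ((Nat.log_le_self p _).trans (Nat.div_le_self n (p - 1))).trans_lt (Nat.lt_succ_self n)
  rw [Nat.factorization_factorial hp h2, Finset.range_eq_Ico,
    Finset.sum_eq_sum_Ico_succ_bot (Nat.succ_pos n)]
  simp

variable {G : Type u} [Group G] [Finite G]

theorem st4472 (χ : G → ℂ) (hχ : IsCharacter G χ) (hfaith : ∀ g : G, χ g = χ 1 → g = 1)
    (n : ℕ) (hn : charDegree χ = n) (p : ℕ) (hp : p.Prime) (hsolv : IsPSolvable p G) :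
    ((pCore p G).index).factorization p ≤ ∑ i ∈ Finset.range (n + 1), n / ((p - 1) * p ^ i) := by
  classical
  have := Fact.mk hp
  have := Fintype.ofFinite G
  rw [sum_floor hp]
  have hn' : χ 1 = n := by rw [← hn, charDegree_cast hχ]
  set U := pCore p G with hU
  have hUp : IsPGroup p U := H1.pCore_isPGroup p G
  have hUn : U.Normal := H1.pCore_normal p G
  set R := pPrimeCore p (G ⧸ U) with hR
  have hRc : (Nat.card R).Coprime p := H1.pPrimeCore_coprime p (G ⧸ U)
  have hRn : R.Normal := inferInstance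
  have hpq : IsPSolvable p (G ⧸ U) := H23.isPSolvable_quotient U hsolv
  have hCR : Subgroup.centralizer (R : Set (G ⧸ U)) ≤ R :=
    H23.centralizer_pPrimeCore_le hpq (H18.pCore_quotient_pCore)
  set L := R.comap (QuotientGroup.mk' U) with hL
  have hLn : L.Normal := hRn.comap _
  have hUL : U ≤ L := by
    intro x hx
    rw [hL, Subgroup.mem_comap]
    have : QuotientGroup.mk' U x = 1 := (QuotientGroup.eq_one_iff x).mpr hx
    rw [this]; exact R.one_mem
  have hUL' : (U.subgroupOf L).Normal := hUn.subgroupOf L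
  have hidxL : (U.subgroupOf L).index = Nat.card R := by
    have h1 : U.relIndex L = Nat.card R := by
      have h2 : (⊥ : Subgroup (G ⧸ U)).comap (QuotientGroup.mk' U) = U := by
        rw [MonoidHom.comap_bot, QuotientGroup.ker_mk']
      have h3 := Subgroup.relIndex_comap (⊥ : Subgroup (G ⧸ U)) (QuotientGroup.mk' U) L
      rw [h2] at h3
      rw [h3, hL, Subgroup.map_comap_eq_self_of_surjective
        (QuotientGroup.mk'_surjective U), Subgroup.relIndex_bot_left]
    exact h1
  obtain ⟨B, hB⟩ := IsPGroup.iff_card.mp hUp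
  have hcU : Nat.card (U.subgroupOf L) = p ^ B := by
    rw [← hB]
    exact Nat.card_congr (Subgroup.subgroupOfEquivOfLe hUL).toEquiv
  obtain ⟨N', hN'⟩ := Subgroup.exists_right_complement'_of_coprime (N := U.subgroupOf L) (by
    rw [hcU, hidxL]
    exact (Nat.Coprime.pow_right B hRc).symm)
  set N := N'.map L.subtype with hN
  have hcN : Nat.card N = Nat.card R := by
    have h1 : Nat.card N = Nat.card N' :=
      (Nat.card_congr (N'.equivMapOfInjective L.subtype L.subtype_injective).toEquiv).symm
    have h2 := hN'.card_mul_card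
    have h3 := (U.subgroupOf L).card_mul_index
    rw [hidxL, ← h2] at h3
    rw [h1]
    exact (Nat.eq_of_mul_eq_mul_left Nat.card_pos h3).symm
  have hNL : N ≤ L := Subgroup.map_subtype_le N'
  have hsup : U ⊔ N = L := by
    apply le_antisymm (sup_le hUL hNL)
    intro x hx
    have h1 : (⟨x, hx⟩ : L) ∈ (U.subgroupOf L) ⊔ N' := by
      rw [hN'.sup_eq_top]; exact Subgroup.mem_top _
    obtain ⟨u, hu, m, hm, h2⟩ := Subgroup.mem_sup_of_normal_left.mp h1
    have h3 : x = (u : G) * m := (congrArg Subtype.val h2).symm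
    rw [h3]
    exact Subgroup.mul_mem_sup (Subgroup.mem_subgroupOf.mp hu) ⟨m, hm, rfl⟩
  have hNc : (Nat.card N).Coprime p := by rw [hcN]; exact hRc
  set W := Subgroup.normalizer (N : Set G) with hW
  have hUW : U ⊔ W = ⊤ := by
    rw [eq_top_iff]
    intro g _
    obtain ⟨u, hu, h1⟩ := conj_le_of_sz (p := p) hLn hUn hUp hNc hsup g
    have h2 : g = u * (u⁻¹ * g) := by group
    rw [h2]
    exact Subgroup.mul_mem_sup hu h1
  -- Sylow subgroup of W
  obtain ⟨S⟩ : Nonempty (Sylow p W) := inferInstance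
  set P := (S : Subgroup W).map W.subtype with hP
  have hPp : IsPGroup p P := S.isPGroup'.map _
  have hPW : P ≤ W := Subgroup.map_subtype_le _
  have hcP : Nat.card P = p ^ (Nat.card W).factorization p := by
    rw [← Sylow.card_eq_multiplicity S]
    exact (Nat.card_congr ((S : Subgroup W).equivMapOfInjective W.subtype
      W.subtype_injective).toEquiv).symm
  have hb := rt_bound hPp hPW hNc hχ (fun x _ h => hfaith x h) hn'
  -- the index
  have hidx : U.index = U.relIndex W := by
    rw [← Subgroup.relIndex_top_right, ← hUW, Subgroup.relIndex_sup_left]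
  have hcard : Nat.card W = U.index * Nat.card (U ⊓ W : Subgroup G) := by
    have h1 := (U.subgroupOf W).card_mul_index
    have h2 : (U.subgroupOf W).index = U.index := hidx.symm
    have h3 : Nat.card (U.subgroupOf W) = Nat.card (U ⊓ W : Subgroup G) := by
      rw [← Subgroup.inf_subgroupOf_right]
      exact Nat.card_congr (Subgroup.subgroupOfEquivOfLe inf_le_right).toEquiv
    rw [h2, h3] at h1
    rw [← h1, mul_comm]
  have hC : (P ⊓ Subgroup.centralizer (N : Set G) : Subgroup G) ≤ U ⊓ W := by
    rintro x ⟨hxP, hxC⟩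
    refine ⟨?_, hPW hxP⟩
    have h1 : QuotientGroup.mk' U x ∈ Subgroup.centralizer (R : Set (G ⧸ U)) := by
      rw [Subgroup.mem_centralizer_iff]
      intro r hr
      obtain ⟨g, rfl⟩ := QuotientGroup.mk'_surjective U r
      have hg : g ∈ L := hr
      rw [← hsup] at hg
      obtain ⟨u, hu, m, hm, rfl⟩ := Subgroup.mem_sup_of_normal_left.mp hg
      have h2 : QuotientGroup.mk' U u = 1 := (QuotientGroup.eq_one_iff u).mpr hu
      rw [map_mul, h2, one_mul, ← map_mul, ← map_mul]
      congr 1
      exact (Subgroup.mem_centralizer_iff.mp hxC) m hm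
    have h2 : QuotientGroup.mk' U x ∈ R := hCR h1
    obtain ⟨k, hk⟩ := IsPGroup.iff_orderOf.mp hPp ⟨x, hxP⟩
    rw [← Subgroup.orderOf_coe] at hk
    have h3 : orderOf (QuotientGroup.mk' U x) ∣ p ^ k := by
      have := orderOf_map_dvd (QuotientGroup.mk' U) x
      rwa [hk] at this
    have h4 : orderOf (QuotientGroup.mk' U x) ∣ Nat.card R := Subgroup.orderOf_dvd_natCard R h2
    have h5 : orderOf (QuotientGroup.mk' U x) = 1 :=
      Nat.eq_one_of_dvd_coprimes (Nat.Coprime.pow_right k hRc) h4 h3
    exact (QuotientGroup.eq_one_iff x).mp (orderOf_eq_one_iff.mp h5)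
  have hU0 : U.index ≠ 0 := Subgroup.index_ne_zero_of_finite
  have hI0 : Nat.card (U ⊓ W : Subgroup G) ≠ 0 := Nat.card_pos.ne'
  have hC0 : Nat.card (P ⊓ Subgroup.centralizer (N : Set G) : Subgroup G) ≠ 0 :=
    Nat.card_pos.ne'
  have h1 : (Nat.card P).factorization p = U.index.factorization p +
      (Nat.card (U ⊓ W : Subgroup G)).factorization p := by
    rw [hcP, hp.factorization_pow, Finsupp.single_eq_same, hcard, Nat.factorization_mul hU0 hI0,
      Finsupp.add_apply]
  have h2 := (Nat.factorization_le_iff_dvd hC0 hI0).mpr (Subgroup.card_dvd_of_le hC) p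
  omega

end A

end Cfsg.Agent.H26
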