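import Mathlib
import Cfsg.Agent.H26.Dih7
import Cfsg.Agent.H4.ZChar

set_option autoImplicit false

/-!
# The principal block for a Klein four Sylow subgroup: the four characters
-/

namespace Cfsg.Agent.H26

open Cfsg Cfsg.Agent.H3 Cfsg.Agent.H11 Cfsg.Agent.H27 Finset
open scoped ComplexConjugate

universe u

section St

variable {G : Type u} [Group G] [Finite G]

theorem klein_mod_four (P : Sylow 2 G) (hP : IsKleinFour (P : Subgroup G))
    (hone : ∀ s t : G, orderOf s = 2 → orderOf t = 2 → IsConj s t) {χ : G → ℂ}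
    (hχ : IsCharacter G χ) {J : G} (hJ : orderOf J = 2) {n d : ℤ} (hn : χ J = n) (hd : χ 1 = d) :
    (4 : ℤ) ∣ d - n := by
  classical
  have := Fintype.ofFinite G
  have := Fintype.ofFinite (P : Subgroup G)
  obtain ⟨k, hk⟩ := classInner_char_nat (isChar_restrict (P : Subgroup G) hχ)
    (isChar_one (G := (P : Subgroup G)))
  unfold classInner at hk
  have h1 : ∀ x : (P : Subgroup G), x ≠ 1 → χ (x : G) = n := by
    intro x hx
    have h2 : orderOf (x : G) = 2 := by
      apply orderOf_eq_prime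
      · rw [sq]; exact H4.klein_mul_self hP x.2
      · exact fun h => hx (Subtype.ext h)
    obtain ⟨c, hc⟩ := isConj_iff.mp (hone J x hJ h2)
    rw [← hc, char_classFun hχ J c, hn]
  have h2 : ∑ x : (P : Subgroup G), χ (x : G) * conj ((1 : ℂ)) = d + 3 * n := by
    rw [← Finset.add_sum_erase _ _ (Finset.mem_univ (1 : (P : Subgroup G)))]
    have h3 : ∑ x ∈ univ.erase (1 : (P : Subgroup G)), χ (x : G) * conj ((1 : ℂ)) = 3 * n := by
      rw [Finset.sum_congr rfl fun x hx => by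
        rw [h1 x (Finset.ne_of_mem_erase hx), map_one, mul_one]]
      rw [Finset.sum_const, Finset.card_erase_of_mem (Finset.mem_univ _), Finset.card_univ,
        ← Nat.card_eq_fintype_card, hP.card_four, nsmul_eq_mul]
      norm_num
    rw [h3, map_one, mul_one, Subgroup.coe_one, hd]
  have h3 : (4 : ℂ)⁻¹ * (d + 3 * n) = k := by
    rw [← h2, ← hk, hP.card_four]
    norm_num
  have h4 : (d : ℂ) + 3 * n = 4 * k := by
    rw [← h3]; ring
  have h5 : d + 3 * n = 4 * (k : ℤ) := by exact_mod_cast h4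
  exact ⟨(k : ℤ) - n, by linarith⟩

theorem st0948 (M : Ideal AlgInt) (hM : IsPModular 2 M) (P : Sylow 2 G)
    (hP : IsKleinFour (P : Subgroup G))
    (hone : ∀ s t : G, orderOf s = 2 → orderOf t = 2 → IsConj s t) :
    ∃ ζ₂ ζ₃ ζ₄ : IrrCharacter G, ∃ ε : ℤ, (ε = 1 ∨ ε = -1) ∧ (ζ₂ : G → ℂ) ≠ (fun _ => 1) ∧
      (ζ₃ : G → ℂ) ≠ (fun _ => 1) ∧ ζ₂ ≠ ζ₃ ∧ ζ₂ ≠ ζ₄ ∧ ζ₃ ≠ ζ₄ ∧
      principalBlock M G = {χ : IrrCharacter G | (χ : G → ℂ) = (fun _ => 1) ∨ χ = ζ₂ ∨
        χ = ζ₃ ∨ χ = ζ₄} ∧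
      (∀ z : G, orderOf z = 2 → (ζ₂ : G → ℂ) z = 1 ∧ (ζ₃ : G → ℂ) z = (ε : ℂ) ∧
        (ζ₄ : G → ℂ) z = -1) ∧
      (4 : ℤ) ∣ (charDegree (ζ₂ : G → ℂ) : ℤ) - 1 ∧ (4 : ℤ) ∣ (charDegree (ζ₃ : G → ℂ) : ℤ) - ε ∧
      (4 : ℤ) ∣ (charDegree (ζ₄ : G → ℂ) : ℤ) + 1 ∧
      ∀ y : G, Odd (orderOf y) →
        1 + (ζ₂ : G → ℂ) y + (ε : ℂ) * (ζ₃ : G → ℂ) y - (ζ₄ : G → ℂ) y = 0 := by
  classical
  have hp2 : Fact (Nat.Prime 2) := ⟨Nat.prime_two⟩
  have := Fintype.ofFinite G
  have := Fintype.ofFinite (IrrCharacter G)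
  have := pmod_isPrime hM
  have hB : IsPBlock M (principalBlock M G) := H26.isPBlock_principal G
  have hD : IsDefectGroup 2 M (principalBlock M G) (P : Subgroup G) :=
    (st4652 2 M hM _).mpr ⟨P, rfl⟩
  have hcardP := hP.card_four
  have hdef : blockDefect 2 (principalBlock M G) = 2 := by
    have h1 := card_defect hM hB hD
    rw [hcardP] at h1
    have h2 : (2 : ℕ) ^ 2 = 2 ^ blockDefect 2 (principalBlock M G) := by rw [← h1]; norm_num
    exact (Nat.pow_right_injective le_rfl h2).symm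
  have hk := card_eq_four hM hB hdef
  obtain ⟨J, hJP, hJ1⟩ : ∃ J ∈ (P : Subgroup G), J ≠ 1 := by
    have : Nontrivial (P : Subgroup G) := by
      rw [← Finite.one_lt_card_iff_nontrivial, hcardP]; norm_num
    obtain ⟨u, hu⟩ := exists_ne (1 : (P : Subgroup G))
    exact ⟨u, u.2, fun h => hu (Subtype.ext h)⟩
  have hJJ := H4.klein_mul_self hP hJP
  have hJ2 : orderOf J = 2 := orderOf_eq_prime (by rw [sq]; exact hJJ) hJ1
  have hJinv : J⁻¹ = J := inv_eq_of_mul_eq_one_left hJJ
  -- heights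
  let one : IrrCharacter G := ⟨fun _ => 1, isIrr_one⟩
  have hone' : ((one : IrrCharacter G) : G → ℂ) = fun _ => 1 := rfl
  have honeB : one ∈ principalBlock M G := trv_mem G
  have hodd : ∀ χ ∈ principalBlock M G, Odd (charDegree (χ : G → ℂ)) := by
    intro χ hχ
    have h1 : blockHeight 2 (principalBlock M G) (χ : G → ℂ) = 0 := by
      by_contra h
      have := (height_bound hM hB hχ h).1
      omega
    unfold blockHeight at h1
    have h2 : sInf ((fun ψ : IrrCharacter G => (charDegree (ψ : G → ℂ)).factorization 2) ''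
        principalBlock M G) = 0 := by
      rw [Nat.sInf_eq_zero]
      left
      refine ⟨one, honeB, ?_⟩
      have : charDegree ((one : IrrCharacter G) : G → ℂ) = 1 := by
        have h3 : (1 : ℂ) = (charDegree ((one : IrrCharacter G) : G → ℂ) : ℂ) :=
          (charDegree_spec one.2).1
        exact_mod_cast h3.symm
      simp only [this, Nat.factorization_one, Finsupp.coe_zero, Pi.zero_apply]
    rw [h2, Nat.sub_zero] at h1
    rw [← Nat.not_even_iff_odd, even_iff_two_dvd]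
    intro h3
    have := (Nat.Prime.dvd_iff_one_le_factorization Nat.prime_two (charDegree_spec χ.2).2).mp h3
    omega
  -- values
  have hval : ∀ χ : IrrCharacter G, ∃ n : ℤ, (χ : G → ℂ) J = n ∧
      (2 : ℤ) ∣ (charDegree (χ : G → ℂ) : ℤ) - n := fun χ =>
    char_involution (irr_isChar χ.2) hJ2
  choose nn hn1 hn2 using hval
  have hnodd : ∀ χ ∈ principalBlock M G, 1 ≤ nn χ ^ 2 := by
    intro χ hχ
    have h1 := hodd χ hχ
    rw [Nat.odd_iff] at h1
    have h2 := hn2 χ
    have h3 : nn χ ≠ 0 := by omega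
    have := sq_pos_of_ne_zero h3
    omega
  -- centralizer of J
  have hVe : Nonempty ((P : Subgroup G) ≃* DihedralGroup 2) := IsKleinFour.nonempty_mulEquiv
  obtain ⟨N, hN, hNodd, l, hl⟩ := Cfsg.Agent.S0514.result P 2 le_rfl hVe J hJ2
  have hN2 : ¬ 2 ∣ Nat.card N := by
    rw [← even_iff_two_dvd, Nat.not_even_iff_odd]; exact hNodd
  have hPC : (P : Subgroup G) ≤ Subgroup.centralizer ({J} : Set G) := by
    intro x hx
    rw [Subgroup.mem_centralizer_singleton_iff]
    exact H4.klein_comm hP x hx J hJP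
  have hl2 : (2 : ℕ) ^ l = 4 := by
    have h1 := N.index_mul_card
    rw [hl] at h1
    have h2 : (P : Subgroup G).relIndex (Subgroup.centralizer ({J} : Set G)) *
        Nat.card (P : Subgroup G) = Nat.card (Subgroup.centralizer ({J} : Set G)) := by
      have := Subgroup.card_mul_index ((P : Subgroup G).subgroupOf
        (Subgroup.centralizer ({J} : Set G)))
      rw [Nat.card_congr (Subgroup.subgroupOfEquivOfLe hPC).toEquiv, mul_comm] at this
      exact this
    have h3 : ¬ 2 ∣ (P : Subgroup G).relIndex (Subgroup.centralizer ({J} : Set G)) := by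
      intro h0
      exact P.not_dvd_index (h0.trans (Subgroup.relIndex_dvd_index_of_le hPC))
    rw [← h1, hcardP] at h2
    have h4 : (4 : ℕ) ∣ 2 ^ l := by
      have h5 : Nat.Coprime 4 (Nat.card N) := by
        have : Nat.Coprime (2 ^ 2) (Nat.card N) :=
          Nat.Coprime.pow_left 2 ((Nat.Prime.coprime_iff_not_dvd Nat.prime_two).mpr hN2)
        exact this
      exact h5.dvd_of_dvd_mul_right ⟨_, by rw [← h2, mul_comm]⟩
    have h6 : (2 : ℕ) ^ l ∣ 4 := by
      have h7 : Nat.Coprime (2 ^ l) ((P : Subgroup G).relIndex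
          (Subgroup.centralizer ({J} : Set G))) :=
        Nat.Coprime.pow_left l ((Nat.Prime.coprime_iff_not_dvd Nat.prime_two).mpr h3)
      exact h7.dvd_of_dvd_mul_left ⟨_, h2⟩
    exact Nat.dvd_antisymm h6 h4
  have hsq : ∑ χ ∈ univ.filter (· ∈ principalBlock M G), nn χ ^ 2 = 4 := by
    have h1 := H4.principal_sum_sq_eq hM (v := J) (k := 1) (by rw [hJ2, pow_one]) N hN2 hl
    rw [finsum_mem_irr _ (fun ζ : IrrCharacter G => (ζ : G → ℂ) J * conj ((ζ : G → ℂ) J))] at h1
    have h2 : ∀ χ : IrrCharacter G, (χ : G → ℂ) J * conj ((χ : G → ℂ) J) =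
        ((nn χ ^ 2 : ℤ) : ℂ) := by
      intro χ
      rw [hn1, map_intCast]; push_cast; ring
    rw [Finset.sum_congr rfl fun χ _ => h2 χ] at h1
    have h3 : ((2 : ℂ) ^ l) = 4 := by exact_mod_cast hl2
    rw [h3] at h1
    exact_mod_cast h1
  have hcardB : (univ.filter (· ∈ principalBlock M G)).card = 4 := by
    rw [← natCard_block, hk]
  have hn1sq : ∀ χ ∈ principalBlock M G, nn χ = 1 ∨ nn χ = -1 := by
    intro χ hχ
    have h1 : ∑ ψ ∈ univ.filter (· ∈ principalBlock M G), (nn ψ ^ 2 - 1) = 0 := by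
      rw [Finset.sum_sub_distrib, hsq, Finset.sum_const, hcardB]; norm_num
    have h2 := (Finset.sum_eq_zero_iff_of_nonneg (fun ψ hψ => by
      have := hnodd ψ (Finset.mem_filter.mp hψ).2
      omega)).mp h1 χ (Finset.mem_filter.mpr ⟨Finset.mem_univ _, hχ⟩)
    have h3 : (nn χ - 1) * (nn χ + 1) = 0 := by linarith [h2, sq (nn χ)]
    rcases mul_eq_zero.mp h3 with h | h
    · left; omega
    · right; omega
  -- list the members
  have honef : one ∈ univ.filter (· ∈ principalBlock M G) :=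
    Finset.mem_filter.mpr ⟨Finset.mem_univ _, honeB⟩
  have hcard3 : ((univ.filter (· ∈ principalBlock M G)).erase one).card = 3 := by
    rw [Finset.card_erase_of_mem honef, hcardB]
  obtain ⟨a, b, c, hab, hac, hbc, habc⟩ := Finset.card_eq_three.mp hcard3
  have hmem : ∀ χ : IrrCharacter G, χ ∈ principalBlock M G ↔
      (χ = one ∨ χ = a ∨ χ = b ∨ χ = c) := by
    intro χ
    have h1 : χ ∈ (univ.filter (· ∈ principalBlock M G)).erase one ↔
        χ ∈ ({a, b, c} : Finset (IrrCharacter G)) := by rw [habc]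
    rw [Finset.mem_erase, Finset.mem_filter, Finset.mem_insert, Finset.mem_insert,
      Finset.mem_singleton] at h1
    constructor
    · intro h
      by_cases h2 : χ = one
      · exact Or.inl h2
      · exact Or.inr (h1.mp ⟨h2, Finset.mem_univ _, h⟩)
    · rintro (h | h)
      · rw [h]; exact honeB
      · exact (h1.mpr h).2.2
  have hne : ∀ χ : IrrCharacter G, (χ = a ∨ χ = b ∨ χ = c) → χ ≠ one := by
    intro χ hχ
    have h1 : χ ∈ (univ.filter (· ∈ principalBlock M G)).erase one := by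
      rw [habc, Finset.mem_insert, Finset.mem_insert, Finset.mem_singleton]; exact hχ
    exact (Finset.mem_erase.mp h1).1
  -- main claim
  have key : ∀ a b c : IrrCharacter G, a ≠ b → a ≠ c → b ≠ c → a ≠ one → b ≠ one → c ≠ one →
      (∀ χ : IrrCharacter G, χ ∈ principalBlock M G ↔ (χ = one ∨ χ = a ∨ χ = b ∨ χ = c)) →
      nn a = 1 → nn c = -1 → ∃ ζ₂ ζ₃ ζ₄ : IrrCharacter G, ∃ ε : ℤ, (ε = 1 ∨ ε = -1) ∧
      (ζ₂ : G → ℂ) ≠ (fun _ => 1) ∧
      (ζ₃ : G → ℂ) ≠ (fun _ => 1) ∧ ζ₂ ≠ ζ₃ ∧ ζ₂ ≠ ζ₄ ∧ ζ₃ ≠ ζ₄ ∧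
      principalBlock M G = {χ : IrrCharacter G | (χ : G → ℂ) = (fun _ => 1) ∨ χ = ζ₂ ∨
        χ = ζ₃ ∨ χ = ζ₄} ∧
      (∀ z : G, orderOf z = 2 → (ζ₂ : G → ℂ) z = 1 ∧ (ζ₃ : G → ℂ) z = (ε : ℂ) ∧
        (ζ₄ : G → ℂ) z = -1) ∧
      (4 : ℤ) ∣ (charDegree (ζ₂ : G → ℂ) : ℤ) - 1 ∧ (4 : ℤ) ∣ (charDegree (ζ₃ : G → ℂ) : ℤ) - ε ∧
      (4 : ℤ) ∣ (charDegree (ζ₄ : G → ℂ) : ℤ) + 1 ∧
      ∀ y : G, Odd (orderOf y) →
        1 + (ζ₂ : G → ℂ) y + (ε : ℂ) * (ζ₃ : G → ℂ) y - (ζ₄ : G → ℂ) y = 0 := by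
    intro a b c hab hac hbc ha hb hc hmem hna hnc
    have hbB : b ∈ principalBlock M G := (hmem b).mpr (Or.inr (Or.inr (Or.inl rfl)))
    have hcf : ∀ (χ : IrrCharacter G) (z : G), orderOf z = 2 → (χ : G → ℂ) z = nn χ := by
      intro χ z hz
      obtain ⟨x, hx⟩ := isConj_iff.mp (hone J z hJ2 hz)
      rw [← hx, irr_classFun χ.2 J x, hn1]
    have h4 : ∀ χ : IrrCharacter G, (4 : ℤ) ∣ (charDegree (χ : G → ℂ) : ℤ) - nn χ := by
      intro χ
      apply klein_mod_four P hP hone (irr_isChar χ.2) hJ2 (hn1 χ)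
      rw [(charDegree_spec χ.2).1]; norm_cast
    refine ⟨a, b, c, nn b, hn1sq b hbB, fun h => ha (Subtype.ext h), fun h => hb (Subtype.ext h),
      hab, hac, hbc, ?_, ?_, ?_, h4 b, ?_, ?_⟩
    · ext χ
      rw [hmem, Set.mem_setOf_eq]
      constructor
      · rintro (h | h)
        · exact Or.inl (by rw [h])
        · exact Or.inr h
      · rintro (h | h)
        · exact Or.inl (Subtype.ext h)
        · exact Or.inr h
    · intro z hz
      refine ⟨by rw [hcf a z hz, hna]; norm_num, hcf b z hz, by rw [hcf c z hz, hnc]; norm_num⟩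
    · have := h4 a; rwa [hna] at this
    · have := h4 c; rw [hnc] at this; simpa using this
    · intro y hy
      have h1 := block_orthogonality hM (g := y) (h := J) (x := 1) (y := J)
        (isPPart_one_of_pRegular Nat.prime_two (by
          rw [← even_iff_two_dvd, Nat.not_even_iff_odd]; exact hy))
        (H11.isPPart_self Nat.prime_two (k := 1) (by rw [hJ2, pow_one]))
        (fun h => hJ1 (by
          obtain ⟨x, hx⟩ := isConj_iff.mp h
          rw [← hx]; group)) hB
      rw [finsum_mem_irr _ (fun χ : IrrCharacter G => (χ : G → ℂ) y * (χ : G → ℂ) J⁻¹), hJinv] at h1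
      have h2 : univ.filter (· ∈ principalBlock M G) = {one, a, b, c} := by
        ext χ
        rw [Finset.mem_filter, hmem]
        simp
      rw [h2, Finset.sum_insert (by simp [ha.symm, hb.symm, hc.symm]),
        Finset.sum_insert (by simp [hab, hac]), Finset.sum_insert (by simp [hbc]),
        Finset.sum_singleton, hn1 a, hn1 b, hn1 c, hna, hnc, hone'] at h1
      push_cast at h1
      linear_combination h1
  -- degree relation
  have hrel : 1 + nn a * (charDegree (a : G → ℂ) : ℤ) + nn b * (charDegree (b : G → ℂ) : ℤ) +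
      nn c * (charDegree (c : G → ℂ) : ℤ) = 0 := by
    have h1 := block_orthogonality hM (g := 1) (h := J) (x := 1) (y := J)
        (isPPart_one_of_pRegular Nat.prime_two (by rw [orderOf_one]; norm_num))
        (H11.isPPart_self Nat.prime_two (k := 1) (by rw [hJ2, pow_one]))
        (fun h => hJ1 (by
          obtain ⟨x, hx⟩ := isConj_iff.mp h
          rw [← hx]; group)) hB
    rw [finsum_mem_irr _ (fun χ : IrrCharacter G => (χ : G → ℂ) 1 * (χ : G → ℂ) J⁻¹), hJinv] at h1
    have h2 : univ.filter (· ∈ principalBlock M G) = {one, a, b, c} := by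
      ext χ
      rw [Finset.mem_filter, hmem]
      simp
    have ha := hne a (Or.inl rfl)
    have hb := hne b (Or.inr (Or.inl rfl))
    have hc := hne c (Or.inr (Or.inr rfl))
    rw [h2, Finset.sum_insert (by simp [ha.symm, hb.symm, hc.symm]),
      Finset.sum_insert (by simp [hab, hac]), Finset.sum_insert (by simp [hbc]),
      Finset.sum_singleton, hn1 a, hn1 b, hn1 c, hone', (charDegree_spec a.2).1,
      (charDegree_spec b.2).1, (charDegree_spec c.2).1] at h1
    have h3 : (1 : ℂ) + nn a * (charDegree (a : G → ℂ) : ℤ) + nn b * (charDegree (b : G → ℂ) : ℤ) +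
      nn c * (charDegree (c : G → ℂ) : ℤ) = 0 := by
      push_cast
      linear_combination h1
    exact_mod_cast h3
  have hpa := (charDegree_spec a.2).2
  have hpb := (charDegree_spec b.2).2
  have hpc := (charDegree_spec c.2).2
  have ha := hne a (Or.inl rfl)
  have hb := hne b (Or.inr (Or.inl rfl))
  have hc := hne c (Or.inr (Or.inr rfl))
  have haB := hn1sq a ((hmem a).mpr (Or.inr (Or.inl rfl)))
  have hbB := hn1sq b ((hmem b).mpr (Or.inr (Or.inr (Or.inl rfl))))
  have hcB := hn1sq c ((hmem c).mpr (Or.inr (Or.inr (Or.inr rfl))))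
  rcases haB with h1 | h1 <;> rcases hbB with h2 | h2 <;> rcases hcB with h3 | h3
  · exfalso; rw [h1, h2, h3] at hrel; omega
  · exact key a b c hab hac hbc ha hb hc hmem h1 h3
  · exact key a c b hac hab hbc.symm ha hc hb (fun χ => by rw [hmem]; tauto) h1 h2
  · exact key a b c hab hac hbc ha hb hc hmem h1 h3
  · exact key b c a hbc hab.symm hac.symm hb hc ha (fun χ => by rw [hmem]; tauto) h2 h1
  · exact key b c a hbc hab.symm hac.symm hb hc ha (fun χ => by rw [hmem]; tauto) h2 h1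
  · exact key c b a hbc.symm hac.symm hab.symm hc hb ha (fun χ => by rw [hmem]; tauto) h3 h1
  · exfalso; rw [h1, h2, h3] at hrel; omega

end St

end Cfsg.Agent.H26
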