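import Mathlib
import Cfsg.Agent.H26.Pl1
import Cfsg.Agent.H27.Md24
import Cfsg.Agent.H26.Pairing
import Cfsg.Agent.H26.Alpha

set_option autoImplicit false
set_option maxHeartbeats 800000
set_option linter.style.haveILetI false

/-!
# The sum of the squares of the degrees in a block
-/

namespace Cfsg.Agent.H26

open Module Cfsg Cfsg.Agent.H11 Cfsg.Agent.H3 Matrix
open Cfsg.Agent.H27.Md
open scoped ComplexConjugate

universe u

section A

variable {G : Type u} [Group G] [Fintype G] {M : Ideal AlgInt} [hM : M.IsPrime] {p : ℕ}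
  [hp : Fact p.Prime]

/-- Common divisors of the degrees divide the ranks of the block idempotent. -/
theorem pd_gcd_dvd (D : PD G M) (hMp : IsPModular p M) {B : Set (IrrCharacter G)}
    (hB : IsPBlock M B) {g : ℕ} (hg0 : 0 < g) (hg : ∀ χ ∈ B, g ∣ charDegree (χ : G → ℂ))
    (i : Fin D.n) : g ∣ D.r (EG M B) i := by
  classical
  haveI := Fintype.ofFinite (IrrCharacter G)
  let w : IrrCharacter G → ℕ := fun χ => charDegree (χ : G → ℂ) / g
  have hw : ∀ χ ∈ B, charDegree (χ : G → ℂ) = g * w χ := fun χ hχ =>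
    (Nat.mul_div_cancel' (hg χ hχ)).symm
  let ψ : G → ℂ := ∑ χ : IrrCharacter G with χ ∈ B, ((w χ : ℤ) : ℂ) • (χ : G → ℂ)
  have hψ : IsGeneralizedCharacter G ψ := H27.Md.isGen_sum _ _ fun χ _ =>
    isGen_intCast_smul _ (isGen_of_irr χ.2)
  have hψ0 : ∀ x, p ∣ orderOf x → ψ x = 0 := by
    intro x hx
    have h1 := blockCoeff_eq_zero hMp hB x⁻¹ (by rwa [orderOf_inv])
    unfold blockCoeff at h1
    rw [finsum_mem_irr, mul_eq_zero] at h1
    have h2 := h1.resolve_left (inv_ne_zero (by exact_mod_cast Nat.card_pos.ne'))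
    have h3 : (g : ℂ) * ψ x = 0 := by
      rw [← h2]
      simp only [ψ]
      rw [Finset.sum_apply, Finset.mul_sum]
      apply Finset.sum_congr rfl
      intro χ hχ
      rw [← H27.charDegree_cast (irr_isChar χ.2), hw χ (Finset.mem_filter.mp hχ).2,
        char_inv (irr_isChar χ.2), Complex.conj_conj, Pi.smul_apply, smul_eq_mul]
      push_cast
      ring
    exact (mul_eq_zero.mp h3).resolve_left (by exact_mod_cast hg0.ne')
  obtain ⟨a, ha⟩ := D.gen_coef hMp hψ hψ0
  have hψi : ∀ χ : IrrCharacter G, classInner ψ (χ : G → ℂ) =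
      ((if χ ∈ B then (w χ : ℤ) else 0 : ℤ) : ℂ) := by
    intro χ
    simp only [ψ]
    rw [classInner_sum_left]
    simp only [classInner_smul_left, classInner_irr', mul_ite, mul_one, mul_zero]
    rw [Finset.sum_ite_eq']
    simp
  have ha' : ∀ χ : IrrCharacter G, ∑ i, a i * (vl (D.X i) χ : ℤ) =
      if χ ∈ B then (w χ : ℤ) else 0 := by
    intro χ
    have h1 := ha χ
    rw [hψi χ] at h1
    exact_mod_cast h1.symm
  have hr : ∀ χ : IrrCharacter G, ∑ i, (D.r (EG M B) i : ℤ) * (vl (D.X i) χ : ℤ) =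
      (g : ℤ) * if χ ∈ B then (w χ : ℤ) else 0 := by
    intro χ
    have h1 := D.thmK (EB_idem hB) χ
    rw [redG_EB, vl_EB] at h1
    have h2 : ∑ i, (D.r (EG M B) i : ℤ) * (vl (D.X i) χ : ℤ) =
        ((∑ i, D.r (EG M B) i * vl (D.X i) χ : ℕ) : ℤ) := by push_cast; rfl
    rw [h2, ← h1]
    split_ifs with h
    · rw [hw χ h]; push_cast; ring
    · simp
  have hai : ∀ i, (g : ℤ) * a i = D.r (EG M B) i := by
    intro i
    have h1 := D.indep hMp (fun i => (g : ℤ) * a i - D.r (EG M B) i) (fun χ => by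
      simp only [sub_mul, Finset.sum_sub_distrib]
      rw [hr χ, ← ha' χ, Finset.mul_sum, sub_eq_zero]
      exact Finset.sum_congr rfl fun i _ => by ring) i
    exact sub_eq_zero.mp h1
  exact Int.natCast_dvd_natCast.mp ⟨a i, (hai i).symm⟩

/-- The degrees of the projective indecomposable characters. -/
theorem pd_phi_dvd [Fintype (IrrCharacter G)] (D : PD G M) (hMp : IsPModular p M) (i : Fin D.n) :
    p ^ (Nat.card G).factorization p ∣
      ∑ χ : IrrCharacter G, charDegree (χ : G → ℂ) * vl (D.X i) χ := by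
  have := charP_KF hMp
  obtain ⟨P⟩ : Nonempty (Sylow p G) := inferInstance
  have h1 := cform (M := M) (x := (1 : MonoidAlgebra (locRing M) G)) (y := D.X i)
    (by rw [mul_one]) (D.idem i)
  simp only [vl_one] at h1
  rw [map_one] at h1
  rw [← h1]
  exact sylow_dvd (P : Subgroup G) P.card_eq_multiplicity
    (by rw [← map_mul, D.idem])

/-- The block rank is at most the number of simple modules in the block. -/
theorem blockRank_le_pd (D : PD G M) (hMp : IsPModular p M) {B : Set (IrrCharacter G)}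
    (hB : IsPBlock M B) :
    blockRank p B ≤ (Finset.univ.filter fun i => D.r (EG M B) i ≠ 0).card := by
  classical
  haveI := Fintype.ofFinite (IrrCharacter G)
  set I := Finset.univ.filter fun i => D.r (EG M B) i ≠ 0 with hI
  let Φ : Fin D.n → G → ℂ := fun i =>
    ∑ χ : IrrCharacter G, (vl (D.X i) χ : ℂ) • (χ : G → ℂ)
  have hmem : ∀ χ ∈ B, pRegularPart p (χ : G → ℂ) ∈
      Submodule.span ℂ ((I.image Φ : Finset (G → ℂ)) : Set (G → ℂ)) := by
    intro χ hχ
    let q : ℕ := p ^ (Nat.card G).factorization p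
    have hq : (q : ℂ) ≠ 0 := by exact_mod_cast pow_ne_zero _ hp.out.ne_zero
    let ζ : G → ℂ := (q : ℂ) • pRegularPart p (χ : G → ℂ)
    have hζ : IsGeneralizedCharacter G ζ := isGen_pr p (isGen_of_irr χ.2)
    have hζ0 : ∀ g, p ∣ orderOf g → ζ g = 0 := by
      intro g hg
      simp only [ζ]
      rw [Pi.smul_apply, pr_sing hg, smul_zero]
    have hζc : IsClassFunction G ζ := classFun_smul _ (pr_classFun (irr_classFun χ.2))
    obtain ⟨a, ha⟩ := D.gen_coef hMp hζ hζ0
    have h1 : ∀ ψ : IrrCharacter G, classInner ζ (ψ : G → ℂ) =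
        ∑ i ∈ I, (a i : ℂ) * (vl (D.X i) ψ : ℂ) := by
      intro ψ
      by_cases hψ : ψ ∈ B
      · rw [ha ψ, hI, Finset.sum_filter]
        push_cast
        apply Finset.sum_congr rfl
        intro i _
        split_ifs with h
        · rfl
        · push Not at h
          rw [pd_sep D hB h hψ]
          simp
      · have h2 : classInner ζ (ψ : G → ℂ) = 0 := by
          simp only [ζ]
          rw [classInner_smul_left]
          have h3 : mm p (χ : G → ℂ) (ψ : G → ℂ) = 0 := mm_eq_zero hMp (fun h => hψ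
            ((mem_isPBlock_iff hB hχ).mpr h))
          unfold mm at h3
          rw [h3, mul_zero]
        rw [h2]
        symm
        apply Finset.sum_eq_zero
        intro i hi
        rw [pd_sep' D hB (Finset.mem_filter.mp hi).2 hψ]
        simp
    have h2 : ζ = ∑ i ∈ I, (a i : ℂ) • Φ i := by
      rw [classFun_expand hζc]
      simp only [Φ, Finset.smul_sum]
      rw [Finset.sum_comm]
      apply Finset.sum_congr rfl
      intro ψ _
      rw [h1 ψ, Finset.sum_smul]
      apply Finset.sum_congr rfl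
      intro i _
      rw [smul_smul]
    have h3 : pRegularPart p (χ : G → ℂ) = (q : ℂ)⁻¹ • ζ := by
      simp only [ζ]
      rw [smul_smul, inv_mul_cancel₀ hq, one_smul]
    rw [h3, h2]
    apply Submodule.smul_mem
    apply Submodule.sum_mem
    intro i hi
    apply Submodule.smul_mem
    exact Submodule.subset_span (Finset.mem_coe.mpr (Finset.mem_image_of_mem _ hi))
  unfold blockRank
  have h1 : Submodule.span ℂ ((fun χ : IrrCharacter G => pRegularPart p (χ : G → ℂ)) '' B) ≤
      Submodule.span ℂ ((I.image Φ : Finset (G → ℂ)) : Set (G → ℂ)) := by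
    rw [Submodule.span_le]
    rintro _ ⟨χ, hχ, rfl⟩
    exact hmem χ hχ
  refine (Submodule.finrank_mono h1).trans ?_
  exact (finrank_span_finset_le_card _).trans Finset.card_image_le

/-- Every projective indecomposable character is nonzero. -/
theorem pd_vl_ne (D : PD G M) (hMp : IsPModular p M) (i : Fin D.n) :
    ∃ χ : IrrCharacter G, vl (D.X i) χ ≠ 0 := by
  classical
  by_contra hcon
  push Not at hcon
  have h1 := D.indep hMp (Pi.single i 1) (fun χ => by
    rw [Finset.sum_eq_single i]
    · rw [hcon χ]; simp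
    · intro j _ hj
      rw [Pi.single_eq_of_ne hj, zero_mul]
    · intro h; exact absurd (Finset.mem_univ _) h) i
  rw [Pi.single_eq_same] at h1
  exact one_ne_zero h1

open Classical in
theorem pd_sum_sq [Fintype (IrrCharacter G)] (D : PD G M) {B : Set (IrrCharacter G)}
    (hB : IsPBlock M B) :
    ∑ χ ∈ Finset.univ.filter (· ∈ B), charDegree (χ : G → ℂ) ^ 2 =
      ∑ i ∈ Finset.univ.filter (fun i => D.r (EG M B) i ≠ 0),
        D.r (EG M B) i * ∑ χ : IrrCharacter G, charDegree (χ : G → ℂ) * vl (D.X i) χ := by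
  rw [Finset.sum_filter, Finset.sum_filter]
  have h1 : ∀ i : Fin D.n, (if D.r (EG M B) i ≠ 0 then
      D.r (EG M B) i * ∑ χ : IrrCharacter G, charDegree (χ : G → ℂ) * vl (D.X i) χ else 0) =
      ∑ χ : IrrCharacter G, charDegree (χ : G → ℂ) * (D.r (EG M B) i * vl (D.X i) χ) := by
    intro i
    split_ifs with h
    · rw [Finset.mul_sum]
      exact Finset.sum_congr rfl fun χ _ => by ring
    · push Not at h
      rw [h]
      simp
  rw [Finset.sum_congr rfl fun i _ => h1 i, Finset.sum_comm]
  apply Finset.sum_congr rfl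
  intro χ _
  rw [← Finset.mul_sum, ← redG_EB hB, ← D.thmK (EB_idem hB) χ, vl_EB]
  split_ifs
  · ring
  · simp

end A

end Cfsg.Agent.H26
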