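import Mathlib
import Cfsg.Agent.H26.Sq1

set_option autoImplicit false
set_option maxHeartbeats 800000
set_option linter.style.haveILetI false

/-!
# The sum of the squares of the degrees in a block: main theorem
-/

namespace Cfsg.Agent.H26

open Module Cfsg Cfsg.Agent.H11 Cfsg.Agent.H3 Matrix
open Cfsg.Agent.H27.Md
open scoped ComplexConjugate

universe u

theorem st4641 {G : Type u} [Group G] [Finite G] (p : ℕ) [Fact p.Prime] (M : Ideal AlgInt)
    (hM : IsPModular p M) (B : Set (IrrCharacter G)) (hB : IsPBlock M B) (D : Subgroup G)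
    (hD : IsDefectGroup p M B D) (a d : ℕ) (ha : (Nat.card G).factorization p = a)
    (hd : Nat.card D = p ^ d) (g : ℕ) (hg1 : ∀ χ ∈ B, g ∣ charDegree (χ : G → ℂ))
    (hg2 : ∀ g' : ℕ, (∀ χ ∈ B, g' ∣ charDegree (χ : G → ℂ)) → g' ∣ g) :
    g.factorization p = a - d ∧ ∃ v : ℕ, 0 < v ∧ ¬ p ∣ v ∧ blockRank p B ≤ v ∧
      ∑ᶠ χ ∈ B, charDegree (χ : G → ℂ) ^ 2 = p ^ (2 * a - d) * (g / p ^ (a - d)) ^ 2 * v := by
  classical
  have hp : Fact p.Prime := ⟨hM.1⟩
  have hpr : M.IsPrime := hM.2.1.isPrime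
  let _ : Fintype G := Fintype.ofFinite G
  let _ : Fintype (IrrCharacter G) := Fintype.ofFinite _
  obtain ⟨χ₀, hχ₀⟩ := exists_mem_block hB
  have hidx : a = d + D.index.factorization p := by
    rw [← ha, ← Subgroup.index_mul_card D, Nat.factorization_mul
      Subgroup.index_ne_zero_of_finite Nat.card_pos.ne', Finsupp.add_apply, hd,
      hM.1.factorization_pow, Finsupp.single_eq_same, add_comm]
  have hda : D.index.factorization p = a - d := by omega
  have hg0 : 0 < g := Nat.pos_of_dvd_of_pos (hg1 χ₀ hχ₀) (H27.charDegree_pos χ₀.2)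
  have hpg : p ^ (a - d) ∣ g := by
    apply hg2
    intro χ hχ
    rw [← hda]
    exact (hp.out.pow_dvd_iff_le_factorization (charDegree_spec χ.2).2).mpr
      (index_le_deg hM hB hD hχ)
  have hgf : g.factorization p = a - d := by
    apply le_antisymm
    · have h1 := minDeg_eq hM hB hD
      have h2 := Nat.sInf_mem (s := (fun χ : IrrCharacter G =>
        (charDegree (χ : G → ℂ)).factorization p) '' B) ⟨_, χ₀, hχ₀, rfl⟩
      rw [h1] at h2
      obtain ⟨χ, hχ, h3⟩ := h2
      rw [← hda, ← h3]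
      exact (Nat.factorization_le_iff_dvd hg0.ne' (charDegree_spec χ.2).2).mpr (hg1 χ hχ) p
    · exact (hp.out.pow_dvd_iff_le_factorization hg0.ne').mp hpg
  refine ⟨hgf, ?_⟩
  obtain ⟨u, hgu⟩ := hpg
  have hu : g / p ^ (a - d) = u := by
    rw [hgu]
    exact Nat.mul_div_cancel_left _ (pow_pos hp.out.pos _)
  have hup : ¬ p ∣ u := by
    intro h
    have h1 : p ^ (a - d + 1) ∣ g := by
      rw [hgu, pow_succ]
      exact mul_dvd_mul_left _ h
    have h2 := (hp.out.pow_dvd_iff_le_factorization hg0.ne').mp h1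
    omega
  have hu0 : 0 < u := by
    rcases Nat.eq_zero_or_pos u with h | h
    · rw [h, mul_zero] at hgu
      omega
    · exact h
  rw [hu]
  have h2a : 2 * a - d = (a - d) + a := by omega
  obtain ⟨E⟩ := exists_PD (G := G) (M := M)
  set I := Finset.univ.filter fun i => E.r (EG M B) i ≠ 0 with hI
  have hk : ∀ i ∈ I, ∃ k : ℕ, 0 < k ∧ E.r (EG M B) i *
      ∑ χ : IrrCharacter G, charDegree (χ : G → ℂ) * vl (E.X i) χ =
        p ^ (2 * a - d) * u ^ 2 * k := by
    intro i hi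
    have hri := (Finset.mem_filter.mp hi).2
    obtain ⟨k1, hk1⟩ := pd_gcd_dvd E hM hB hg0 hg1 i
    set F := ∑ χ : IrrCharacter G, charDegree (χ : G → ℂ) * vl (E.X i) χ with hF
    have hF1 : p ^ a ∣ F := by
      rw [← ha]
      exact pd_phi_dvd E hM i
    have hF2 : u ∣ F := by
      apply Finset.dvd_sum
      intro χ _
      by_cases hχ : χ ∈ B
      · exact Dvd.dvd.mul_right ((Dvd.intro_left _ hgu.symm).trans (hg1 χ hχ)) _
      · rw [pd_sep' E hB hri hχ, mul_zero]
        exact dvd_zero _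
    have hco : Nat.Coprime (p ^ a) u :=
      Nat.Coprime.pow_left _ ((hp.out.coprime_iff_not_dvd).mpr hup)
    obtain ⟨k2, hk2⟩ := hco.mul_dvd_of_dvd_of_dvd hF1 hF2
    have hFpos : 0 < F := by
      obtain ⟨χ, hχ⟩ := pd_vl_ne E hM i
      exact Finset.sum_pos' (fun _ _ => Nat.zero_le _) ⟨χ, Finset.mem_univ _,
        Nat.mul_pos (H27.charDegree_pos χ.2) (Nat.pos_of_ne_zero hχ)⟩
    refine ⟨k1 * k2, ?_, ?_⟩
    · apply Nat.mul_pos
      · rcases Nat.eq_zero_or_pos k1 with h | h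
        · exfalso
          apply hri
          rw [hk1, h, mul_zero]
        · exact h
      · rcases Nat.eq_zero_or_pos k2 with h | h
        · rw [hk2, h, mul_zero] at hFpos
          exact absurd hFpos (lt_irrefl _)
        · exact h
    · rw [hk1, hk2, h2a, pow_add, hgu]
      ring
  choose! k hk0 hk1 using hk
  have hfin : ∑ᶠ χ ∈ B, charDegree (χ : G → ℂ) ^ 2 =
      ∑ χ ∈ Finset.univ.filter (· ∈ B), charDegree (χ : G → ℂ) ^ 2 := by
    rw [finsum_mem_eq_finite_toFinset_sum _ (Set.toFinite B)]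
    apply Finset.sum_congr _ (fun _ _ => rfl)
    ext χ
    simp
  have hS : ∑ χ ∈ Finset.univ.filter (· ∈ B), charDegree (χ : G → ℂ) ^ 2 =
      p ^ (2 * a - d) * u ^ 2 * ∑ i ∈ I, k i := by
    rw [pd_sum_sq E hB, Finset.mul_sum]
    exact Finset.sum_congr rfl hk1
  have hcard : I.card ≤ ∑ i ∈ I, k i := by
    rw [Finset.card_eq_sum_ones]
    exact Finset.sum_le_sum fun i hi => hk0 i hi
  -- the exact power of `p`
  obtain ⟨P⟩ : Nonempty (Sylow p G) := inferInstance
  let _ : Fintype (P : Subgroup G) := Fintype.ofFinite _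
  obtain ⟨m, hm⟩ := exists_mS (P : Subgroup G)
  have h1 := sum_sq_eq hM hB hD P.isPGroup' hm
  have h2 := not_dvd_AB hM hB hD P.isPGroup' P.not_dvd_index hm
  rw [hS, P.card_eq_multiplicity, ha, hda, h2a, pow_add] at h1
  have h3 : u ^ 2 * ∑ i ∈ I, k i = AB p m D B := by
    have h4 : p ^ (a - d) * p ^ a * (u ^ 2 * ∑ i ∈ I, k i) =
        p ^ (a - d) * p ^ a * AB p m D B := by
      rw [← mul_assoc, h1]
      ring
    exact Nat.eq_of_mul_eq_mul_left (Nat.mul_pos (pow_pos hp.out.pos _) (pow_pos hp.out.pos _)) h4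
  have hvp : ¬ p ∣ ∑ i ∈ I, k i := by
    intro h
    apply h2
    rw [← h3]
    exact Dvd.dvd.mul_left h _
  refine ⟨∑ i ∈ I, k i, ?_, hvp, (blockRank_le_pd E hM hB).trans hcard, ?_⟩
  · rcases Nat.eq_zero_or_pos (∑ i ∈ I, k i) with h | h
    · exact absurd (by rw [h]; exact dvd_zero _) hvp
    · exact h
  · rw [hfin, hS]

end Cfsg.Agent.H26
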