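import Mathlib
import Cfsg.Agent.H26.Star12
import Cfsg.Agent.H26.CovAb

set_option autoImplicit false

/-!
# The `*`-construction, XIII: the action of the linear characters of a defect group
-/

namespace Cfsg.Agent.H26

open MonoidAlgebra MulAction Cfsg Cfsg.Agent.H11 Cfsg.Agent.H3 Finset
open scoped ComplexConjugate commutatorElement

universe u

section Abs

theorem index_dvd_card {Λ X : Type*} [Group Λ] [Finite Λ] [Finite X] [MulAction Λ X]
    (Λ₀ : Subgroup Λ) (h : ∀ x : X, stabilizer Λ x ≤ Λ₀) : Λ₀.index ∣ Nat.card X := by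
  classical
  have h1 := Nat.card_congr (MulAction.selfEquivSigmaOrbitsQuotientStabilizer Λ X)
  rw [h1]
  have : Finite (orbitRel.Quotient Λ X) := Quotient.finite _
  have := Fintype.ofFinite (orbitRel.Quotient Λ X)
  rw [Nat.card_sigma]
  apply Finset.dvd_sum
  intro ω _
  exact Subgroup.index_dvd_of_le (h ω.out)

/-- The number of linear characters trivial on a subgroup above the commutator subgroup. -/
theorem card_lin_ker {P : Type*} [Group P] [Finite P] (K : Subgroup P) (hK : commutator P ≤ K) :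
    Nat.card {l : P →* ℂˣ // K ≤ l.ker} = K.index := by
  have hKn : K.Normal := Subgroup.Normal.of_commutator_le P hK
  let _ : CommGroup (P ⧸ K) := { (inferInstance : Group (P ⧸ K)) with
    mul_comm := by
      intro a b
      induction a using QuotientGroup.induction_on with
      | H a =>
        induction b using QuotientGroup.induction_on with
        | H b =>
          change ((a * b : P) : P ⧸ K) = ((b * a : P) : P ⧸ K)
          rw [QuotientGroup.eq]
          have h1 : (a * b)⁻¹ * (b * a) = ⁅b⁻¹, a⁻¹⁆ := by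
            rw [commutatorElement_def]; group
          rw [h1]
          exact hK (Subgroup.commutator_mem_commutator (Subgroup.mem_top _)
            (Subgroup.mem_top _)) }
  let eqv : {l : P →* ℂˣ // K ≤ l.ker} ≃ (P ⧸ K →* ℂˣ) :=
    { toFun := fun l => QuotientGroup.lift K l.1 l.2
      invFun := fun m => ⟨m.comp (QuotientGroup.mk' K), by
        intro x hx
        rw [MonoidHom.mem_ker, MonoidHom.comp_apply]
        have : (QuotientGroup.mk' K) x = 1 := (QuotientGroup.eq_one_iff x).mpr hx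
        rw [this, map_one]⟩
      left_inv := fun l => by
        apply Subtype.ext
        ext x
        rfl
      right_inv := fun m => by
        ext x
        rfl }
  rw [Nat.card_congr eqv, CommGroup.card_monoidHom_of_hasEnoughRootsOfUnity]
  rfl

/-- The subgroup of linear characters trivial on `K`. -/
def linK {P : Type*} [Group P] (K : Subgroup P) : Subgroup (P →* ℂˣ) where
  carrier := {l | K ≤ l.ker}
  one_mem' := fun x _ => by rw [MonoidHom.mem_ker]; rfl
  mul_mem' := fun {a b} ha hb x hx => by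
    rw [MonoidHom.mem_ker, MonoidHom.mul_apply, (MonoidHom.mem_ker).mp (ha hx),
      (MonoidHom.mem_ker).mp (hb hx), one_mul]
  inv_mem' := fun {a} ha x hx => by
    rw [MonoidHom.mem_ker, MonoidHom.inv_apply, (MonoidHom.mem_ker).mp (ha hx), inv_one]

theorem mem_linK {P : Type*} [Group P] {K : Subgroup P} {l : P →* ℂˣ} :
    l ∈ linK K ↔ K ≤ l.ker := Iff.rfl

theorem card_linK {P : Type*} [Group P] [Finite P] (K : Subgroup P) (hK : commutator P ≤ K) :
    Nat.card (linK K) = K.index := card_lin_ker K hK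

theorem relIndex_linK {P : Type*} [Group P] [Finite P] (K W : Subgroup P)
    (hK : commutator P ≤ K) : (linK (K ⊔ W)).relIndex (linK K) = K.relIndex W := by
  have hKn : K.Normal := Subgroup.Normal.of_commutator_le P hK
  have hle : linK (K ⊔ W) ≤ linK K := fun l hl => (le_sup_left : K ≤ K ⊔ W).trans hl
  have h1 := Subgroup.card_mul_index ((linK (K ⊔ W)).subgroupOf (linK K))
  have h2 : Nat.card ((linK (K ⊔ W)).subgroupOf (linK K)) = (K ⊔ W).index := by
    rw [Nat.card_congr (Subgroup.subgroupOfEquivOfLe hle).toEquiv]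
    exact card_linK _ (hK.trans le_sup_left)
  rw [h2, card_linK K hK] at h1
  have h3 := Subgroup.relIndex_mul_index (le_sup_left : K ≤ K ⊔ W)
  have h4 : (K ⊔ W).index ≠ 0 := Subgroup.index_ne_zero_of_finite
  change (K ⊔ W).index * (linK (K ⊔ W)).relIndex (linK K) = K.index at h1
  rw [Subgroup.relIndex_sup_left] at h3
  apply Nat.eq_of_mul_eq_mul_left (Nat.pos_of_ne_zero h4)
  rw [h1, ← h3, mul_comm]

end Abs

section Ext

variable {G : Type u} [Group G] {P : Subgroup G}

open Classical in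
/-- extension by zero -/
noncomputable def extP (l : P →* ℂˣ) (g : G) : ℂ := if h : g ∈ P then (l ⟨g, h⟩ : ℂ) else 0

theorem extP_mem (l : P →* ℂˣ) {g : G} (h : g ∈ P) : extP l g = (l ⟨g, h⟩ : ℂ) := by
  unfold extP; rw [dif_pos h]

theorem extP_mul (l m : P →* ℂˣ) (g : G) : extP (l * m) g = extP l g * extP m g := by
  unfold extP
  split_ifs with h
  · rw [MonoidHom.mul_apply, Units.val_mul]
  · rw [mul_zero]

theorem extP_unit [Finite G] (l : P →* ℂˣ) {g : G} (h : g ∈ P) :
    extP l g * conj (extP l g) = 1 := by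
  rw [extP_mem l h]
  have h1 : ((l ⟨g, h⟩ : ℂˣ) : ℂ) ^ Nat.card P = 1 := by
    rw [← Units.val_pow_eq_pow_val, ← map_pow, pow_card_eq_one', map_one, Units.val_one]
  have h2 : ‖((l ⟨g, h⟩ : ℂˣ) : ℂ)‖ = 1 :=
    Complex.norm_eq_one_of_pow_eq_one h1 Nat.card_pos.ne'
  rw [Complex.mul_conj, Complex.normSq_eq_norm_sq, h2]
  simp

theorem isGen_extP (l : P →* ℂˣ) : IsGeneralizedCharacter P (fun r : P => extP l (r : G)) := by
  have h1 := isGen_of_irr (isIrr_of_hom l)
  convert h1 using 2 with r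
  rw [extP_mem l r.2]

end Ext

section Act

variable {M : Ideal AlgInt} [hM : M.IsPrime] {p : ℕ} [hp : Fact p.Prime] [hch : CharP (KF M) p]
variable {G : Type u} [Group G] [Fintype G] {P : Subgroup G} {e E : MonoidAlgebra (KF M) G}

/-- the labels of a linear character -/
noncomputable def lb (p : ℕ) (P : Subgroup G) (e : MonoidAlgebra (KF M) G) (l : P →* ℂˣ) :
    Subgroup G → MonoidAlgebra (KF M) G → G → ℂ := labF p P e (extP l)

theorem lb_eq {l : P →* ℂˣ} (hl : FStab p P e (extP l)) {Q : Subgroup G}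
    {f : MonoidAlgebra (KF M) G} {x : G} (hx : PLE p (cg Q x) (cj x f) P e) {r : G} (hr : r ∈ Q) :
    lb p P e l Q f r = extP l (x * r * x⁻¹) := labF_eq hl hx hr

theorem lb_self {l : P →* ℂˣ} (hl : FStab p P e (extP l)) {Q : Subgroup G}
    {f : MonoidAlgebra (KF M) G} (hx : PLE p Q f P e) {r : G} (hr : r ∈ Q) :
    lb p P e l Q f r = extP l r := by
  have h1 : PLE p (cg Q 1) (cj (1 : G) f) P e := by
    rw [cg_one, cj_one_apply]; exact hx
  rw [lb_eq hl h1 hr]
  simp

theorem lb_mul (l m : P →* ℂˣ) (Q : Subgroup G) (f : MonoidAlgebra (KF M) G) (r : G) :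
    lb p P e (l * m) Q f r = lb p P e l Q f r * lb p P e m Q f r := by
  unfold lb labF
  split_ifs with h
  · rw [extP_mul]
  · rw [mul_zero]

theorem lb_one (hm : MaxB p E P e) {Q : Subgroup G} {f : MonoidAlgebra (KF M) G}
    (hI : InB p E Q f) {r : G} (hr : r ∈ Q) : lb p P e 1 Q f r = 1 := by
  have h := hm.exists_conj hI
  unfold lb labF
  rw [dif_pos h]
  have h2 : h.choose * r * h.choose⁻¹ ∈ P := h.choose_spec.le ⟨r, hr, rfl⟩
  rw [extP_mem _ h2]
  rfl

theorem lb_unit (hm : MaxB p E P e) (l : P →* ℂˣ) {Q : Subgroup G}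
    {f : MonoidAlgebra (KF M) G} (hI : InB p E Q f) {r : G} (hr : r ∈ Q) :
    lb p P e l Q f r * conj (lb p P e l Q f r) = 1 := by
  have h := hm.exists_conj hI
  unfold lb labF
  rw [dif_pos h]
  have h2 : h.choose * r * h.choose⁻¹ ∈ P := h.choose_spec.le ⟨r, hr, rfl⟩
  exact extP_unit l h2

theorem lb_at_one (hm : MaxB p E P e) (l : P →* ℂˣ) {Q : Subgroup G}
    {f : MonoidAlgebra (KF M) G} (hI : InB p E Q f) : lb p P e l Q f 1 = 1 := by
  have h := hm.exists_conj hI
  unfold lb labF
  rw [dif_pos h]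
  have h2 : h.choose * 1 * h.choose⁻¹ = 1 := by group
  rw [h2, extP_mem _ P.one_mem]
  have h3 : (⟨1, P.one_mem⟩ : P) = 1 := rfl
  rw [h3, map_one]
  rfl

theorem inB_one (hE : IsBlk (⊤ : Subgroup G) E) : InB p E (Subgroup.zpowers 1) E := by
  apply inB_of_mem_bf hE ⟨0, by simp⟩
  rw [bf_top hE, Finset.mem_singleton]

theorem stc_congr (hE : IsBlk (⊤ : Subgroup G) E)
    {lab lab' : Subgroup G → MonoidAlgebra (KF M) G → G → ℂ}
    (h : ∀ Q f r, InB p E Q f → r ∈ Q → lab Q f r = lab' Q f r) (χ : G → ℂ) (g : G) :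
    stc p lab E χ g = stc p lab' E χ g := by
  unfold stc
  apply Finset.sum_congr rfl
  intro f hf
  rw [h _ _ _ (inB_of_mem_bf hE (pp_ppow g) hf) (Subgroup.mem_zpowers _)]

/-- The twist of a character of the block by a linear character. -/
theorem exists_tw (hMp : IsPModular p M) {B : Set (IrrCharacter G)} (hB : IsPBlock M B)
    (hm : MaxB p (EG M B) P e) {l : P →* ℂˣ} (hl : FStab p P e (extP l))
    {χ : IrrCharacter G} (hχ : χ ∈ B) :
    ∃ ψ ∈ B, (ψ : G → ℂ) = stc p (lb p P e l) (EG M B) (χ : G → ℂ) :=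
  stc_linear hMp hB (isLab_labF hm hl (isGen_extP l))
    (lb_at_one hm l (inB_one (isBlk_EG hB))) (fun _ _ _ hI hr => lb_unit hm l hI hr) hχ

/-- The action of the stable linear characters on the block. -/
@[reducible] noncomputable def twAct (hMp : IsPModular p M) {B : Set (IrrCharacter G)} (hB : IsPBlock M B)
    (hm : MaxB p (EG M B) P e) (L : Subgroup (P →* ℂˣ))
    (hL : ∀ l ∈ L, FStab p P e (extP l)) : MulAction L {χ : IrrCharacter G // χ ∈ B} where
  smul l χ := ⟨(exists_tw hMp hB hm (hL l l.2) χ.2).choose,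
    (exists_tw hMp hB hm (hL l l.2) χ.2).choose_spec.1⟩
  one_smul χ := by
    apply Subtype.ext
    apply Subtype.ext
    have h1 := (exists_tw hMp hB hm (hL (1 : L) (1 : L).2) χ.2).choose_spec.2
    change ((exists_tw hMp hB hm (hL (1 : L) (1 : L).2) χ.2).choose : G → ℂ) = _
    rw [h1]
    funext g
    have h2 : stc p (lb p P e ((1 : L) : P →* ℂˣ)) (EG M B) (χ.1 : G → ℂ) g =
        stc p (fun _ _ _ => 1) (EG M B) (χ.1 : G → ℂ) g :=
      stc_congr (isBlk_EG hB) (fun _ _ _ hI hr => lb_one hm hI hr) _ _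
    rw [h2, stc_one hMp hB χ.2]
  mul_smul l m χ := by
    apply Subtype.ext
    apply Subtype.ext
    let ψ := (exists_tw hMp hB hm (hL m m.2) χ.2).choose
    have hψ : ψ ∈ B := (exists_tw hMp hB hm (hL m m.2) χ.2).choose_spec.1
    have h1 : (ψ : G → ℂ) = stc p (lb p P e (m : P →* ℂˣ)) (EG M B) (χ.1 : G → ℂ) :=
      (exists_tw hMp hB hm (hL m m.2) χ.2).choose_spec.2
    have h2 := (exists_tw hMp hB hm (hL l l.2) hψ).choose_spec.2
    have h3 := (exists_tw hMp hB hm (hL (l * m : L) (l * m : L).2) χ.2).choose_spec.2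
    change ((exists_tw hMp hB hm (hL (l * m : L) (l * m : L).2) χ.2).choose : G → ℂ) =
      ((exists_tw hMp hB hm (hL l l.2) hψ).choose : G → ℂ)
    rw [h2, h3, h1]
    funext g
    have h4 := stc_stc hMp hB (lab := lb p P e (m : P →* ℂˣ))
      (isLab_labF hm (hL m m.2) (isGen_extP (m : P →* ℂˣ))) (lb p P e (l : P →* ℂˣ))
      (irr_classFun χ.1.2) g
    rw [h4]
    apply stc_congr (isBlk_EG hB)
    intro Q f r _ _
    exact lb_mul _ _ _ _ _

end Act

end Cfsg.Agent.H26
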