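import Mathlib
import Cfsg.Agent.H26.Star13
import Cfsg.Agent.H26.StC
import Cfsg.Agent.H26.MajSub3

set_option autoImplicit false

/-!
# The `*`-construction, XIV: stabilizers and counting (S4684, S4685)
-/

namespace Cfsg.Agent.H26

open MonoidAlgebra MulAction Cfsg Cfsg.Agent.H11 Cfsg.Agent.H3 Finset
open scoped ComplexConjugate commutatorElement

universe u

section Stab

variable {M : Ideal AlgInt} [hM : M.IsPrime] {p : ℕ} [hp : Fact p.Prime] [hch : CharP (KF M) p]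
variable {G : Type u} [Group G] [Fintype G] {P : Subgroup G} {e : MonoidAlgebra (KF M) G}

theorem cnk_self_real {C : Subgroup G} {f : MonoidAlgebra (KF M) G} (x : G) (χ : G → ℂ) :
    ∃ r : ℝ, 0 ≤ r ∧ cnk p C x f χ χ = (r : ℂ) := by
  have := Fintype.ofFinite C
  obtain ⟨r, hr0, hr⟩ := cn_self_real (p := p) x (bs C f) χ
  refine ⟨r, hr0, ?_⟩
  rw [← hr]
  unfold cnk
  congr!

/-- If a twist fixes a character, the label is trivial on the supporting subsections. -/
theorem lab_eq_one_of_fixed (hMp : IsPModular p M) {B : Set (IrrCharacter G)}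
    (hB : IsPBlock M B) {lab : Subgroup G → MonoidAlgebra (KF M) G → G → ℂ}
    (hu : ∀ Q f r, InB p (EG M B) Q f → r ∈ Q → lab Q f r * conj (lab Q f r) = 1)
    {χ : IrrCharacter G} (hχ : χ ∈ B)
    (hfix : stc p lab (EG M B) (χ : G → ℂ) = (χ : G → ℂ)) {u : G}
    (hup : ∃ k : ℕ, orderOf u = p ^ k) {f : MonoidAlgebra (KF M) G}
    (hf : InB p (EG M B) (Subgroup.zpowers u) f)
    (hne : cnk p (cz (Subgroup.zpowers u)) u f (χ : G → ℂ) (χ : G → ℂ) ≠ 0) :
    lab (Subgroup.zpowers u) f u = 1 := by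
  classical
  obtain ⟨Ω, hΩ, hΩ2⟩ := exists_Om (p := p) hB
  have h1 := inner_stc hMp (isBlk_EG hB) hΩ lab (fun _ _ _ => 1) (irr_classFun χ.2)
    (irr_classFun χ.2)
  have h2 : stc p (fun _ _ _ => 1) (EG M B) (χ : G → ℂ) = (χ : G → ℂ) := by
    funext g; exact stc_one hMp hB hχ g
  rw [hfix, h2, classInner_self_of_irr χ.2, mul_one, ← total_cn hMp hB hΩ2 hχ] at h1
  choose r hr0 hr using fun ω : G × MonoidAlgebra (KF M) G =>
    cnk_self_real (p := p) (C := cz (Subgroup.zpowers ω.1)) (f := ω.2) ω.1 (χ : G → ℂ)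
  have h3 : ∑ ω ∈ Ω, (Nat.card (cz (Subgroup.zpowers ω.1)) : ℝ) *
      ((1 - (lab (Subgroup.zpowers ω.1) ω.2 ω.1).re) * r ω) = 0 := by
    have h4 := congrArg Complex.re h1
    rw [Complex.re_sum, Complex.re_sum] at h4
    rw [← sub_eq_zero, ← Finset.sum_sub_distrib] at h4
    rw [← h4]
    apply Finset.sum_congr rfl
    intro ω _
    rw [hr ω, map_one, mul_one]
    have h5 : (Nat.card (cz (Subgroup.zpowers ω.1)) : ℂ) =
      ((Nat.card (cz (Subgroup.zpowers ω.1)) : ℝ) : ℂ) := by push_cast; rfl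
    rw [h5, Complex.re_ofReal_mul, Complex.re_ofReal_mul, Complex.re_mul_ofReal,
      Complex.ofReal_re]
    ring
  have habs : ∀ ω ∈ Ω, (lab (Subgroup.zpowers ω.1) ω.2 ω.1).re ^ 2 +
      (lab (Subgroup.zpowers ω.1) ω.2 ω.1).im ^ 2 = 1 := by
    intro ω hω
    have h5 := hu _ _ _ ((hΩ ω.1 ω.2).mp hω).2 (Subgroup.mem_zpowers _)
    rw [Complex.mul_conj] at h5
    have h6 : Complex.normSq (lab (Subgroup.zpowers ω.1) ω.2 ω.1) = 1 := by exact_mod_cast h5
    rw [Complex.normSq_apply] at h6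
    rw [← h6]; ring
  have hnn : ∀ ω ∈ Ω, 0 ≤ (Nat.card (cz (Subgroup.zpowers ω.1)) : ℝ) *
      ((1 - (lab (Subgroup.zpowers ω.1) ω.2 ω.1).re) * r ω) := by
    intro ω hω
    have h5 := habs ω hω
    have h6 : (lab (Subgroup.zpowers ω.1) ω.2 ω.1).re ≤ 1 := by nlinarith
    have h7 := hr0 ω
    have h8 : 0 ≤ 1 - (lab (Subgroup.zpowers ω.1) ω.2 ω.1).re := by linarith
    positivity
  rw [Finset.sum_eq_zero_iff_of_nonneg hnn] at h3
  have hmem : (u, f) ∈ Ω := (hΩ u f).mpr ⟨hup, hf⟩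
  have h5 := h3 (u, f) hmem
  have h6 := habs (u, f) hmem
  have h7 : r (u, f) ≠ 0 := by
    intro h
    apply hne
    have h8 := hr (u, f)
    rw [h] at h8
    rw [h8]; simp
  have h8 : (Nat.card (cz (Subgroup.zpowers u)) : ℝ) ≠ 0 := by
    exact_mod_cast Nat.card_pos.ne'
  rcases mul_eq_zero.mp h5 with h9 | h9
  · exact absurd h9 h8
  · rcases mul_eq_zero.mp h9 with h10 | h10
    · have h11 : (lab (Subgroup.zpowers u) f u).re = 1 := by
        change 1 - (lab (Subgroup.zpowers u) f u).re = 0 at h10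
        linarith
      change (lab (Subgroup.zpowers u) f u).re ^ 2 + (lab (Subgroup.zpowers u) f u).im ^ 2 = 1
        at h6
      rw [h11] at h6
      have h12 : (lab (Subgroup.zpowers u) f u).im = 0 := by nlinarith
      exact Complex.ext h11 h12
    · exact absurd h10 h7

/-- contributions of height zero characters -/
theorem cnk_ne_zero_of_height_zero (hMp : IsPModular p M) {B : Set (IrrCharacter G)}
    (hB : IsPBlock M B) {χ : IrrCharacter G} (hχ : χ ∈ B)
    (h0 : blockHeight p B (χ : G → ℂ) = 0) {u : G}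
    (hup : ∃ k : ℕ, orderOf u = p ^ k) {f : MonoidAlgebra (KF M) G}
    (hf : InB p (EG M B) (Subgroup.zpowers u) f) :
    cnk p (cz (Subgroup.zpowers u)) u f (χ : G → ℂ) (χ : G → ℂ) ≠ 0 := by
  have := Fintype.ofFinite (cz (Subgroup.zpowers u))
  obtain ⟨b, hb, hbe⟩ := exists_EH hf.2.1.2
  have hind : IsInducedBlock M (cz (Subgroup.zpowers u)) b B := by
    rw [isInducedBlock_cz_iff (isPGroup_zpowers hup)]
    exact ⟨hb, hB, by rw [hbe]; exact hf⟩
  rw [← hbe, cnk_EH u hb]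
  have huC : u ∈ cz (Subgroup.zpowers u) := mem_cz_zpowers.mpr rfl
  obtain ⟨t, -, ht, ht2, -⟩ := not_li_cn hMp hind (x := ⟨u, huC⟩)
    (fun c => Subtype.ext (mem_cz_zpowers.mp c.2).symm)
    (by obtain ⟨k, hk⟩ := hup; exact ⟨k, by rw [Subgroup.orderOf_mk, hk]⟩) hχ h0 hχ h0
  intro hcn
  apply ht
  change MemLocalIdeal M ((p : ℂ) ^ blockDefect p b * cn p (cz (Subgroup.zpowers u)) u b
    (χ : G → ℂ) (χ : G → ℂ) - t) at ht2
  rw [hcn, mul_zero, zero_sub] at ht2
  have := li_neg ht2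
  rwa [neg_neg] at this

/-- contributions at central elements -/
theorem cnk_ne_zero_of_central (hMp : IsPModular p M) {B : Set (IrrCharacter G)}
    (hB : IsPBlock M B) (hm : MaxB p (EG M B) P e) {χ : IrrCharacter G} (hχ : χ ∈ B) {u : G}
    (hu : u ∈ P ⊓ cz P) {f : MonoidAlgebra (KF M) G}
    (hf : PLE p (Subgroup.zpowers u) f P e) :
    cnk p (cz (Subgroup.zpowers u)) u f (χ : G → ℂ) (χ : G → ℂ) ≠ 0 := by
  have := Fintype.ofFinite (cz (Subgroup.zpowers u))
  obtain ⟨b, hb, hbe, hind, hd⟩ := hm.major hMp hB hu hf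
  rw [← hbe, cnk_EH u hb]
  exact cn_self_ne_zero hMp (hm.isPEl hu.1) (cent_zpowers u).symm hB hind hd hχ

end Stab

section Count

variable {M : Ideal AlgInt} [hM : M.IsPrime] {p : ℕ} [hp : Fact p.Prime] [hch : CharP (KF M) p]
variable {G : Type u} [Group G] [Fintype G] {P : Subgroup G} {e : MonoidAlgebra (KF M) G}

/-- The elements of the focal subgroup relation in `P`. -/
theorem fstab_of_linK {F : FusionSystem P} (hF : IsBF p P e F) {l : P →* ℂˣ}
    (hl : F.focalSubgroup.subgroupOf P ≤ l.ker) : FStab p P e (extP l) := by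
  intro Q g hg r hr
  have hrP : r ∈ P := hg.le hr
  have hgr : g * r * g⁻¹ ∈ P := hg.1 ⟨r, hr, rfl⟩
  rw [extP_mem l hrP, extP_mem l hgr]
  let φ : Q →* G := MonoidHom.mk' (fun u => g * (u : G) * g⁻¹) (by
    intro a b
    change g * ((a : G) * (b : G)) * g⁻¹ = g * a * g⁻¹ * (g * b * g⁻¹)
    group)
  have hφ : φ ∈ F.Hom Q := (hF Q φ).mpr ⟨hg.le, g, fun _ => rfl, hg⟩
  have h1 : r⁻¹ * (g * r * g⁻¹) ∈ F.focalSubgroup :=
    Subgroup.subset_closure ⟨Q, φ, ⟨r, hr⟩, hφ, rfl⟩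
  have h2 : (⟨r, hrP⟩ : P)⁻¹ * ⟨g * r * g⁻¹, hgr⟩ ∈ F.focalSubgroup.subgroupOf P := h1
  have h3 := (MonoidHom.mem_ker).mp (hl h2)
  rw [map_mul, map_inv, inv_mul_eq_one] at h3
  rw [h3]

theorem commutator_le_focal {F : FusionSystem P} (hF : IsBF p P e F) (he : IsBrP p P e) :
    commutator P ≤ F.focalSubgroup.subgroupOf P := by
  rw [commutator_def, Subgroup.commutator_le]
  intro a _ b _
  rw [Subgroup.mem_subgroupOf]
  have hb : BMor p P e P (b : G) := bmor_of_mem he le_rfl b.2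
  let φ : P →* G := MonoidHom.mk' (fun u => (b : G) * (u : G) * (b : G)⁻¹) (by
    intro x y
    change (b : G) * ((x : G) * (y : G)) * (b : G)⁻¹ = b * x * (b : G)⁻¹ * (b * y * (b : G)⁻¹)
    group)
  have hφ : φ ∈ F.Hom P := (hF P φ).mpr ⟨le_rfl, b, fun _ => rfl, hb⟩
  have h1 : ((a⁻¹ : P) : G)⁻¹ * φ a⁻¹ ∈ F.focalSubgroup :=
    Subgroup.subset_closure ⟨P, φ, a⁻¹, hφ, rfl⟩
  have h2 : ((⁅a, b⁆ : P) : G) = ((a⁻¹ : P) : G)⁻¹ * φ a⁻¹ := by
    change (a : G) * b * (a : G)⁻¹ * (b : G)⁻¹ = ((a : G)⁻¹)⁻¹ * (b * (a : G)⁻¹ * (b : G)⁻¹)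
    group
  rw [h2]
  exact h1

theorem height_of_eq {B : Set (IrrCharacter G)} {χ ψ : G → ℂ} (h : ψ 1 = χ 1) :
    blockHeight p B ψ = blockHeight p B χ := by
  unfold blockHeight charDegree
  rw [h]

/-- The main counting statement. -/
theorem star_count (hMp : IsPModular p M) {B : Set (IrrCharacter G)} (hB : IsPBlock M B)
    (hm : MaxB p (EG M B) P e) {F : FusionSystem P} (hF : IsBF p P e F) (W : Subgroup P)
    (h : ℕ) (hW : ∀ χ : IrrCharacter G, χ ∈ B → blockHeight p B (χ : G → ℂ) = h →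
      ∀ (u : G) (f : MonoidAlgebra (KF M) G) (hu : u ∈ P), (⟨u, hu⟩ : P) ∈ W →
        PLE p (Subgroup.zpowers u) f P e →
        cnk p (cz (Subgroup.zpowers u)) u f (χ : G → ℂ) (χ : G → ℂ) ≠ 0) :
    (F.focalSubgroup.subgroupOf P).relIndex W ∣
      Nat.card {χ : IrrCharacter G // χ ∈ B ∧ blockHeight p B (χ : G → ℂ) = h} := by
  classical
  have he := hm.1.2.1
  set N := F.focalSubgroup.subgroupOf P with hN
  have hcomm : commutator P ≤ N := commutator_le_focal hF he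
  let L : Subgroup (P →* ℂˣ) := linK N
  have hL : ∀ l ∈ L, FStab p P e (extP l) := fun l hl => fstab_of_linK hF hl
  let act := twAct hMp hB hm L hL
  have hcoe : ∀ (l : L) (χ : {χ : IrrCharacter G // χ ∈ B}),
      (((l • χ : {χ : IrrCharacter G // χ ∈ B}) : IrrCharacter G) : G → ℂ) =
        stc p (lb p P e (l : P →* ℂˣ)) (EG M B) (χ.1 : G → ℂ) := fun l χ =>
    (exists_tw hMp hB hm (hL l l.2) χ.2).choose_spec.2
  have hht : ∀ (l : L) (χ : {χ : IrrCharacter G // χ ∈ B}),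
      blockHeight p B (((l • χ : {χ : IrrCharacter G // χ ∈ B}) : IrrCharacter G) : G → ℂ) =
        blockHeight p B (χ.1 : G → ℂ) := by
    intro l χ
    apply height_of_eq
    rw [hcoe, stc_reg' hMp hB _ χ.2 (by
      rw [orderOf_one]; exact fun h => hp.out.one_lt.ne' (Nat.dvd_one.mp h)),
      lb_at_one hm _ (inB_one (isBlk_EG hB)), one_mul]
  let X := {χ : IrrCharacter G // χ ∈ B ∧ blockHeight p B (χ : G → ℂ) = h}
  let actX : MulAction L X :=
    { smul := fun l χ => ⟨(l • (⟨χ.1, χ.2.1⟩ : {χ : IrrCharacter G // χ ∈ B})).1,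
        (l • (⟨χ.1, χ.2.1⟩ : {χ : IrrCharacter G // χ ∈ B})).2, by
          rw [hht]; exact χ.2.2⟩
      one_smul := fun χ => by
        apply Subtype.ext
        change ((1 : L) • (⟨χ.1, χ.2.1⟩ : {χ : IrrCharacter G // χ ∈ B})).1 = χ.1
        rw [one_smul]
      mul_smul := fun l m χ => by
        apply Subtype.ext
        change ((l * m) • (⟨χ.1, χ.2.1⟩ : {χ : IrrCharacter G // χ ∈ B})).1 =
          (l • (m • (⟨χ.1, χ.2.1⟩ : {χ : IrrCharacter G // χ ∈ B}))).1
        rw [mul_smul] }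
  have : Finite (P →* ℂˣ) := inferInstance
  have : Finite L := inferInstance
  have : Finite X := inferInstance
  have hstab : ∀ x : X, stabilizer L x ≤ (linK (N ⊔ W)).subgroupOf L := by
    intro χ l hl
    rw [Subgroup.mem_subgroupOf, mem_linK]
    apply sup_le
    · exact l.2
    · intro w hw
      rw [MonoidHom.mem_ker]
      have h1 : l • χ = χ := hl
      have h2 : (l • (⟨χ.1, χ.2.1⟩ : {χ : IrrCharacter G // χ ∈ B})).1 = χ.1 :=
        congrArg Subtype.val h1
      have hfix : stc p (lb p P e (l : P →* ℂˣ)) (EG M B) (χ.1 : G → ℂ) = (χ.1 : G → ℂ) := by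
        rw [← hcoe l ⟨χ.1, χ.2.1⟩, h2]
      obtain ⟨f, hf⟩ := exists_ple he (Subgroup.zpowers (w : G))
        (by rw [Subgroup.zpowers_le]; exact w.2)
      have h3 := lab_eq_one_of_fixed hMp hB (fun _ _ _ hI hr => lb_unit hm _ hI hr) χ.2.1 hfix
        (hm.isPEl w.2) (hm.1.of_ple' hf) (hW χ.1 χ.2.1 χ.2.2 w f w.2 hw hf)
      rw [lb_self (hL l l.2) hf (Subgroup.mem_zpowers _), extP_mem _ w.2] at h3
      exact Units.ext h3
  have key := index_dvd_card _ hstab
  change (linK (N ⊔ W)).relIndex (linK N) ∣ _ at key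
  rw [relIndex_linK N W hcomm] at key
  exact key

end Count

section Final

variable {p : ℕ} [hp : Fact p.Prime] {M : Ideal AlgInt} {G : Type u} [Group G] [Fintype G]

theorem st4684 (hMp : IsPModular p M) (B : Set (IrrCharacter G)) (P : Subgroup G)
    (e : Set (IrrCharacter (Subgroup.centralizer (P : Set G))))
    (hmax : IsMaximalBrauerPair p M B P e) (F : FusionSystem P)
    (hF : IsBlockFusionSystemOn p M B P e F) :
    (F.focalSubgroup.subgroupOf P).index ∣
      Nat.card {χ : IrrCharacter G // χ ∈ B ∧ blockHeight p B (χ : G → ℂ) = 0} := by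
  have hM := hMp.2.1.isPrime
  have hch := charP_KF hMp
  obtain ⟨hB, he, hm⟩ := isMaximalBrauerPair_iff.mp hmax
  have hF' := (isBlockFusionSystemOn_iff hmax).mp hF
  have h1 := star_count hMp hB hm hF' ⊤ 0 (by
    intro χ hχ h0 u f hu _ hf
    exact cnk_ne_zero_of_height_zero hMp hB hχ h0 (hm.isPEl hu) (hm.1.of_ple' hf))
  rwa [Subgroup.relIndex_top_right] at h1

theorem st4685 (hMp : IsPModular p M) (B : Set (IrrCharacter G)) (P : Subgroup G)
    (e : Set (IrrCharacter (Subgroup.centralizer (P : Set G))))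
    (hmax : IsMaximalBrauerPair p M B P e) (F : FusionSystem P)
    (hF : IsBlockFusionSystemOn p M B P e F) (h : ℕ) :
    ((P ⊓ Subgroup.centralizer (P : Set G) ⊓ F.focalSubgroup).subgroupOf
      (P ⊓ Subgroup.centralizer (P : Set G))).index ∣
      Nat.card {χ : IrrCharacter G // χ ∈ B ∧ blockHeight p B (χ : G → ℂ) = h} := by
  have hM := hMp.2.1.isPrime
  have hch := charP_KF hMp
  obtain ⟨hB, he, hm⟩ := isMaximalBrauerPair_iff.mp hmax
  have hF' := (isBlockFusionSystemOn_iff hmax).mp hF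
  have h1 := star_count hMp hB hm hF' ((P ⊓ cz P).subgroupOf P) h (by
    intro χ hχ _ u f hu huW hf
    exact cnk_ne_zero_of_central hMp hB hm hχ (Subgroup.mem_subgroupOf.mp huW) hf)
  rw [Subgroup.relIndex_subgroupOf inf_le_left] at h1
  change (P ⊓ cz P ⊓ F.focalSubgroup).relIndex (P ⊓ cz P) ∣ _
  rw [inf_comm, Subgroup.inf_relIndex_right]
  exact h1

end Final

end Cfsg.Agent.H26
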