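import Mathlib
import Cfsg.Agent.H26.Star14
import Cfsg.Agent.H26.Cor3
import Cfsg.Agent.H26.Cnt2
import Cfsg.Agent.H26.Nil3

set_option autoImplicit false

/-!
# Watanabe's theorem, I
-/

namespace Cfsg.Agent.H26

open MonoidAlgebra MulAction Cfsg Cfsg.Agent.H11 Cfsg.Agent.H3 Finset
open scoped ComplexConjugate commutatorElement

universe u

section Four

/-- orthogonality of the linear characters above `K` -/
theorem sum_linK {P : Type*} [Group P] [Finite P] (K : Subgroup P) (hK : commutator P ≤ K)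
    [Fintype (linK K)] {w : P} (hw : w ∉ K) : ∑ l : linK K, ((l : P →* ℂˣ) w : ℂ) = 0 := by
  have h1 := relIndex_linK K (Subgroup.zpowers w) hK
  have h2 : ∃ l0 : linK K, (l0 : P →* ℂˣ) w ≠ 1 := by
    by_contra hcon
    push Not at hcon
    have h3 : linK K ≤ linK (K ⊔ Subgroup.zpowers w) := by
      intro l hl
      rw [mem_linK]
      apply sup_le hl
      rw [Subgroup.zpowers_le, MonoidHom.mem_ker]
      exact hcon ⟨l, hl⟩
    rw [Subgroup.relIndex_eq_one.mpr h3] at h1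
    have h4 := Subgroup.relIndex_eq_one.mp h1.symm
    exact hw (h4 (Subgroup.mem_zpowers w))
  obtain ⟨l0, hl0⟩ := h2
  have h5 : ((l0 : P →* ℂˣ) w : ℂ) * ∑ l : linK K, ((l : P →* ℂˣ) w : ℂ) =
      ∑ l : linK K, ((l : P →* ℂˣ) w : ℂ) := by
    rw [Finset.mul_sum]
    apply Fintype.sum_equiv (Equiv.mulLeft l0)
    intro l
    rw [Equiv.coe_mulLeft]
    change _ = ((((l0 : P →* ℂˣ) * (l : P →* ℂˣ)) w : ℂˣ) : ℂ)
    rw [MonoidHom.mul_apply, Units.val_mul]
  have h6 : (((l0 : P →* ℂˣ) w : ℂ) - 1) * ∑ l : linK K, ((l : P →* ℂˣ) w : ℂ) = 0 := by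
    rw [sub_mul, h5, one_mul, sub_self]
  rcases mul_eq_zero.mp h6 with h7 | h7
  · exfalso
    apply hl0
    apply Units.ext
    rw [Units.val_one]
    exact sub_eq_zero.mp h7
  · exact h7

open Classical in
theorem coset_sums {P : Type*} [Group P] [Fintype P] (K : Subgroup P) (hK : commutator P ≤ K)
    (A : P → ℂ) (h : ∀ l : P →* ℂˣ, K ≤ l.ker → l ≠ 1 → ∑ x, A x * (l x : ℂ) = 0) (z : P) :
    (Nat.card (linK K) : ℂ) * ∑ x : P with z⁻¹ * x ∈ K, A x = ∑ x, A x := by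
  have hf : Fintype (linK K) := Fintype.ofFinite _
  have h1 : ∑ l : linK K, (((l : P →* ℂˣ) z⁻¹ : ℂˣ) : ℂ) * ∑ x, A x * ((l : P →* ℂˣ) x : ℂ) =
      ∑ x, A x := by
    rw [Finset.sum_eq_single (1 : linK K)]
    · simp
    · intro l _ hl
      rw [h l l.2 (fun h0 => hl (Subtype.ext h0)), mul_zero]
    · intro h0; exact absurd (Finset.mem_univ _) h0
  have h2 : ∑ l : linK K, (((l : P →* ℂˣ) z⁻¹ : ℂˣ) : ℂ) * ∑ x, A x * ((l : P →* ℂˣ) x : ℂ) =
      ∑ x, A x * ∑ l : linK K, (((l : P →* ℂˣ) (z⁻¹ * x) : ℂˣ) : ℂ) := by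
    simp_rw [Finset.mul_sum]
    rw [Finset.sum_comm]
    apply Finset.sum_congr rfl
    intro x _
    apply Finset.sum_congr rfl
    intro l _
    rw [map_mul, Units.val_mul]
    ring
  rw [← h1, h2, Finset.mul_sum, Finset.sum_filter]
  apply Finset.sum_congr rfl
  intro x _
  split_ifs with hx
  · have h3 : ∑ l : linK K, (((l : P →* ℂˣ) (z⁻¹ * x) : ℂˣ) : ℂ) = Nat.card (linK K) := by
      rw [Finset.sum_congr rfl (fun l _ => by
        rw [(MonoidHom.mem_ker).mp (l.2 hx), Units.val_one] : ∀ l ∈ (univ : Finset (linK K)),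
          (((l : P →* ℂˣ) (z⁻¹ * x) : ℂˣ) : ℂ) = 1)]
      simp [Nat.card_eq_fintype_card]
    rw [h3, mul_comm]
  · rw [sum_linK K hK hx, mul_zero]

end Four

section Copr

variable {G : Type u} [Group G] [Finite G] {p : ℕ} [hp : Fact p.Prime] {P T : Subgroup G}

/-- The subgroup generated by the commutators of `P` with `T`. -/
def foc (P T : Subgroup G) : Subgroup G :=
  Subgroup.closure {y | ∃ v ∈ P, ∃ t ∈ T, y = v⁻¹ * (t * v * t⁻¹)}

theorem foc_fixed_eq_one (hP : IsPGroup p P) (hab : ∀ x ∈ P, ∀ y ∈ P, x * y = y * x)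
    (hTN : T ≤ nz P) (hpT : ¬ p ∣ (cz P).relIndex T) {x : G} (hx : x ∈ foc P T)
    (hfix : ∀ t ∈ T, t * x * t⁻¹ = x) : x = 1 := by
  classical
  let _ : CommGroup P := { (inferInstance : Group P) with
    mul_comm := fun a b => Subtype.ext (hab a a.2 b b.2) }
  let φ : T →* MulAut P := (Subgroup.normalizerMonoidHom P).comp (Subgroup.inclusion hTN)
  have hφ : ∀ (t : T) (v : P), ((φ t v : P) : G) = (t : G) * v * (t : G)⁻¹ := fun _ _ => rfl
  have hker : φ.ker = (cz P).subgroupOf T := by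
    ext g
    rw [MonoidHom.mem_ker, Subgroup.mem_subgroupOf]
    have h1 : φ g = 1 ↔ (Subgroup.inclusion hTN g) ∈ (Subgroup.normalizerMonoidHom P).ker :=
      Iff.rfl
    rw [h1, Subgroup.normalizerMonoidHom_ker, Subgroup.mem_subgroupOf]
    rfl
  have hcard : Nat.card φ.range = (cz P).relIndex T := by
    rw [← Subgroup.index_ker, hker]; rfl
  have hfr : Fintype φ.range := Fintype.ofFinite _
  let τ : P →* P := MonoidHom.mk' (fun v => ∏ α : φ.range, (α : MulAut P) v) (by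
    intro a b
    rw [← Finset.prod_mul_distrib]
    apply Finset.prod_congr rfl
    intro α _
    rw [map_mul])
  have hτ : ∀ v, τ v = ∏ α : φ.range, (α : MulAut P) v := fun _ => rfl
  have hinv : ∀ (t : T) (v : P), τ (φ t v) = τ v := by
    intro t v
    rw [hτ, hτ]
    apply Fintype.prod_equiv (Equiv.mulRight (⟨φ t, ⟨t, rfl⟩⟩ : φ.range))
    intro α
    rfl
  have hle : foc P T ≤ τ.ker.map P.subtype := by
    unfold foc
    rw [Subgroup.closure_le]
    rintro _ ⟨v, hv, t, ht, rfl⟩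
    refine ⟨(⟨v, hv⟩ : P)⁻¹ * φ ⟨t, ht⟩ ⟨v, hv⟩, ?_, rfl⟩
    rw [SetLike.mem_coe, MonoidHom.mem_ker, map_mul, hinv, map_inv, inv_mul_cancel]
  obtain ⟨x', hx', hxx⟩ := hle hx
  have h1 : τ x' = x' ^ Nat.card φ.range := by
    rw [hτ, Finset.prod_congr rfl (fun α _ => ?_ : ∀ α ∈ (univ : Finset φ.range),
      (α : MulAut P) x' = x')]
    · rw [Finset.prod_const, Finset.card_univ, Nat.card_eq_fintype_card]
    · obtain ⟨_, t, rfl⟩ := α
      apply Subtype.ext
      change ((φ t x' : P) : G) = x'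
      rw [hφ]
      have h2 : ((x' : P) : G) = x := hxx
      rw [h2]
      exact hfix t t.2
  rw [SetLike.mem_coe, MonoidHom.mem_ker, h1] at hx'
  have h3 : x' = 1 := by
    obtain ⟨k, hk⟩ := (IsPGroup.iff_orderOf.mp hP) x'
    have h4 : orderOf x' ∣ Nat.card φ.range := orderOf_dvd_of_pow_eq_one hx'
    rw [hk, hcard] at h4
    rcases Nat.eq_zero_or_pos k with h0 | h0
    · rw [h0, pow_zero] at hk
      exact orderOf_eq_one_iff.mp hk
    · exact absurd ((dvd_pow_self p h0.ne').trans h4) hpT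
  rw [← hxx, h3]
  rfl

end Copr

section Sum

variable {M : Ideal AlgInt} [hM : M.IsPrime] {p : ℕ} [hp : Fact p.Prime] [hch : CharP (KF M) p]
variable {G : Type u} [Group G] [Fintype G] {P : Subgroup G} {e : MonoidAlgebra (KF M) G}

theorem sum_cnk_rk (hMp : IsPModular p M) {B : Set (IrrCharacter G)} (hB : IsPBlock M B)
    {hfi : Fintype (IrrCharacter G)} {hd : DecidablePred (· ∈ B)} {u : G}
    (hu : ∃ k : ℕ, orderOf u = p ^ k) {f : MonoidAlgebra (KF M) G}
    (hf : InB p (EG M B) (Subgroup.zpowers u) f) :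
    ∑ χ : IrrCharacter G with χ ∈ B, cnk p (cz (Subgroup.zpowers u)) u f (χ : G → ℂ) (χ : G → ℂ) =
      rk p (cz (Subgroup.zpowers u)) f := by
  have := Fintype.ofFinite (cz (Subgroup.zpowers u))
  obtain ⟨b, hb, hbe⟩ := exists_EH hf.2.1.2
  have hind : IsInducedBlock M (cz (Subgroup.zpowers u)) b B := by
    rw [isInducedBlock_cz_iff (isPGroup_zpowers hu)]
    exact ⟨hb, hB, by rw [hbe]; exact hf⟩
  rw [← hbe, rk_EH hb, ← cn_trace hMp hB hu (centralizer_zpowers u) hind]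
  apply Finset.sum_congr rfl
  intro χ _
  rw [cnk_EH u hb]

open Classical in
/-- The trace of a twist. -/
theorem sum_lab_rk (hMp : IsPModular p M) {B : Set (IrrCharacter G)} (hB : IsPBlock M B)
    {Ω : Finset (G × MonoidAlgebra (KF M) G)}
    (hΩ : ∀ x f, (x, f) ∈ Ω ↔ (∃ j : ℕ, orderOf x = p ^ j) ∧
      InB p (EG M B) (Subgroup.zpowers x) f)
    (lab : Subgroup G → MonoidAlgebra (KF M) G → G → ℂ)
    {hfi : Fintype (IrrCharacter G)} :
    ∑ ω ∈ Ω, (Nat.card (cz (Subgroup.zpowers ω.1)) : ℂ) *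
      (lab (Subgroup.zpowers ω.1) ω.2 ω.1 * rk p (cz (Subgroup.zpowers ω.1)) ω.2) =
      (Nat.card G : ℂ) * ∑ χ : IrrCharacter G with χ ∈ B,
        classInner (stc p lab (EG M B) (χ : G → ℂ)) (χ : G → ℂ) := by
  rw [Finset.mul_sum]
  have h1 : ∀ χ ∈ univ.filter (fun χ : IrrCharacter G => χ ∈ B),
      (Nat.card G : ℂ) * classInner (stc p lab (EG M B) (χ : G → ℂ)) (χ : G → ℂ) =
      ∑ ω ∈ Ω, (Nat.card (cz (Subgroup.zpowers ω.1)) : ℂ) *
        (lab (Subgroup.zpowers ω.1) ω.2 ω.1 *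
          cnk p (cz (Subgroup.zpowers ω.1)) ω.1 ω.2 (χ : G → ℂ) (χ : G → ℂ)) := by
    intro χ hχ
    have hχB := (Finset.mem_filter.mp hχ).2
    have h2 : stc p (fun _ _ _ => 1) (EG M B) (χ : G → ℂ) = (χ : G → ℂ) := by
      funext g; exact stc_one hMp hB hχB g
    have h3 := inner_stc hMp (isBlk_EG hB) hΩ lab (fun _ _ _ => 1) (irr_classFun χ.2)
      (irr_classFun χ.2)
    rw [h2] at h3
    rw [h3]
    apply Finset.sum_congr rfl
    intro ω _
    rw [map_one, mul_one]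
  rw [Finset.sum_congr rfl h1, Finset.sum_comm]
  apply Finset.sum_congr rfl
  intro ω hω
  obtain ⟨h2, h3⟩ := (hΩ ω.1 ω.2).mp hω
  rw [← sum_cnk_rk hMp hB h2 h3, Finset.mul_sum, Finset.mul_sum]

open Classical in
/-- The character sums of the ranks vanish (abelian defect groups). -/
theorem sum_lin_rk (hMp : IsPModular p M) {B : Set (IrrCharacter G)} (hB : IsPBlock M B)
    (hm : MaxB p (EG M B) P e) (hab : ∀ x ∈ P, ∀ y ∈ P, x * y = y * x)
    (f : G → MonoidAlgebra (KF M) G) (hf : ∀ u ∈ P, PLE p (Subgroup.zpowers u) (f u) P e)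
    {l : P →* ℂˣ} (hl : FStab p P e (extP l)) (hl1 : l ≠ 1) :
    ∑ u : G with u ∈ P, (Nat.card (stab (nz P) e ⊓ cz (Subgroup.zpowers u) : Subgroup G) : ℂ) *
      (extP l u * rk p (cz (Subgroup.zpowers u)) (f u)) = 0 := by
  classical
  have hfi := Fintype.ofFinite (IrrCharacter G)
  obtain ⟨Ω, hΩ, hΩ2⟩ := exists_Om (p := p) hB
  have hlab := isLab_labF hm hl (isGen_extP l)
  have h1 := sum_lab_rk hMp hB hΩ (lb p P e l) (hfi := hfi)
  have h2 : ∀ χ ∈ univ.filter (fun χ : IrrCharacter G => χ ∈ B),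
      classInner (stc p (lb p P e l) (EG M B) (χ : G → ℂ)) (χ : G → ℂ) = 0 := by
    intro χ hχ
    have hχB := (Finset.mem_filter.mp hχ).2
    obtain ⟨ψ, hψ, hψe⟩ := exists_tw hMp hB hm hl hχB
    rw [← hψe]
    apply classInner_of_irr_ne ψ.2 χ.2
    intro h
    apply hl1
    ext u
    have h3 := lab_eq_one_of_fixed hMp hB (fun _ _ _ hI hr => lb_unit hm l hI hr) hχB
      (by rw [← hψe, h]) (hm.isPEl u.2) (hm.1.of_ple' (hf u u.2))
      (cnk_ne_zero_of_central hMp hB hm hχB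
        ⟨u.2, Subgroup.mem_centralizer_iff.mpr fun y hy => hab y hy u u.2⟩ (hf u u.2))
    rw [lb_self hl (hf u u.2) (Subgroup.mem_zpowers _), extP_mem _ u.2] at h3
    exact h3
  rw [Finset.sum_congr rfl h2, Finset.sum_const_zero, mul_zero] at h1
  have h3 := fus_count hm (K := stab (nz P) e) le_rfl
    (fun Q g hg => hm.inner_of_abelian hab Q g hg) Ω hΩ f hf
    (fun x g => lb p P e l (Subgroup.zpowers x) g x *
      (rk p (cz (Subgroup.zpowers x)) g : ℂ)) (by
      intro g ω hω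
      obtain ⟨h4, h5⟩ := (hΩ ω.1 ω.2).mp hω
      rw [← cg_zpowers, ← cg_cz, rk_cj hMp h5.2.1.2]
      congr 1
      exact hlab.cjg g _ _ h5 _ (Subgroup.mem_zpowers _))
  rw [h1, mul_zero] at h3
  have h0 : (Nat.card G : ℂ) ≠ 0 := by exact_mod_cast Nat.card_pos.ne'
  have h4 := (mul_eq_zero.mp h3.symm).resolve_left h0
  rw [← h4]
  apply Finset.sum_congr rfl
  intro u hu
  have huP : u ∈ P := (Finset.mem_filter.mp hu).2
  rw [lb_self hl (hf u huP) (Subgroup.mem_zpowers _)]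

end Sum

end Cfsg.Agent.H26
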