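import Mathlib
import Cfsg.Agent.H26.Wat1

set_option autoImplicit false

/-!
# Watanabe's theorem, II
-/

namespace Cfsg.Agent.H26

open MonoidAlgebra MulAction Cfsg Cfsg.Agent.H11 Cfsg.Agent.H3 Finset
open scoped ComplexConjugate commutatorElement

universe u

section Key

variable {M : Ideal AlgInt} [hM : M.IsPrime] {p : ℕ} [hp : Fact p.Prime] [hch : CharP (KF M) p]
variable {G : Type u} [Group G] [Fintype G] {P : Subgroup G} {E e : MonoidAlgebra (KF M) G}

theorem fstab_of_foc (hm : MaxB p E P e) (hab : ∀ x ∈ P, ∀ y ∈ P, x * y = y * x)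
    {l : P →* ℂˣ} (hl : (foc P (stab (nz P) e)).subgroupOf P ≤ l.ker) :
    FStab p P e (extP l) := by
  intro Q g hg r hr
  obtain ⟨a, ha, hag⟩ := hm.inner_of_abelian hab Q g hg
  have hrP : r ∈ P := hg.le hr
  have hgr : g * r * g⁻¹ ∈ P := hg.1 ⟨r, hr, rfl⟩
  rw [extP_mem l hrP, extP_mem l hgr]
  have h1 : r⁻¹ * (g * r * g⁻¹) ∈ foc P (stab (nz P) e) := by
    rw [hag r hr]
    exact Subgroup.subset_closure ⟨r, hrP, a, ha, rfl⟩
  have h2 : (⟨r, hrP⟩ : P)⁻¹ * ⟨g * r * g⁻¹, hgr⟩ ∈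
    (foc P (stab (nz P) e)).subgroupOf P := h1
  have h3 := (MonoidHom.mem_ker).mp (hl h2)
  rw [map_mul, map_inv, inv_mul_eq_one] at h3
  rw [h3]

open Classical in
theorem wat_key (hMp : IsPModular p M) {B : Set (IrrCharacter G)} (hB : IsPBlock M B)
    (hm : MaxB p (EG M B) P e) (hab : ∀ x ∈ P, ∀ y ∈ P, x * y = y * x)
    (f : G → MonoidAlgebra (KF M) G) (hf : ∀ u ∈ P, PLE p (Subgroup.zpowers u) (f u) P e)
    {u : G} (hu : u ∈ P) (huT : ∀ t ∈ stab (nz P) e, t * u * t⁻¹ = u)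
    (hstep : ∀ y ∈ foc P (stab (nz P) e), y ∈ P → y ≠ 1 →
      rk p (cz (Subgroup.zpowers (u * y))) (f (u * y)) = rk p (cz (Subgroup.zpowers y)) (f y)) :
    rk p (cz (Subgroup.zpowers u)) (f u) = rk p (cz (Subgroup.zpowers 1)) (f 1) := by
  set T := stab (nz P) e with hT
  have hfP : Fintype P := Fintype.ofFinite P
  let K : Subgroup P := (foc P T).subgroupOf P
  have hcomm : commutator P ≤ K := by
    rw [commutator_def, Subgroup.commutator_le]
    intro a _ b _
    have : ⁅a, b⁆ = 1 := by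
      rw [commutatorElement_eq_one_iff_mul_comm]
      exact Subtype.ext (hab a a.2 b b.2)
    rw [this]; exact K.one_mem
  let A : P → ℂ := fun x => (Nat.card (T ⊓ cz (Subgroup.zpowers (x : G)) : Subgroup G) : ℂ) *
    (rk p (cz (Subgroup.zpowers (x : G))) (f x) : ℂ)
  have hA : ∀ l : P →* ℂˣ, K ≤ l.ker → l ≠ 1 → ∑ x, A x * (l x : ℂ) = 0 := by
    intro l hl hl1
    have h1 := sum_lin_rk hMp hB hm hab f hf (fstab_of_foc hm hab hl) hl1
    rw [← h1]
    symm
    have h2 : ∀ F : G → ℂ, ∑ v : G with v ∈ P, F v = ∑ x : P, F x := fun F =>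
      Finset.sum_subtype (univ.filter fun g : G => g ∈ P) (by simp) _
    rw [h2]
    apply Finset.sum_congr rfl
    intro x _
    rw [extP_mem l x.2]
    change _ = (Nat.card (T ⊓ cz (Subgroup.zpowers (x : G)) : Subgroup G) : ℂ) *
      (rk p (cz (Subgroup.zpowers (x : G))) (f x) : ℂ) * (l x : ℂ)
    ring
  have hK0 : (Nat.card (linK K) : ℂ) ≠ 0 := by exact_mod_cast Nat.card_pos.ne'
  have h1 := coset_sums K hcomm A hA ⟨u, hu⟩
  have h2 := coset_sums K hcomm A hA 1
  have h3 := mul_left_cancel₀ hK0 (h1.trans h2.symm)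
  have h4 : ∑ x : P with (⟨u, hu⟩ : P)⁻¹ * x ∈ K, A x = ∑ y : P with y ∈ K, A (⟨u, hu⟩ * y) := by
    symm
    apply Finset.sum_bij (fun y _ => ⟨u, hu⟩ * y)
    · intro y hy
      rw [Finset.mem_filter] at hy ⊢
      exact ⟨Finset.mem_univ _, by rw [inv_mul_cancel_left]; exact hy.2⟩
    · intro a _ b _ h; exact mul_left_cancel h
    · intro x hx
      exact ⟨⟨u, hu⟩⁻¹ * x, Finset.mem_filter.mpr ⟨Finset.mem_univ _, (Finset.mem_filter.mp hx).2⟩,
        mul_inv_cancel_left _ _⟩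
    · intro _ _; rfl
  have h5 : ∑ x : P with (1 : P)⁻¹ * x ∈ K, A x = ∑ y : P with y ∈ K, A y := by
    simp
  rw [h4, h5] at h3
  have hcent : ∀ y : G, (T ⊓ cz (Subgroup.zpowers (u * y)) : Subgroup G) =
      T ⊓ cz (Subgroup.zpowers y) := by
    intro y
    ext t
    rw [Subgroup.mem_inf, Subgroup.mem_inf]
    apply and_congr_right
    intro ht
    rw [mem_cz_zpowers, mem_cz_zpowers]
    have h6 : t * u = u * t := by
      have := huT t ht
      calc t * u = t * u * t⁻¹ * t := by group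
        _ = u * t := by rw [this]
    constructor
    · intro h
      have h7 : u * (t * y) = u * (y * t) := by
        calc u * (t * y) = (u * t) * y := by group
          _ = t * (u * y) := by rw [← h6]; group
          _ = u * y * t := h
          _ = _ := by group
      exact mul_left_cancel h7
    · intro h
      calc t * (u * y) = (t * u) * y := by group
        _ = u * (t * y) := by rw [h6]; group
        _ = _ := by rw [h]; group
  have h1K : (1 : P) ∈ univ.filter (fun y : P => y ∈ K) :=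
    Finset.mem_filter.mpr ⟨Finset.mem_univ _, K.one_mem⟩
  rw [← Finset.add_sum_erase _ _ h1K, ← Finset.add_sum_erase _ _ h1K] at h3
  have h6 : ∑ y ∈ (univ.filter (fun y : P => y ∈ K)).erase 1, A (⟨u, hu⟩ * y) =
      ∑ y ∈ (univ.filter (fun y : P => y ∈ K)).erase 1, A y := by
    apply Finset.sum_congr rfl
    intro y hy
    obtain ⟨hy1, hyK⟩ := Finset.mem_erase.mp hy
    have hyK' : (y : G) ∈ foc P T := (Finset.mem_filter.mp hyK).2
    change (Nat.card (T ⊓ cz (Subgroup.zpowers (u * (y : G))) : Subgroup G) : ℂ) *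
      (rk p (cz (Subgroup.zpowers (u * (y : G)))) (f (u * y)) : ℂ) =
      (Nat.card (T ⊓ cz (Subgroup.zpowers (y : G)) : Subgroup G) : ℂ) *
      (rk p (cz (Subgroup.zpowers (y : G))) (f y) : ℂ)
    rw [hcent, hstep y hyK' y.2 (fun h => hy1 (Subtype.ext h))]
  rw [h6] at h3
  have h7 := add_right_cancel h3
  change (Nat.card (T ⊓ cz (Subgroup.zpowers (u * ((1 : P) : G))) : Subgroup G) : ℂ) *
      (rk p (cz (Subgroup.zpowers (u * ((1 : P) : G)))) (f (u * ((1 : P) : G))) : ℂ) =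
      (Nat.card (T ⊓ cz (Subgroup.zpowers ((1 : P) : G)) : Subgroup G) : ℂ) *
      (rk p (cz (Subgroup.zpowers ((1 : P) : G))) (f ((1 : P) : G)) : ℂ) at h7
  rw [hcent, Subgroup.coe_one, mul_one] at h7
  have h8 : (Nat.card (T ⊓ cz (Subgroup.zpowers (1 : G)) : Subgroup G) : ℂ) ≠ 0 := by
    exact_mod_cast Nat.card_pos.ne'
  exact_mod_cast mul_left_cancel₀ h8 h7

end Key

section Loc

variable {M : Ideal AlgInt} [hM : M.IsPrime] {p : ℕ} [hp : Fact p.Prime] [hch : CharP (KF M) p]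
variable {G : Type u} [Group G] [Fintype G] {P : Subgroup G} {E e : MonoidAlgebra (KF M) G}

omit hp hch in
theorem rk_sub [hp : Fact p.Prime] (hMp : IsPModular p M) {C K : Subgroup G} (hCK : C ≤ K)
    {f : MonoidAlgebra (KF M) G} (hf : IsBlk C f) {g : MonoidAlgebra (KF M) K} (hg : up g = f) :
    rk p (C.subgroupOf K) g = rk p C f := by
  have := Fintype.ofFinite K
  have hb := isPBlock_bs hf
  have h1 := up_EH_sub (M := M) hCK (bs C f)
  rw [hb.2, ← hg] at h1
  have h2 := up_injective h1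
  have h3 : bs (C.subgroupOf K) g = irrMap (subE hCK) '' (bs C f) := by
    rw [← h2, hg]
    exact bs_EH (isPBlock_irrMap (subE hCK) hb.1)
  have := Fintype.ofFinite C
  have := Fintype.ofFinite (C.subgroupOf K)
  unfold rk
  rw [h3]
  exact blockRank_irrMap hMp _ hb.1

theorem ple_sup_central (he : IsBrP p P e) {Q R : Subgroup G} (hQR : Q ≤ R) (hcz : cz R = cz Q)
    (hRN : R ≤ nz Q) {f g : MonoidAlgebra (KF M) G} (hf : PLE p Q f P e) (hg : PLE p R g P e) :
    f = g := by
  have h1 := hf.of_le he hg hQR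
  have h2 := h1.nsub (hg.isBrP_left he) hRN
  have h3 := h2.2.2.2.2.2
  have hfb := (hf.isBrP_left he).2
  have hgb := (hg.isBrP_left he).2
  rw [hcz] at hgb
  have h4 : br R f = f := by
    have h5 : IsSup (cz R) f := by rw [hcz]; exact hfb.isSup
    exact h5.rst_eq
  rw [h4] at h3
  by_contra hne
  rw [hfb.mul_of_ne hgb hne] at h3
  exact hgb.ne_zero h3.symm

end Loc

end Cfsg.Agent.H26
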