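import Mathlib
import Cfsg.Agent.H26.Wat2

set_option autoImplicit false

/-!
# Watanabe's theorem, III
-/

namespace Cfsg.Agent.H26

open MonoidAlgebra MulAction Cfsg Cfsg.Agent.H11 Cfsg.Agent.H3 Finset
open scoped ComplexConjugate commutatorElement

universe u

section Loc

variable {M : Ideal AlgInt} [hM : M.IsPrime] {p : ℕ} [hp : Fact p.Prime] [hch : CharP (KF M) p]
variable {G : Type u} [Group G] [Fintype G] {P : Subgroup G} {E e : MonoidAlgebra (KF M) G}

omit [Fintype G] in
theorem le_cz_of_abelian (hab : ∀ x ∈ P, ∀ y ∈ P, x * y = y * x) {Q : Subgroup G} (hQ : Q ≤ P) :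
    P ≤ cz Q := by
  intro x hx
  rw [Subgroup.mem_centralizer_iff]
  exact fun y hy => hab y (hQ hy) x hx

omit [Fintype G] in
theorem abelian_um {K : Subgroup G} {P' : Subgroup K} (hP' : um P' = P)
    (hab : ∀ x ∈ P, ∀ y ∈ P, x * y = y * x) : ∀ x ∈ P', ∀ y ∈ P', x * y = y * x := by
  intro x hx y hy
  apply Subtype.ext
  exact hab x (by rw [← hP']; exact mem_um.mpr hx) y (by rw [← hP']; exact mem_um.mpr hy)

theorem mem_stab_up {K : Subgroup G} {P' : Subgroup K} {e' : MonoidAlgebra (KF M) K}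
    (hP' : um P' = P) (he' : up e' = e) (t : K) :
    t ∈ stab (nz P') e' ↔ (t : G) ∈ stab (nz P) e := by
  constructor
  · intro h
    refine ⟨?_, ?_⟩
    · have := mem_nz_um.mpr h.1
      rwa [hP'] at this
    · rw [← he', cj_up, h.2]
  · rintro ⟨h1, h2⟩
    refine ⟨?_, ?_⟩
    · rw [← mem_nz_um]; change (t : G) ∈ nz (um P'); rw [hP']; exact h1
    · apply up_injective
      rw [← cj_up]
      change cj (t : G) (up e') = up e'
      rw [he', h2]

/-- Ranks of local subsections. -/
theorem loc_rk (hMp : IsPModular p M) (he : IsBrP p P e)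
    (hab : ∀ x ∈ P, ∀ y ∈ P, x * y = y * x) {w v : G} (hw : w ∈ P) (hv : v ∈ P)
    {K : Subgroup G} (hK : K = cz (Subgroup.zpowers w))
    {F e' : MonoidAlgebra (KF M) K}
    {P' : Subgroup K} (he' : up e' = e) (hP' : um P' = P)
    (hm' : MaxB p F P' e') (v' : K) (hv' : (v' : G) = v)
    {f' : MonoidAlgebra (KF M) K}
    (hf' : PLE p (Subgroup.zpowers v') f' P' e')
    {fR : MonoidAlgebra (KF M) G}
    (hfR : PLE p (Subgroup.zpowers w ⊔ Subgroup.zpowers v) fR P e) :
    rk p (cz (Subgroup.zpowers v')) f' =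
      rk p (cz (Subgroup.zpowers w ⊔ Subgroup.zpowers v)) fR := by
  have hPK : P ≤ K := by
    rw [hK]; exact le_cz_of_abelian hab (by rw [Subgroup.zpowers_le]; exact hw)
  have heB := hm'.1.2.1
  have hab' := abelian_um hP' hab
  let w' : K := ⟨w, hPK hw⟩
  have hw'P : w' ∈ P' := by
    rw [← mem_um]
    change w ∈ um P'
    rw [hP']; exact hw
  have hv'P : v' ∈ P' := by
    rw [← mem_um, hP', hv']; exact hv
  have hRP : Subgroup.zpowers w' ⊔ Subgroup.zpowers v' ≤ P' :=
    sup_le (by rw [Subgroup.zpowers_le]; exact hw'P) (by rw [Subgroup.zpowers_le]; exact hv'P)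
  obtain ⟨f'R, hf'R⟩ := exists_ple heB (Subgroup.zpowers w' ⊔ Subgroup.zpowers v') hRP
  have humz : ∀ x : K, um (Subgroup.zpowers x) = Subgroup.zpowers (x : G) := by
    intro x
    rw [um, MonoidHom.map_zpowers]; rfl
  have hum : um (Subgroup.zpowers w' ⊔ Subgroup.zpowers v') =
      Subgroup.zpowers w ⊔ Subgroup.zpowers v := by
    rw [um_sup, humz, humz, hv']
  have hfK : Fintype K := Fintype.ofFinite K
  have hczw : cz (Subgroup.zpowers w') = ⊤ := by
    rw [eq_top_iff]
    intro x _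
    rw [mem_cz_zpowers]
    have hx : (x : G) ∈ cz (Subgroup.zpowers w) := hK ▸ x.2
    exact Subtype.ext (mem_cz_zpowers.mp hx)
  have hczR : cz (Subgroup.zpowers w' ⊔ Subgroup.zpowers v') = cz (Subgroup.zpowers v') := by
    rw [cz_sup, hczw, top_inf_eq]
  have h1 : f' = f'R := by
    apply ple_sup_central heB le_sup_right hczR _ hf' hf'R
    exact hRP.trans ((le_cz_of_abelian hab' (by rw [Subgroup.zpowers_le]; exact hv'P)).trans
      (centralizer_le_normalizer' _))
  have hczle : cz (um (Subgroup.zpowers w' ⊔ Subgroup.zpowers v')) ≤ K := by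
    rw [hum, hK]; exact cz_anti le_sup_left
  have h2 : up f'R = fR := by
    have h3 := ple_up hczle hf'R
    rw [hum, hP', he'] at h3
    exact ple_unique he _ h3 hfR
  have hCR : (cz (Subgroup.zpowers w ⊔ Subgroup.zpowers v)).subgroupOf K =
      cz (Subgroup.zpowers v') := by
    rw [← hczR, ← hum, ← um_cz_of_le hczle]
    ext x
    rw [Subgroup.mem_subgroupOf]
    exact mem_um
  rw [← hCR, h1]
  exact rk_sub hMp (by rw [hK]; exact cz_anti le_sup_left) (hfR.isBrP_left he).2 h2

/-- The rank theorem for a group. -/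
def WatR (p : ℕ) (M : Ideal AlgInt) [M.IsPrime] (G : Type u) [Group G] [Fintype G] : Prop :=
  ∀ {P : Subgroup G} {E e : MonoidAlgebra (KF M) G}, MaxB p E P e →
    (∀ x ∈ P, ∀ y ∈ P, x * y = y * x) → ∀ {u : G}, u ∈ P →
    (∀ t ∈ stab (nz P) e, t * u * t⁻¹ = u) → ∀ {f f1 : MonoidAlgebra (KF M) G},
    PLE p (Subgroup.zpowers u) f P e → PLE p (Subgroup.zpowers 1) f1 P e →
    rk p (cz (Subgroup.zpowers u)) f = rk p (cz (Subgroup.zpowers 1)) f1

theorem loc_step (hMp : IsPModular p M) (hm : MaxB p E P e)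
    (hab : ∀ x ∈ P, ∀ y ∈ P, x * y = y * x) {u v : G} (hu : u ∈ P) (hv : v ∈ P)
    (huT : ∀ t ∈ stab (nz P) e, t * u * t⁻¹ = u)
    [_hfK : Fintype (cz (Subgroup.zpowers v))]
    (hW : WatR p M (cz (Subgroup.zpowers v)))
    {fv fR : MonoidAlgebra (KF M) G} (hfv : PLE p (Subgroup.zpowers v) fv P e)
    (hfR : PLE p (Subgroup.zpowers v ⊔ Subgroup.zpowers u) fR P e) :
    rk p (cz (Subgroup.zpowers v)) fv =
      rk p (cz (Subgroup.zpowers v ⊔ Subgroup.zpowers u)) fR := by
  have he := hm.1.2.1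
  have hPK : P ≤ cz (Subgroup.zpowers v) :=
    le_cz_of_abelian hab (by rw [Subgroup.zpowers_le]; exact hv)
  obtain ⟨F, e', P', hF, he', hP', hm'⟩ := hm.down hfv hPK
  have heB := hm'.1.2.1
  have hab' := abelian_um hP' hab
  let u' : cz (Subgroup.zpowers v) := ⟨u, hPK hu⟩
  have hu'P : u' ∈ P' := by
    rw [← mem_um]
    change u ∈ um P'
    rw [hP']; exact hu
  obtain ⟨f'u, hf'u⟩ := exists_ple heB (Subgroup.zpowers u')
    (by rw [Subgroup.zpowers_le]; exact hu'P)
  obtain ⟨f'1, hf'1⟩ := exists_ple heB (Subgroup.zpowers (1 : cz (Subgroup.zpowers v)))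
    (by rw [Subgroup.zpowers_le]; exact P'.one_mem)
  have h1 := hW hm' hab' hu'P (by
    intro t ht
    apply Subtype.ext
    exact huT t ((mem_stab_up hP' he' t).mp ht)) hf'u hf'1
  have h2 := loc_rk hMp he hab hv hu rfl he' hP' hm' u' rfl hf'u hfR
  have hsup : Subgroup.zpowers v ⊔ Subgroup.zpowers 1 = Subgroup.zpowers v := by
    rw [Subgroup.zpowers_one_eq_bot, sup_bot_eq]
  have h3 := loc_rk hMp he hab hv P.one_mem rfl he' hP' hm' 1 rfl hf'1 (fR := fv)
    (by rw [hsup]; exact hfv)
  rw [hsup] at h3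
  rw [← h3, ← h1, h2]

omit [Fintype G] in
theorem zpowers_mul_sup (u y : G) : Subgroup.zpowers (u * y) ⊔ Subgroup.zpowers u =
    Subgroup.zpowers y ⊔ Subgroup.zpowers u := by
  apply le_antisymm
  · apply sup_le
    · rw [Subgroup.zpowers_le]
      exact Subgroup.mul_mem _ (Subgroup.mem_sup_right (Subgroup.mem_zpowers u))
        (Subgroup.mem_sup_left (Subgroup.mem_zpowers y))
    · exact le_sup_right
  · apply sup_le
    · rw [Subgroup.zpowers_le]
      have h1 : y = u⁻¹ * (u * y) := by group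
      have h2 : u⁻¹ * (u * y) ∈ Subgroup.zpowers (u * y) ⊔ Subgroup.zpowers u :=
        Subgroup.mul_mem _ (Subgroup.inv_mem _ (Subgroup.mem_sup_right (Subgroup.mem_zpowers u)))
          (Subgroup.mem_sup_left (Subgroup.mem_zpowers _))
      rwa [← h1] at h2
    · exact le_sup_right

end Loc

section Main

variable {M : Ideal AlgInt} [hM : M.IsPrime] {p : ℕ} [hp : Fact p.Prime] [hch : CharP (KF M) p]

theorem card_cz_lt {G : Type u} [Group G] [Fintype G] {v : G}
    (h : cz (Subgroup.zpowers v) ≠ ⊤) : Nat.card (cz (Subgroup.zpowers v)) < Nat.card G := by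
  rcases lt_or_eq_of_le (Subgroup.card_le_card_group (cz (Subgroup.zpowers v))) with h1 | h1
  · exact h1
  · exact absurd (Subgroup.eq_top_of_card_eq _ h1) h

theorem watR (hMp : IsPModular p M) : ∀ (n : ℕ) (G : Type u) [Group G] [Fintype G],
    Nat.card G ≤ n → WatR p M G := by
  intro n
  induction n with
  | zero =>
    intro G _ _ hn
    exact absurd hn (by have := Nat.card_pos (α := G); omega)
  | succ n ih =>
    intro G _ _ hn P E e hm hab u hu huT f f1 hf hf1
    have he := hm.1.2.1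
    obtain ⟨B, hB, rfl⟩ := exists_EG hm.1.1
    have hex : ∀ v : G, ∃ g, v ∈ P → PLE p (Subgroup.zpowers v) g P e := by
      intro v
      by_cases hv : v ∈ P
      · obtain ⟨g, hg⟩ := exists_ple he (Subgroup.zpowers v) (by rwa [Subgroup.zpowers_le])
        exact ⟨g, fun _ => hg⟩
      · exact ⟨e, fun h => absurd h hv⟩
    choose F hF using hex
    have hpT := hm.not_dvd_abelian hab
    have hne : ∀ y ∈ foc P (stab (nz P) e), y ≠ 1 → ¬ ∀ t ∈ stab (nz P) e, t * y * t⁻¹ = y := by
      intro y hy hy1 hfix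
      exact hy1 (foc_fixed_eq_one he.1 hab (stab_le _ _) hpT hy hfix)
    have hlt : ∀ v : G, (¬ ∀ t ∈ stab (nz P) e, t * v * t⁻¹ = v) →
        Nat.card (cz (Subgroup.zpowers v)) ≤ n := by
      intro v hv
      have h1 : cz (Subgroup.zpowers v) ≠ ⊤ := by
        intro htop
        apply hv
        intro t _
        have h2 : t ∈ cz (Subgroup.zpowers v) := by rw [htop]; exact Subgroup.mem_top t
        have h3 := mem_cz_zpowers.mp h2
        rw [h3]; group
      have := card_cz_lt h1
      omega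
    have key := wat_key hMp hB hm hab F (fun v hv => hF v hv) hu huT (by
      intro y hy hyP hy1
      have h1 := hne y hy hy1
      have h2 : ¬ ∀ t ∈ stab (nz P) e, t * (u * y) * t⁻¹ = u * y := by
        intro h
        apply h1
        intro t ht
        have h3 := h t ht
        have h4 := huT t ht
        have h5 : t * (u * y) * t⁻¹ = (t * u * t⁻¹) * (t * y * t⁻¹) := by group
        rw [h5, h4] at h3
        exact mul_left_cancel h3
      obtain ⟨fR, hfR⟩ := exists_ple he (Subgroup.zpowers y ⊔ Subgroup.zpowers u)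
        (sup_le (by rwa [Subgroup.zpowers_le]) (by rwa [Subgroup.zpowers_le]))
      have := Fintype.ofFinite (cz (Subgroup.zpowers (u * y)))
      have := Fintype.ofFinite (cz (Subgroup.zpowers y))
      have h6 := loc_step hMp hm hab hu (P.mul_mem hu hyP) huT
        (ih (cz (Subgroup.zpowers (u * y))) (hlt _ h2)) (hF _ (P.mul_mem hu hyP))
        (fR := fR) (by rw [zpowers_mul_sup]; exact hfR)
      have h7 := loc_step hMp hm hab hu hyP huT
        (ih (cz (Subgroup.zpowers y)) (hlt _ h1)) (hF _ hyP) hfR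
      rw [h6, h7, zpowers_mul_sup])
    have h8 : F u = f := ple_unique he _ (hF u hu) hf
    have h9 : F 1 = f1 := ple_unique he _ (hF 1 P.one_mem) hf1
    rw [h8, h9] at key
    exact key

end Main

end Cfsg.Agent.H26
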