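import Mathlib
import Cfsg.Agent.H26.Wat3

set_option autoImplicit false

/-!
# Watanabe's theorem, IV (S4644)
-/

namespace Cfsg.Agent.H26

open MonoidAlgebra MulAction Cfsg Cfsg.Agent.H11 Cfsg.Agent.H3 Finset
open scoped ComplexConjugate commutatorElement

universe u

section Cnt

variable {M : Ideal AlgInt} [hM : M.IsPrime] {p : ℕ} [hp : Fact p.Prime] [hch : CharP (KF M) p]
variable {G : Type u} [Group G] [Fintype G] {P : Subgroup G} {E e : MonoidAlgebra (KF M) G}

open Classical in
theorem wat_count (hMp : IsPModular p M) {B : Set (IrrCharacter G)} (hB : IsPBlock M B)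
    (hm : MaxB p (EG M B) P e) (hab : ∀ x ∈ P, ∀ y ∈ P, x * y = y * x)
    (f : G → MonoidAlgebra (KF M) G) (hf : ∀ u ∈ P, PLE p (Subgroup.zpowers u) (f u) P e) :
    (Nat.card (stab (nz P) e) : ℂ) * Nat.card B =
      ∑ u : G with u ∈ P, (Nat.card (stab (nz P) e ⊓ cz (Subgroup.zpowers u) : Subgroup G) : ℂ) *
        rk p (cz (Subgroup.zpowers u)) (f u) := by
  obtain ⟨Ω, hΩ, hΩ2⟩ := exists_Om (p := p) hB
  have h1 := total_rk hMp hB hΩ2
  have h3 := fus_count hm (K := stab (nz P) e) le_rfl
    (fun Q g hg => hm.inner_of_abelian hab Q g hg) Ω hΩ f hf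
    (fun x g => (rk p (cz (Subgroup.zpowers x)) g : ℂ)) (by
      intro g ω hω
      obtain ⟨h4, h5⟩ := (hΩ ω.1 ω.2).mp hω
      rw [← cg_zpowers, ← cg_cz, rk_cj hMp h5.2.1.2])
  rw [h1] at h3
  have h0 : (Nat.card G : ℂ) ≠ 0 := by exact_mod_cast Nat.card_pos.ne'
  apply mul_left_cancel₀ h0
  rw [← h3]
  ring

theorem eq_of_ple_one (hm : MaxB p E P e) {f : MonoidAlgebra (KF M) G}
    (hf : PLE p (Subgroup.zpowers 1) f P e) : f = E := by
  have h1 := hm.1.of_ple' hf
  have h2 : f ∈ bf (cz (Subgroup.zpowers (1 : G))) (br (Subgroup.zpowers (1 : G)) E) :=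
    mem_bf.mpr ⟨h1.2.1.2, h1.2.2⟩
  rw [bf_top h1.1, Finset.mem_singleton] at h2
  exact h2

/-- Watanabe's theorem. -/
theorem watanabe (hMp : IsPModular p M) {B : Set (IrrCharacter G)} (hB : IsPBlock M B)
    (hm : MaxB p (EG M B) P e) (hab : ∀ x ∈ P, ∀ y ∈ P, x * y = y * x)
    {u : G} (hu : u ∈ P) (huT : ∀ t ∈ stab (nz P) e, t * u * t⁻¹ = u)
    {b : Set (IrrCharacter (cz (Subgroup.zpowers u)))} (hb : IsPBlock M b)
    (hf : PLE p (Subgroup.zpowers u) (EH M (cz (Subgroup.zpowers u)) b) P e) :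
    blockRank p B = blockRank p b ∧ Nat.card B = Nat.card b := by
  classical
  have he := hm.1.2.1
  have hW : ∀ (G : Type u) [Group G] [Fintype G], WatR p M G := fun G _ _ =>
    watR hMp (Nat.card G) G le_rfl
  obtain ⟨f1, hf1⟩ := exists_ple he (Subgroup.zpowers (1 : G))
    (by rw [Subgroup.zpowers_le]; exact P.one_mem)
  have hbot : Subgroup.zpowers (1 : G) = ⊥ := Subgroup.zpowers_one_eq_bot
  refine ⟨?_, ?_⟩
  · have h1 := hW G hm hab hu huT hf hf1
    rw [eq_of_ple_one hm hf1, hbot, rk_bot hMp hB, rk_EH hb] at h1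
    exact h1.symm
  · have hPK : P ≤ cz (Subgroup.zpowers u) :=
      le_cz_of_abelian hab (by rw [Subgroup.zpowers_le]; exact hu)
    obtain ⟨F, e', P', hF, he', hP', hm'⟩ := hm.down hf hPK
    have hfK : Fintype (cz (Subgroup.zpowers u)) := Fintype.ofFinite _
    have hFb : F = EG M b := up_injective (by rw [hF, up_EG])
    rw [hFb] at hm'
    have heB := hm'.1.2.1
    have hab' := abelian_um hP' hab
    have hex : ∀ v : G, ∃ g, v ∈ P → PLE p (Subgroup.zpowers v) g P e := by
      intro v
      by_cases hv : v ∈ P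
      · obtain ⟨g, hg⟩ := exists_ple he (Subgroup.zpowers v) (by rwa [Subgroup.zpowers_le])
        exact ⟨g, fun _ => hg⟩
      · exact ⟨e, fun h => absurd h hv⟩
    choose f hf' using hex
    have hex' : ∀ v : cz (Subgroup.zpowers u), ∃ g, v ∈ P' →
        PLE p (Subgroup.zpowers v) g P' e' := by
      intro v
      by_cases hv : v ∈ P'
      · obtain ⟨g, hg⟩ := exists_ple heB (Subgroup.zpowers v) (by rwa [Subgroup.zpowers_le])
        exact ⟨g, fun _ => hg⟩
      · exact ⟨e', fun h => absurd h hv⟩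
    choose g hg using hex'
    have hc1 := wat_count hMp hB hm hab f (fun v hv => hf' v hv)
    have hc2 := wat_count hMp hb hm' hab' g (fun v hv => hg v hv)
    have hTK : stab (nz P) e ≤ cz (Subgroup.zpowers u) := by
      intro t ht
      rw [mem_cz_zpowers]
      have := huT t ht
      calc t * u = t * u * t⁻¹ * t := by group
        _ = u * t := by rw [this]
    have hT' : um (stab (nz P') e') = stab (nz P) e := by
      ext t
      constructor
      · rintro ⟨t', ht', rfl⟩
        exact (mem_stab_up hP' he' t').mp ht'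
      · intro ht
        exact ⟨⟨t, hTK ht⟩, (mem_stab_up hP' he' _).mpr ht, rfl⟩
    have hcard : Nat.card (stab (nz P') e') = Nat.card (stab (nz P) e) := by
      rw [← card_um, hT']
    rw [hcard] at hc2
    have hsum : ∑ v : cz (Subgroup.zpowers u) with v ∈ P',
        (Nat.card (stab (nz P') e' ⊓ cz (Subgroup.zpowers v) :
          Subgroup (cz (Subgroup.zpowers u))) : ℂ) * rk p (cz (Subgroup.zpowers v)) (g v) =
        ∑ v : G with v ∈ P, (Nat.card (stab (nz P) e ⊓ cz (Subgroup.zpowers v) :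
          Subgroup G) : ℂ) * rk p (cz (Subgroup.zpowers v)) (f v) := by
      apply Finset.sum_bij (fun (v : cz (Subgroup.zpowers u)) _ => (v : G))
      · intro v hv
        rw [Finset.mem_filter]
        refine ⟨Finset.mem_univ _, ?_⟩
        rw [← hP']
        exact mem_um.mpr (Finset.mem_filter.mp hv).2
      · intro a _ b _ h; exact Subtype.ext h
      · intro v hv
        have hvP : v ∈ P := (Finset.mem_filter.mp hv).2
        refine ⟨⟨v, hPK hvP⟩, ?_, rfl⟩
        rw [Finset.mem_filter]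
        refine ⟨Finset.mem_univ _, ?_⟩
        rw [← mem_um]
        change v ∈ um P'
        rw [hP']; exact hvP
      · intro v hv
        have hvP' : v ∈ P' := (Finset.mem_filter.mp hv).2
        have hvP : (v : G) ∈ P := by rw [← hP']; exact mem_um.mpr hvP'
        have h1 : Nat.card (stab (nz P') e' ⊓ cz (Subgroup.zpowers v) :
            Subgroup (cz (Subgroup.zpowers u))) =
            Nat.card (stab (nz P) e ⊓ cz (Subgroup.zpowers (v : G)) : Subgroup G) := by
          have h2 : um (stab (nz P') e' ⊓ cz (Subgroup.zpowers v)) =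
              stab (nz P) e ⊓ cz (Subgroup.zpowers (v : G)) := by
            ext t
            constructor
            · rintro ⟨t', ht', rfl⟩
              exact ⟨(mem_stab_up hP' he' t').mp ht'.1,
                mem_cz_zpowers.mpr (congrArg Subtype.val (mem_cz_zpowers.mp ht'.2))⟩
            · rintro ⟨ht1, ht2⟩
              exact ⟨⟨t, hTK ht1⟩, ⟨(mem_stab_up hP' he' _).mpr ht1,
                mem_cz_zpowers.mpr (Subtype.ext (mem_cz_zpowers.mp ht2))⟩, rfl⟩
          rw [← card_um, h2]
        obtain ⟨fR, hfR⟩ := exists_ple he (Subgroup.zpowers u ⊔ Subgroup.zpowers (v : G))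
          (sup_le (by rwa [Subgroup.zpowers_le]) (by rwa [Subgroup.zpowers_le]))
        have h3 := loc_rk hMp he hab hu hvP rfl he' hP' hm' v rfl (hg v hvP') hfR
        have hfv : Fintype (cz (Subgroup.zpowers (v : G))) := Fintype.ofFinite _
        have h4 := loc_step hMp hm hab hu hvP huT (hW _) (hf' _ hvP) (fR := fR)
          (by rw [sup_comm]; exact hfR)
        rw [h1, h3, h4, sup_comm]
    rw [hsum, ← hc1] at hc2
    have h0 : (Nat.card (stab (nz P) e) : ℂ) ≠ 0 := by exact_mod_cast Nat.card_pos.ne'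
    exact_mod_cast (mul_left_cancel₀ h0 hc2).symm

end Cnt

theorem st4644 {G : Type u} [Group G] [Finite G] (p : ℕ) [Fact p.Prime] (M : Ideal AlgInt)
    (hM : IsPModular p M) (B : Set (IrrCharacter G)) (hB : IsPBlock M B) (P : Subgroup G)
    (hPD : IsDefectGroup p M B P) (hPab : ∀ x ∈ P, ∀ y ∈ P, x * y = y * x)
    (c : Set (IrrCharacter (Subgroup.centralizer (P : Set G))))
    (hc : IsInducedBlock M (Subgroup.centralizer (P : Set G)) c B) (T : Subgroup G)
    (hT : ∀ g : G, g ∈ T ↔ (g ∈ Subgroup.normalizer (P : Set G) ∧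
      StabilizesBlock (Subgroup.centralizer (P : Set G)) c g)) (u : G) (hu : u ∈ P)
    (huT : ∀ g ∈ T, g * u * g⁻¹ = u) (H : Subgroup G)
    (hH : H = Subgroup.centralizer ({u} : Set G)) (f : Set (IrrCharacter H))
    (hf : IsInducedBlockIn M H (Subgroup.centralizer (P : Set G)) c f) :
    blockRank p B = blockRank p f ∧ Nat.card B = Nat.card f := by
  have := Fintype.ofFinite G
  have := pmod_isPrime hM
  have := charP_KF hM
  obtain ⟨hcb, hm⟩ := maxB_of_induced p M hM B hB P hPD c hc
  have hTs : T = stab (nz P) (EH M (cz P) c) := eq_stab hcb hT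
  obtain rfl : H = cz (Subgroup.zpowers u) := hH.trans (centralizer_zpowers u).symm
  have hPp : IsPGroup p P := hm.1.2.1.1
  have hQP : Subgroup.zpowers u ≤ P := by rwa [Subgroup.zpowers_le]
  rw [isInducedBlockIn_cz_iff hPp hQP (le_cz_of_abelian hPab hQP)] at hf
  exact watanabe hM hB hm hPab hu (by rw [← hTs]; exact huT) hf.2.1 hf.2.2.ple

end Cfsg.Agent.H26
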