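import Mathlib
import Cfsg.Agent.H26.SCore
import Cfsg.Agent.H3.DegRatio
import Cfsg.Agent.H11.Laradji
import Cfsg.Agent.H27.Kernel

set_option autoImplicit false

namespace Cfsg.Agent.H26

open MonoidAlgebra MulAction Cfsg Cfsg.Agent.H11 Cfsg.Agent.H3

universe u

section Deg

variable {X : Type u} [Group X] [Fintype X] {A : Subgroup X} [hA : A.Normal] [Fintype A]
  {p : ℕ} [hp : Fact p.Prime]

theorem card_fact (A : Subgroup X) : (Nat.card X).factorization p =
    A.index.factorization p + (Nat.card A).factorization p := by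
  rw [← Subgroup.card_mul_index A, Nat.factorization_mul Nat.card_pos.ne'
    Subgroup.index_ne_zero_of_finite, Finsupp.add_apply]
  omega

theorem deg_fact_of_full {χ : IrrCharacter X} {ψ : IrrCharacter A}
    (h : classInner (fun n : A => (χ : X → ℂ) n) (ψ : A → ℂ) ≠ 0)
    (hχ : (charDegree (χ : X → ℂ)).factorization p = (Nat.card X).factorization p) :
    (charDegree (ψ : A → ℂ)).factorization p = (Nat.card A).factorization p := by
  obtain ⟨h1, h2⟩ := ratio_dvd_index hA χ.2 ψ.2 h _ _ (charDegree_spec χ.2).1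
    (charDegree_spec ψ.2).1
  have hd := irr_degree_dvd_card ψ.2 (charDegree_spec ψ.2).1
  obtain ⟨m, hm⟩ := h1
  have hm0 : m ≠ 0 := by
    rintro rfl
    rw [mul_zero] at hm
    exact (charDegree_spec χ.2).2 hm
  rw [hm, Nat.mul_div_cancel_left _ (Nat.pos_of_ne_zero (charDegree_spec ψ.2).2)] at h2
  have h3 := (Nat.factorization_le_iff_dvd hm0 Subgroup.index_ne_zero_of_finite).mpr h2 p
  have h4 := (Nat.factorization_le_iff_dvd (charDegree_spec ψ.2).2 Nat.card_pos.ne').mpr hd p
  rw [hm, Nat.factorization_mul (charDegree_spec ψ.2).2 hm0, Finsupp.add_apply, card_fact A] at hχ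
  omega

/-- no nontrivial normal `p`-subgroups when there is a character of full `p`-degree -/
theorem bot_of_full {χ : IrrCharacter X}
    (hχ : (charDegree (χ : X → ℂ)).factorization p = (Nat.card X).factorization p)
    (hAp : IsPGroup p A) : A = ⊥ := by
  obtain ⟨ψ, hψ⟩ := exists_constituent_restrict (N := A) χ
  have h1 := deg_fact_of_full hψ hχ
  have hfin : Fintype (IrrCharacter A) := Fintype.ofFinite _
  have h2 := sum_degree_sq (G := A)
  have hd := irr_degree_dvd_card ψ.2 (charDegree_spec ψ.2).1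
  obtain ⟨n, hn⟩ := (IsPGroup.iff_card).mp hAp
  rw [hn] at hd h1
  obtain ⟨j, -, hj⟩ := (Nat.dvd_prime_pow hp.out).mp hd
  rw [hj, Nat.Prime.factorization_pow hp.out, Nat.Prime.factorization_pow hp.out] at h1
  simp only [Finsupp.single_eq_same] at h1
  rw [h1] at hj
  have h3 : ∑ ξ : IrrCharacter A, (charDegree (ξ : A → ℂ)) ^ 2 = Nat.card A := by
    have h4 : ∑ ξ : IrrCharacter A, ((charDegree (ξ : A → ℂ) : ℂ)) ^ 2 = (Nat.card A : ℂ) := by
      rw [← h2]
      exact Finset.sum_congr rfl (fun ξ _ => by rw [(charDegree_spec ξ.2).1])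
    exact_mod_cast h4
  have h5 : (charDegree (ψ : A → ℂ)) ^ 2 ≤ Nat.card A := by
    rw [← h3]
    exact Finset.single_le_sum (f := fun ξ : IrrCharacter A => (charDegree (ξ : A → ℂ)) ^ 2)
      (fun ξ _ => Nat.zero_le _) (Finset.mem_univ ψ)
  rw [hj, ← hn] at h5
  have h6 : Nat.card A ≤ 1 := by
    have : 0 < Nat.card A := Nat.card_pos
    nlinarith
  exact Subgroup.eq_bot_of_card_le A h6

end Deg

section St

variable {G : Type u} [Group G] [Fintype G] {p : ℕ} [hp : Fact p.Prime]

theorem st4694 (p : ℕ) [hp : Fact p.Prime] (M : Ideal AlgInt) (hM : IsPModular p M)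
    (B : Set (IrrCharacter G)) (Q : Subgroup G)
    (e : Set (IrrCharacter (Subgroup.centralizer (Q : Set G))))
    (hQe : IsBrauerPairOf p M B Q e) (T : Subgroup G)
    (hT : ∀ y : G, y ∈ T ↔ y ∈ Subgroup.normalizer (Q : Set G) ∧
      StabilizesBlock (Subgroup.centralizer (Q : Set G)) e y)
    (F' : Set (IrrCharacter T)) (hF' : IsPBlock M F')
    (hF'e : ∀ t : T, blockCoeff F' t =
      subgroupBlockCoeff (Subgroup.centralizer (Q : Set G)) e (t : G))
    (χ : IrrCharacter T) (hχ : χ ∈ F')
    (hχQ : ∀ q : G, q ∈ Q → ∀ t : T, ∀ t' : T, (t' : G) = q * (t : G) →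
      (χ : T → ℂ) t' = (χ : T → ℂ) t)
    (hdeg : (charDegree (χ : T → ℂ)).factorization p + (Nat.card Q).factorization p =
      (Nat.card T).factorization p) :
    IsDefectGroup p M e ((Q ⊓ Subgroup.centralizer (Q : Set G)).subgroupOf
      (Subgroup.centralizer (Q : Set G))) ∧
    ∀ R : Subgroup G, R ≤ T → IsPGroup p R →
      (∀ t ∈ T, t ∈ Subgroup.normalizer (R : Set G)) → R ≤ Q := by
  have hpr : M.IsPrime := hM.2.1.isPrime
  have hch : CharP (KF M) p := charP_KF hM
  rw [isBrauerPairOf_iff_inB] at hQe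
  obtain ⟨hB, he, hin⟩ := hQe
  have hQp : IsPGroup p Q := hin.2.1.1
  have hbe := isBlk_EH he
  have hCT : cz Q ≤ T := by
    intro y hy
    rw [hT, stabilizesBlock_iff he]
    exact ⟨centralizer_le_normalizer' Q hy, Subgroup.le_normalizer hy, hbe.isFx y hy⟩
  have hTN : T ≤ nz Q := fun y hy => ((hT y).mp hy).1
  have hQT : Q ≤ T := by
    intro y hy
    rw [hT, stabilizesBlock_iff he]
    have h1 : y ∈ nz Q := Subgroup.le_normalizer hy
    refine ⟨h1, normalizer_le_normalizer_centralizer Q h1, ?_⟩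
    exact isFx_of_isSup_cz hbe.isSup y hy
  have hQn : (Q.subgroupOf T).Normal := by
    constructor
    intro n hn g
    rw [Subgroup.mem_subgroupOf] at hn ⊢
    exact (Subgroup.mem_normalizer_iff.mp (hTN g.2) n).mp hn
  have hCn : ((cz Q).subgroupOf T).Normal := by
    constructor
    intro n hn g
    rw [Subgroup.mem_subgroupOf] at hn ⊢
    exact (Subgroup.mem_normalizer_iff.mp
      (normalizer_le_normalizer_centralizer Q (hTN g.2)) n).mp hn
  -- the deflation
  have hfinT : Fintype T := Fintype.ofFinite _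
  obtain ⟨φ, hφ, hχφ⟩ := H27.exists_quotient_irr (N := Q.subgroupOf T) χ.2 (by
    intro n hn
    exact hχQ (n : G) hn 1 n (by simp))
  have hfinq : Fintype (T ⧸ Q.subgroupOf T) := Fintype.ofFinite _
  have hcardQ : Nat.card (Q.subgroupOf T) = Nat.card Q :=
    Nat.card_congr (Subgroup.subgroupOfEquivOfLe hQT).toEquiv
  have hcardq : (Nat.card T).factorization p =
      (Nat.card (T ⧸ Q.subgroupOf T)).factorization p + (Nat.card Q).factorization p := by
    have h1 := card_fact (p := p) (Q.subgroupOf T)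
    rw [hcardQ] at h1
    exact h1
  have hdφ : charDegree φ = charDegree (χ : T → ℂ) := by
    have h1 := hχφ 1
    unfold charDegree
    rw [h1]
    rfl
  have hfull : (charDegree ((⟨φ, hφ⟩ : IrrCharacter (T ⧸ Q.subgroupOf T)) :
      T ⧸ Q.subgroupOf T → ℂ)).factorization p =
      (Nat.card (T ⧸ Q.subgroupOf T)).factorization p := by
    change (charDegree φ).factorization p = _
    rw [hdφ]
    omega
  constructor
  · -- the centralizer
    have hCbn : (((cz Q).subgroupOf T).map (QuotientGroup.mk' (Q.subgroupOf T))).Normal :=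
      hCn.map _ (QuotientGroup.mk'_surjective _)
    have hfinC : Fintype (((cz Q).subgroupOf T).map (QuotientGroup.mk' (Q.subgroupOf T))) :=
      Fintype.ofFinite _
    have hfinC' : Fintype (cz Q) := Fintype.ofFinite _
    obtain ⟨θb, hθb⟩ := exists_constituent_restrict
      (N := ((cz Q).subgroupOf T).map (QuotientGroup.mk' (Q.subgroupOf T)))
      (⟨φ, hφ⟩ : IrrCharacter (T ⧸ Q.subgroupOf T))
    have hdθ := deg_fact_of_full hθb hfull
    let f : cz Q →* (((cz Q).subgroupOf T).map (QuotientGroup.mk' (Q.subgroupOf T))) :=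
      { toFun := fun c => ⟨QuotientGroup.mk' (Q.subgroupOf T) ⟨(c : G), hCT c.2⟩,
          ⟨⟨(c : G), hCT c.2⟩, c.2, rfl⟩⟩
        map_one' := Subtype.ext (map_one (QuotientGroup.mk' (Q.subgroupOf T)))
        map_mul' := fun a b => Subtype.ext (map_mul (QuotientGroup.mk' (Q.subgroupOf T))
          ⟨(a : G), hCT a.2⟩ ⟨(b : G), hCT b.2⟩) }
    have hf : Function.Surjective f := by
      rintro ⟨_, c, hc, rfl⟩
      exact ⟨⟨(c : G), hc⟩, rfl⟩
    have hker : f.ker = (Q ⊓ cz Q).subgroupOf (cz Q) := by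
      ext c
      rw [MonoidHom.mem_ker, Subgroup.mem_subgroupOf]
      constructor
      · intro h
        have h1 : QuotientGroup.mk' (Q.subgroupOf T) ⟨(c : G), hCT c.2⟩ = 1 :=
          congrArg Subtype.val h
        rw [QuotientGroup.mk'_apply, QuotientGroup.eq_one_iff] at h1
        exact ⟨h1, c.2⟩
      · intro h
        apply Subtype.ext
        change QuotientGroup.mk' (Q.subgroupOf T) ⟨(c : G), hCT c.2⟩ = 1
        rw [QuotientGroup.mk'_apply, QuotientGroup.eq_one_iff]
        exact h.1
    obtain ⟨θ, hθ⟩ : ∃ θ : IrrCharacter (cz Q), (θ : cz Q → ℂ) = fun c => θb.1 (f c) :=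
      ⟨⟨_, isIrr_comp_surjective θb.2 f hf⟩, rfl⟩
    have hinn : classInner (fun n : cz Q => (χ : T → ℂ) ⟨(n : G), hCT n.2⟩) (θ : cz Q → ℂ) ≠ 0 := by
      have h1 := H27.classInner_comp_surjective f hf
        (fun n => φ (n : T ⧸ Q.subgroupOf T)) θb.1
      rw [hθ]
      have h2 : (fun n : cz Q => (χ : T → ℂ) ⟨(n : G), hCT n.2⟩) =
          fun n => φ ((f n : _) : T ⧸ Q.subgroupOf T) := by
        funext n
        exact hχφ _
      rw [h2, h1]
      exact hθb
    -- θ lies in e
    have hEE : EH M T F' = EH M (cz Q) e := by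
      ext g
      rw [coeff_EH, coeff_EH]
      congr 1
      by_cases hg : g ∈ T
      · have h1 : subgroupBlockCoeff T F' g = blockCoeff F' ⟨g, hg⟩ := by
          unfold subgroupBlockCoeff
          rw [dif_pos hg]
        rw [h1]; exact hF'e ⟨g, hg⟩
      · have h1 : subgroupBlockCoeff T F' g = 0 := by
          unfold subgroupBlockCoeff
          rw [dif_neg hg]
        have h2 : subgroupBlockCoeff (cz Q) e g = 0 := by
          unfold subgroupBlockCoeff
          rw [dif_neg (fun h => hg (hCT h))]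
        rw [h1, h2]
    have hθe : θ ∈ e := mem_of_inner_sub hCT hCn hF' he (by rw [hEE]; exact hbe.idem) hχ hinn
    rw [isPBlock_eq_blockOf he hθe]
    have hDz : (Q ⊓ cz Q).subgroupOf (cz Q) ≤ Subgroup.center (cz Q) := by
      intro d hd
      rw [Subgroup.mem_center_iff]
      intro g
      apply Subtype.ext
      exact (Subgroup.mem_centralizer_iff.mp g.2 (d : G) hd.1).symm
    apply laradji_defect hM _ hDz
    · -- degree
      have h1 : charDegree (θ : cz Q → ℂ) = charDegree θb.1 := by
        unfold charDegree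
        rw [hθ]
        simp only [map_one]
      have h2 : ((Q ⊓ cz Q).subgroupOf (cz Q)).index =
          Nat.card (((cz Q).subgroupOf T).map (QuotientGroup.mk' (Q.subgroupOf T))) := by
        rw [← hker, Subgroup.index_ker, MonoidHom.range_eq_top.mpr hf]
        exact Nat.card_congr Subgroup.topEquiv.toEquiv
      rw [h1, h2]
      exact hdθ
    · exact (hQp.to_le inf_le_left).comap_subtype
  · intro R hRT hRp hRn
    have hRbn : ((R.subgroupOf T).map (QuotientGroup.mk' (Q.subgroupOf T))).Normal := by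
      apply Subgroup.Normal.map _ _ (QuotientGroup.mk'_surjective _)
      constructor
      intro n hn g
      rw [Subgroup.mem_subgroupOf] at hn ⊢
      exact (Subgroup.mem_normalizer_iff.mp (hRn g g.2) n).mp hn
    have hfinR : Fintype ((R.subgroupOf T).map (QuotientGroup.mk' (Q.subgroupOf T))) :=
      Fintype.ofFinite _
    have h1 := bot_of_full (A := (R.subgroupOf T).map (QuotientGroup.mk' (Q.subgroupOf T)))
      hfull (IsPGroup.map (hRp.comap_subtype) _)
    intro r hr
    have h2 : QuotientGroup.mk' (Q.subgroupOf T) ⟨r, hRT hr⟩ ∈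
        (R.subgroupOf T).map (QuotientGroup.mk' (Q.subgroupOf T)) := ⟨⟨r, hRT hr⟩, hr, rfl⟩
    rw [h1, Subgroup.mem_bot, QuotientGroup.mk'_apply, QuotientGroup.eq_one_iff] at h2
    exact h2

end St

end Cfsg.Agent.H26
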